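import Mathlib
import Cfsg.Agent.Lib.helper12.DkA5
import Cfsg.Agent.Lib.helper12.InvGraph

/-!
# Counting `(2,3,5)`-pairs and subgroups isomorphic to `A₅`
-/

namespace Cfsg.Agent.Lib.helper12

open scoped MatrixGroups

section generic

theorem card_pairs_fiber {α β : Type*} [Finite α] [Finite β] (P : α → Prop) (Q : α → β → Prop)
    (n m : ℕ) (hP : Nat.card {a // P a} = n) (hQ : ∀ a, P a → Nat.card {b // Q a b} = m) :
    Nat.card {p : α × β // P p.1 ∧ Q p.1 p.2} = n * m := by
  classical
  haveI := Fintype.ofFinite α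
  have e : {p : α × β // P p.1 ∧ Q p.1 p.2} ≃ Σ a : {a // P a}, {b // Q a.1 b} :=
    { toFun := fun p => ⟨⟨p.1.1, p.2.1⟩, ⟨p.1.2, p.2.2⟩⟩
      invFun := fun s => ⟨(s.1.1, s.2.1), s.1.2, s.2.2⟩
      left_inv := fun p => rfl
      right_inv := fun s => rfl }
  rw [Nat.card_congr e, Nat.card_sigma, Finset.sum_congr rfl (fun a _ => hQ a.1 a.2),
    Finset.sum_const, Finset.card_univ, smul_eq_mul, ← Nat.card_eq_fintype_card, hP]

theorem card_fiber_const {α β : Type*} [Finite α] [Finite β] (f : α → β) (m : ℕ)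
    (h : ∀ b, Nat.card {a // f a = b} = m) : Nat.card α = Nat.card β * m := by
  classical
  haveI := Fintype.ofFinite β
  rw [← Nat.card_congr (Equiv.sigmaFiberEquiv f), Nat.card_sigma,
    Finset.sum_congr rfl (fun b _ => h b), Finset.sum_const, Finset.card_univ, smul_eq_mul,
    ← Nat.card_eq_fintype_card]

end generic

section trip

variable {G H : Type*} [Group G] [Group H]

/-- Involutions. -/
def IsInv (a : G) : Prop := a ≠ 1 ∧ a * a = 1

/-- `x` has order three and `a * x` has order dividing five. -/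
def IsTri (a x : G) : Prop := x ≠ 1 ∧ x ^ 3 = 1 ∧ (a * x) ^ 5 = 1

/-- `(2,3,5)`-pairs. -/
def IsTrip (p : G × G) : Prop := IsInv p.1 ∧ IsTri p.1 p.2

theorem isInv_map (f : H →* G) (hf : Function.Injective f) (a : H) : IsInv (f a) ↔ IsInv a := by
  unfold IsInv
  rw [← map_mul, map_eq_one_iff f hf, map_ne_one_iff f hf]

theorem isTri_map (f : H →* G) (hf : Function.Injective f) (a x : H) :
    IsTri (f a) (f x) ↔ IsTri a x := by
  unfold IsTri
  rw [← map_mul, ← map_pow, ← map_pow, map_eq_one_iff f hf, map_eq_one_iff f hf,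
    map_ne_one_iff f hf]

theorem isTrip_map (f : H →* G) (hf : Function.Injective f) (p : H × H) :
    IsTrip (f p.1, f p.2) ↔ IsTrip p := by
  unfold IsTrip
  rw [isInv_map f hf, isTri_map f hf]

theorem card_trip_of_equiv (e : H ≃* G) :
    Nat.card {p : H × H // IsTrip p} = Nat.card {p : G × G // IsTrip p} :=
  Nat.card_congr (Equiv.subtypeEquiv (Equiv.prodCongr e.toEquiv e.toEquiv)
    (fun p => (isTrip_map e.toMonoidHom e.injective p).symm))

theorem card_trip_subgroup (L : Subgroup G) :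
    Nat.card {p : G × G // IsTrip p ∧ p.1 ∈ L ∧ p.2 ∈ L} = Nat.card {p : L × L // IsTrip p} := by
  refine Nat.card_congr
    { toFun := fun p => ⟨(⟨p.1.1, p.2.2.1⟩, ⟨p.1.2, p.2.2.2⟩),
        (isTrip_map L.subtype L.subtype_injective (⟨p.1.1, p.2.2.1⟩, ⟨p.1.2, p.2.2.2⟩)).mp p.2.1⟩
      invFun := fun q => ⟨(q.1.1.1, q.1.2.1),
        (isTrip_map L.subtype L.subtype_injective q.1).mpr q.2, q.1.1.2, q.1.2.2⟩
      left_inv := fun p => rfl
      right_inv := fun q => rfl }

instance isTripDec [DecidableEq G] : DecidablePred (IsTrip (G := G)) := fun p => by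
  unfold IsTrip IsInv IsTri
  infer_instance

set_option maxRecDepth 1000000 in
set_option maxHeartbeats 0 in
theorem a5_trip_fintype_card :
    Fintype.card {p : alternatingGroup (Fin 5) × alternatingGroup (Fin 5) // IsTrip p} = 120 := by
  decide +kernel

theorem a5_trip_card :
    Nat.card {p : alternatingGroup (Fin 5) × alternatingGroup (Fin 5) // IsTrip p} = 120 := by
  rw [Nat.card_eq_fintype_card]
  exact a5_trip_fintype_card

/-- A subgroup isomorphic to `A₅` contains exactly 120 `(2,3,5)`-pairs. -/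
theorem card_trip_in_A5 (L : Subgroup G) (e : L ≃* alternatingGroup (Fin 5)) :
    Nat.card {p : G × G // IsTrip p ∧ p.1 ∈ L ∧ p.2 ∈ L} = 120 := by
  rw [card_trip_subgroup, card_trip_of_equiv e, a5_trip_card]

end trip

end Cfsg.Agent.Lib.helper12
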