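import Mathlib
import Cfsg.Agent.Lib.helper12.A5Cnt0

/-!
# Counting subgroups isomorphic to `A₅` in `PSL₂(11)`
-/

namespace Cfsg.Agent.Lib.helper12

open scoped MatrixGroups

section recog

variable {G : Type*} [Group G]

/-- A `(2,3,5)`-pair generates a subgroup isomorphic to `A₅`. -/
theorem trip_closure_A5 (a x : G) (hp : IsTrip (a, x)) :
    Nonempty (Subgroup.closure ({a, x} : Set G) ≃* alternatingGroup (Fin 5)) := by
  obtain ⟨⟨ha1, haa⟩, hx1, hx3, hax5⟩ := hp
  simp only at ha1 haa hx1 hx3 hax5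
  obtain ⟨e⟩ := Cfsg.Agent.S3377.result
  have hX3 : (x⁻¹) ^ 3 = 1 := by rw [inv_pow, hx3, inv_one]
  have hXY : (x⁻¹ * (a * x)) ^ 2 = 1 := by
    rw [pow_two]
    calc x⁻¹ * (a * x) * (x⁻¹ * (a * x)) = x⁻¹ * (a * a) * x := by group
      _ = 1 := by rw [haa]; group
  have hY1 : a * x ≠ 1 := by
    intro h
    have hxa : x = a := by
      have h1 : x = a⁻¹ := eq_inv_of_mul_eq_one_right h
      rw [h1]
      exact inv_eq_of_mul_eq_one_left haa
    apply hx1
    have h3 : x ^ 3 = x := by rw [pow_succ, pow_two, hxa, haa, one_mul]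
    rw [← h3, hx3]
  have hrel : ∀ r ∈ ({FreeGroup.of (0 : Fin 2) ^ 3, FreeGroup.of (1 : Fin 2) ^ 5,
      (FreeGroup.of (0 : Fin 2) * FreeGroup.of 1) ^ 2} : Set (FreeGroup (Fin 2))),
      FreeGroup.lift ![x⁻¹, a * x] r = 1 := by
    intro r hr
    rcases hr with rfl | rfl | rfl
    · rw [map_pow, FreeGroup.lift_apply_of]
      exact hX3
    · rw [map_pow, FreeGroup.lift_apply_of]
      exact hax5
    · rw [map_pow, map_mul, FreeGroup.lift_apply_of, FreeGroup.lift_apply_of]
      exact hXY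
  obtain ⟨ψ, hψ⟩ : ∃ ψ : alternatingGroup (Fin 5) →* G,
      ψ = (PresentedGroup.toGroup hrel).comp e.symm.toMonoidHom := ⟨_, rfl⟩
  have hinj : Function.Injective ψ := by
    rw [← MonoidHom.ker_eq_bot_iff]
    rcases (MonoidHom.normal_ker ψ).eq_bot_or_eq_top with h | h
    · exact h
    · exfalso
      apply hY1
      have h1 : ψ (e (PresentedGroup.of 1)) = 1 := by
        rw [← MonoidHom.mem_ker, h]
        trivial
      rw [hψ] at h1
      simpa using h1
  have hle1 : ∀ w : PresentedGroup ({FreeGroup.of (0 : Fin 2) ^ 3, FreeGroup.of (1 : Fin 2) ^ 5,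
      (FreeGroup.of (0 : Fin 2) * FreeGroup.of 1) ^ 2} : Set (FreeGroup (Fin 2))),
      PresentedGroup.toGroup hrel w ∈ Subgroup.closure ({a, x} : Set G) := by
    intro w
    have hw : w ∈ Subgroup.closure (Set.range (PresentedGroup.of
        (rels := ({FreeGroup.of (0 : Fin 2) ^ 3, FreeGroup.of (1 : Fin 2) ^ 5,
          (FreeGroup.of (0 : Fin 2) * FreeGroup.of 1) ^ 2} : Set (FreeGroup (Fin 2)))))) := by
      rw [PresentedGroup.closure_range_of]
      trivial
    have hle : Subgroup.closure (Set.range (PresentedGroup.of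
        (rels := ({FreeGroup.of (0 : Fin 2) ^ 3, FreeGroup.of (1 : Fin 2) ^ 5,
          (FreeGroup.of (0 : Fin 2) * FreeGroup.of 1) ^ 2} : Set (FreeGroup (Fin 2)))))) ≤
        (Subgroup.closure ({a, x} : Set G)).comap (PresentedGroup.toGroup hrel) := by
      rw [Subgroup.closure_le]
      rintro _ ⟨i, rfl⟩
      show PresentedGroup.toGroup hrel (PresentedGroup.of i) ∈ Subgroup.closure ({a, x} : Set G)
      rw [PresentedGroup.toGroup.of]
      fin_cases i
      · exact inv_mem (Subgroup.subset_closure (by simp))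
      · exact mul_mem (Subgroup.subset_closure (by simp)) (Subgroup.subset_closure (by simp))
    exact hle hw
  have hrange : ψ.range = Subgroup.closure ({a, x} : Set G) := by
    apply le_antisymm
    · rintro _ ⟨g, rfl⟩
      rw [hψ]
      exact hle1 _
    · rw [Subgroup.closure_le]
      have hxm : x⁻¹ ∈ ψ.range := ⟨e (PresentedGroup.of 0), by rw [hψ]; simp⟩
      have hym : a * x ∈ ψ.range := ⟨e (PresentedGroup.of 1), by rw [hψ]; simp⟩
      have hx' : x ∈ ψ.range := by simpa using inv_mem hxm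
      rintro z (rfl | rfl)
      · have := mul_mem hym hxm
        simpa using this
      · exact hx'
  rw [← hrange]
  exact ⟨(MonoidHom.ofInjective hinj).symm⟩

/-- `(2,3,5)`-pairs count subgroups isomorphic to `A₅`. -/
theorem card_trip_eq [Finite G] :
    Nat.card {p : G × G // IsTrip p} =
      Nat.card {L : Subgroup G // Nonempty (L ≃* alternatingGroup (Fin 5))} * 120 := by
  classical
  let f : {p : G × G // IsTrip p} →
      {L : Subgroup G // Nonempty (L ≃* alternatingGroup (Fin 5))} :=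
    fun p => ⟨Subgroup.closure {p.1.1, p.1.2}, trip_closure_A5 p.1.1 p.1.2 p.2⟩
  apply card_fiber_const f
  intro L
  obtain ⟨e⟩ := L.2
  rw [← card_trip_in_A5 L.1 e]
  refine Nat.card_congr
    { toFun := fun x => ⟨x.1.1, x.1.2, ?_, ?_⟩
      invFun := fun q => ⟨⟨q.1, q.2.1⟩, ?_⟩
      left_inv := fun x => rfl
      right_inv := fun q => rfl }
  · have h := congrArg Subtype.val x.2
    rw [← h]
    exact Subgroup.subset_closure (by simp)
  · have h := congrArg Subtype.val x.2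
    rw [← h]
    exact Subgroup.subset_closure (by simp)
  · apply Subtype.ext
    show Subgroup.closure {q.1.1, q.1.2} = L.1
    obtain ⟨e'⟩ := trip_closure_A5 q.1.1 q.1.2 q.2.1
    apply Subgroup.eq_of_le_of_card_ge
    · rw [Subgroup.closure_le]
      rintro z (rfl | rfl)
      · exact q.2.2.1
      · exact q.2.2.2
    · rw [Nat.card_congr e.toEquiv, Nat.card_congr e'.toEquiv]

end recog

section mat

variable {F : Type*} [Field F]

/-- Negation on `SL₂`. -/
def negS (g : SL(2, F)) : SL(2, F) :=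
  mkSL (-((g : Matrix (Fin 2) (Fin 2) F) 0 0)) (-((g : Matrix (Fin 2) (Fin 2) F) 0 1))
    (-((g : Matrix (Fin 2) (Fin 2) F) 1 0)) (-((g : Matrix (Fin 2) (Fin 2) F) 1 1))
    (by have h := SL2_det_eq g; linear_combination h)

theorem negS_val (g : SL(2, F)) :
    ((negS g : SL(2, F)) : Matrix (Fin 2) (Fin 2) F) =
      (-1 : F) • (g : Matrix (Fin 2) (Fin 2) F) := by
  ext i j
  fin_cases i <;> fin_cases j <;> simp [negS, mkSL_val]

theorem negS_trace (g : SL(2, F)) :
    ((negS g : SL(2, F)) : Matrix (Fin 2) (Fin 2) F).trace =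
      -(g : Matrix (Fin 2) (Fin 2) F).trace := by
  rw [negS_val, Matrix.trace_smul]
  simp

theorem mk_negS (g : SL(2, F)) : (QuotientGroup.mk (negS g) : PSL(2, F)) = QuotientGroup.mk g := by
  symm
  rw [PSL2_mk_eq_mk_iff]
  exact ⟨-1, by ring, negS_val g⟩

theorem card_sl2_trace (c : F) (S : F → F → F → Prop) :
    Nat.card {X : SL(2, F) // (X : Matrix (Fin 2) (Fin 2) F).trace = c ∧
        S ((X : Matrix (Fin 2) (Fin 2) F) 0 0) ((X : Matrix (Fin 2) (Fin 2) F) 0 1)
          ((X : Matrix (Fin 2) (Fin 2) F) 1 0)} =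
      Nat.card {t : F × F × F // t.1 * (c - t.1) - t.2.1 * t.2.2 = 1 ∧ S t.1 t.2.1 t.2.2} := by
  refine Nat.card_congr
    { toFun := fun X => ⟨((X.1 : Matrix (Fin 2) (Fin 2) F) 0 0,
        (X.1 : Matrix (Fin 2) (Fin 2) F) 0 1, (X.1 : Matrix (Fin 2) (Fin 2) F) 1 0), ?_, X.2.2⟩
      invFun := fun t => ⟨mkSL t.1.1 t.1.2.1 t.1.2.2 (c - t.1.1) t.2.1, ?_, t.2.2⟩
      left_inv := ?_
      right_inv := ?_ }
  · have h1 := SL2_det_eq X.1
    have h2 := X.2.1
    rw [Matrix.trace_fin_two] at h2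
    show (X.1 : Matrix (Fin 2) (Fin 2) F) 0 0 * (c - (X.1 : Matrix (Fin 2) (Fin 2) F) 0 0) -
      (X.1 : Matrix (Fin 2) (Fin 2) F) 0 1 * (X.1 : Matrix (Fin 2) (Fin 2) F) 1 0 = 1
    linear_combination h1 - (X.1 : Matrix (Fin 2) (Fin 2) F) 0 0 * h2
  · rw [mkSL_val, Matrix.trace_fin_two]
    simp
  · intro X
    apply Subtype.ext
    apply Subtype.ext
    have h2 := X.2.1
    rw [Matrix.trace_fin_two] at h2
    ext i j
    fin_cases i <;> fin_cases j
    · rfl
    · rfl
    · rfl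
    · show c - (X.1 : Matrix (Fin 2) (Fin 2) F) 0 0 = (X.1 : Matrix (Fin 2) (Fin 2) F) 1 1
      linear_combination -h2
  · intro t
    rfl

theorem card_triples_transport {R R' : Type*} [CommRing R] [CommRing R'] (e : R ≃+* R')
    (P : R → R → R → Prop) (P' : R' → R' → R' → Prop)
    (h : ∀ a b c, P' (e a) (e b) (e c) ↔ P a b c) :
    Nat.card {t : R' × R' × R' // P' t.1 t.2.1 t.2.2} =
      Nat.card {t : R × R × R // P t.1 t.2.1 t.2.2} :=
  (Nat.card_congr (Equiv.subtypeEquiv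
    (Equiv.prodCongr e.toEquiv (Equiv.prodCongr e.toEquiv e.toEquiv))
    (fun t => (h t.1 t.2.1 t.2.2).symm))).symm

set_option maxRecDepth 1000000 in
set_option maxHeartbeats 0 in
theorem z11_count48 :
    Fintype.card {t : ZMod 11 × ZMod 11 × ZMod 11 //
      t.1 * (-1 - t.1) - t.2.1 * t.2.2 = 1 ∧
        (t.2.2 - t.2.1) ^ 4 - 3 * (t.2.2 - t.2.1) ^ 2 + 1 = 0} = 48 := by
  decide +kernel

set_option maxRecDepth 1000000 in
set_option maxHeartbeats 0 in
theorem z11_count110 :
    Fintype.card {t : ZMod 11 × ZMod 11 × ZMod 11 //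
      t.1 * (0 - t.1) - t.2.1 * t.2.2 = 1 ∧ True} = 110 := by
  decide +kernel

variable [Fintype F]

theorem f11_char (hF : Fintype.card F = 11) : (11 : F) = 0 := by
  have h := Nat.cast_card_eq_zero F
  rw [hF] at h
  exact_mod_cast h

theorem f11_two_ne (hF : Fintype.card F = 11) : (2 : F) ≠ 0 := by
  intro h2
  have h := f11_char hF
  have h1 : (1 : F) = 0 := by linear_combination h - 5 * h2
  exact one_ne_zero h1

theorem f11_three_ne (hF : Fintype.card F = 11) : (3 : F) ≠ 0 := by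
  intro h3
  have h := f11_char hF
  have h1 : (1 : F) = 0 := by linear_combination 4 * h3 - h
  exact one_ne_zero h1

theorem f11_count48 (hF : Fintype.card F = 11) :
    Nat.card {t : F × F × F // t.1 * (-1 - t.1) - t.2.1 * t.2.2 = 1 ∧
        (t.2.2 - t.2.1) ^ 4 - 3 * (t.2.2 - t.2.1) ^ 2 + 1 = 0} = 48 := by
  have e := ZMod.ringEquivOfPrime F (by norm_num : Nat.Prime 11) hF
  rw [← z11_count48, ← Nat.card_eq_fintype_card]
  refine card_triples_transport e
    (fun p q r => p * (-1 - p) - q * r = 1 ∧ (r - q) ^ 4 - 3 * (r - q) ^ 2 + 1 = 0)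
    (fun p q r => p * (-1 - p) - q * r = 1 ∧ (r - q) ^ 4 - 3 * (r - q) ^ 2 + 1 = 0) ?_
  intro a b c
  have h1 : e a * (-1 - e a) - e b * e c = e (a * (-1 - a) - b * c) := by simp
  have e3 : e 3 = 3 := map_ofNat e 3
  have h2 : (e c - e b) ^ 4 - 3 * (e c - e b) ^ 2 + 1 =
      e ((c - b) ^ 4 - 3 * (c - b) ^ 2 + 1) := by simp [e3]
  show e a * (-1 - e a) - e b * e c = 1 ∧ (e c - e b) ^ 4 - 3 * (e c - e b) ^ 2 + 1 = 0 ↔ _
  rw [h1, h2, map_eq_one_iff e e.injective, map_eq_zero_iff e e.injective]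

theorem f11_count110 (hF : Fintype.card F = 11) :
    Nat.card {t : F × F × F // t.1 * (0 - t.1) - t.2.1 * t.2.2 = 1 ∧ True} = 110 := by
  have e := ZMod.ringEquivOfPrime F (by norm_num : Nat.Prime 11) hF
  rw [← z11_count110, ← Nat.card_eq_fintype_card]
  refine card_triples_transport e
    (fun p q r => p * (0 - p) - q * r = 1 ∧ True)
    (fun p q r => p * (0 - p) - q * r = 1 ∧ True) ?_
  intro a b c
  have h1 : e a * (0 - e a) - e b * e c = e (a * (0 - a) - b * c) := by simp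
  show e a * (0 - e a) - e b * e c = 1 ∧ True ↔ _
  rw [h1, map_eq_one_iff e e.injective]

end mat

section mat2

variable {F : Type*} [Field F]

theorem scalar_of_smul_add (M : Matrix (Fin 2) (Fin 2) F) (c d a : F)
    (h : c • M + d • (1 : Matrix (Fin 2) (Fin 2) F) = a • (1 : Matrix (Fin 2) (Fin 2) F))
    (hc : c ≠ 0) : ∃ l : F, M = l • (1 : Matrix (Fin 2) (Fin 2) F) := by
  refine ⟨c⁻¹ * (a - d), ?_⟩
  have h1 : c • M = (a - d) • (1 : Matrix (Fin 2) (Fin 2) F) := by
    rw [sub_smul, ← h]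
    abel
  rw [mul_smul, ← h1, smul_smul, inv_mul_cancel₀ hc, one_smul]

theorem mat_pow_three_gen (M : Matrix (Fin 2) (Fin 2) F) (t : F) (hsq : M * M = t • M - 1) :
    M ^ 3 = (t ^ 2 - 1) • M + (-t) • (1 : Matrix (Fin 2) (Fin 2) F) := by
  have e1 : M ^ 1 = (1 : F) • M + (0 : F) • (1 : Matrix (Fin 2) (Fin 2) F) := by simp
  have e2 := mat_pow_step M t hsq _ _ t (-1) (by ring) (by ring) 1 e1
  exact mat_pow_step M t hsq _ _ (t ^ 2 - 1) (-t) (by ring) (by ring) 2 e2

theorem SL2_tri_of_trace (h3 : (3 : F) ≠ 0) (X : SL(2, F))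
    (htr : (X : Matrix (Fin 2) (Fin 2) F).trace = -1)
    (hS : ((X : Matrix (Fin 2) (Fin 2) F) 1 0 - (X : Matrix (Fin 2) (Fin 2) F) 0 1) ^ 4 -
      3 * ((X : Matrix (Fin 2) (Fin 2) F) 1 0 - (X : Matrix (Fin 2) (Fin 2) F) 0 1) ^ 2 + 1 = 0) :
    IsTri (QuotientGroup.mk w0S : PSL(2, F)) (QuotientGroup.mk X) := by
  refine ⟨?_, ?_, ?_⟩
  · rw [PSL2_mk_ne_one_iff]
    rintro ⟨l, hl⟩
    have hdet := SL2_det_eq X
    rw [hl] at htr hdet
    simp [Matrix.trace_fin_two] at htr hdet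
    exact h3 (by linear_combination (l + l - 1) * htr - 4 * hdet)
  · rw [PSL2_mk_pow_eq_one_iff]
    refine ⟨1, ?_⟩
    rw [Matrix.SpecialLinearGroup.coe_pow, one_smul]
    apply mat_pow_three
    have h := SL2_sq_eq X
    rw [htr] at h
    exact h
  · rw [← QuotientGroup.mk_mul, PSL2_mk_pow_eq_one_iff]
    have hsq := SL2_sq_eq (w0S * X)
    have h5 := mat_pow_five _ _ hsq
    rw [w0S_mul_trace, hS, zero_smul, zero_add] at h5
    exact ⟨_, by rw [Matrix.SpecialLinearGroup.coe_pow]; exact h5⟩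

theorem SL2_trace_of_tri (X : SL(2, F))
    (h : IsTri (QuotientGroup.mk w0S : PSL(2, F)) (QuotientGroup.mk X)) :
    ((X : Matrix (Fin 2) (Fin 2) F).trace = 1 ∨ (X : Matrix (Fin 2) (Fin 2) F).trace = -1) ∧
    ((X : Matrix (Fin 2) (Fin 2) F) 1 0 - (X : Matrix (Fin 2) (Fin 2) F) 0 1) ^ 4 -
      3 * ((X : Matrix (Fin 2) (Fin 2) F) 1 0 - (X : Matrix (Fin 2) (Fin 2) F) 0 1) ^ 2 + 1 = 0 := by
  obtain ⟨h1, h3, h5⟩ := h
  have hns := (PSL2_mk_ne_one_iff X).mp h1
  constructor
  · rw [PSL2_mk_pow_eq_one_iff] at h3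
    obtain ⟨a, ha⟩ := h3
    rw [Matrix.SpecialLinearGroup.coe_pow, mat_pow_three_gen _ _ (SL2_sq_eq X)] at ha
    by_contra hne
    apply hns
    refine scalar_of_smul_add _ _ _ _ ha ?_
    intro h0
    apply hne
    exact mul_self_eq_one_iff.mp (by linear_combination h0)
  · rw [← QuotientGroup.mk_mul, PSL2_mk_pow_eq_one_iff] at h5
    obtain ⟨a, ha⟩ := h5
    rw [Matrix.SpecialLinearGroup.coe_pow, mat_pow_five _ _ (SL2_sq_eq (w0S * X)),
      w0S_mul_trace] at ha
    by_contra hne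
    have hsc := scalar_of_smul_add _ _ _ _ ha hne
    have hone : (QuotientGroup.mk (w0S * X) : PSL(2, F)) = 1 := (PSL2_mk_eq_one_iff _).mpr hsc
    rw [QuotientGroup.mk_mul] at hone
    have hw := PSL2_mk_mul_self_of_trace_zero (w0S : SL(2, F)) w0S_trace
    have hX : (QuotientGroup.mk X : PSL(2, F)) = QuotientGroup.mk w0S := by
      have e1 : (QuotientGroup.mk X : PSL(2, F)) = (QuotientGroup.mk w0S)⁻¹ :=
        eq_inv_of_mul_eq_one_right hone
      rw [e1]
      exact inv_eq_of_mul_eq_one_left hw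
    apply h1
    have h33 : (QuotientGroup.mk X : PSL(2, F)) ^ 3 = QuotientGroup.mk X := by
      rw [pow_succ, pow_two, hX, hw, one_mul]
    rw [← h33, h3]

variable [Fintype F]

theorem card_invol11 (hF : Fintype.card F = 11) :
    Nat.card {a : PSL(2, F) // IsInv a} = 55 := by
  have h2 := f11_two_ne hF
  let f : {X : SL(2, F) // (X : Matrix (Fin 2) (Fin 2) F).trace = 0 ∧ True} →
      {a : PSL(2, F) // IsInv a} :=
    fun X => ⟨QuotientGroup.mk X.1, SL2_not_scalar_of_trace_zero h2 X.1 X.2.1,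
      PSL2_mk_mul_self_of_trace_zero X.1 X.2.1⟩
  have hfib : ∀ b, Nat.card {X // f X = b} = 2 := by
    rintro ⟨b, hb1, hbb⟩
    obtain ⟨g, rfl⟩ := QuotientGroup.mk_surjective b
    have htr := PSL2_invol_trace_zero g hb1 hbb
    have htr' : ((negS g : SL(2, F)) : Matrix (Fin 2) (Fin 2) F).trace = 0 := by
      rw [negS_trace, htr, neg_zero]
    rw [Nat.card_eq_two_iff]
    refine ⟨⟨⟨g, htr, trivial⟩, rfl⟩, ⟨⟨negS g, htr', trivial⟩, Subtype.ext (mk_negS g)⟩, ?_, ?_⟩
    · intro h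
      have h' : g = negS g := congrArg (fun z => z.1.1) h
      have hv : (g : Matrix (Fin 2) (Fin 2) F) = (-1 : F) • (g : Matrix (Fin 2) (Fin 2) F) := by
        conv_lhs => rw [h']
        exact negS_val g
      have hdet := SL2_det_eq g
      have e00 := congrFun (congrFun hv 0) 0
      have e01 := congrFun (congrFun hv 0) 1
      simp only [Matrix.smul_apply, smul_eq_mul] at e00 e01
      have z00 : (g : Matrix (Fin 2) (Fin 2) F) 0 0 = 0 := by
        have h4 : (2 : F) * (g : Matrix (Fin 2) (Fin 2) F) 0 0 = 0 := by linear_combination e00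
        exact (mul_eq_zero.mp h4).resolve_left h2
      have z01 : (g : Matrix (Fin 2) (Fin 2) F) 0 1 = 0 := by
        have h4 : (2 : F) * (g : Matrix (Fin 2) (Fin 2) F) 0 1 = 0 := by linear_combination e01
        exact (mul_eq_zero.mp h4).resolve_left h2
      rw [z00, z01] at hdet
      simp at hdet
    · ext ⟨⟨X, hX, hT⟩, hfX⟩
      simp only [Set.mem_insert_iff, Set.mem_singleton_iff, Set.mem_univ, iff_true]
      have hm : (QuotientGroup.mk X : PSL(2, F)) = QuotientGroup.mk g := congrArg Subtype.val hfX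
      rw [eq_comm, PSL2_mk_eq_mk_iff] at hm
      obtain ⟨ε, hε, hXe⟩ := hm
      rcases mul_self_eq_one_iff.mp hε with rfl | rfl
      · left
        apply Subtype.ext
        apply Subtype.ext
        apply Subtype.ext
        rw [hXe, one_smul]
      · right
        apply Subtype.ext
        apply Subtype.ext
        apply Subtype.ext
        rw [hXe, negS_val]
  have h1 := card_fiber_const f 2 hfib
  rw [card_sl2_trace 0 (fun _ _ _ => True), f11_count110 hF] at h1
  omega

theorem card_tri_w0 (hF : Fintype.card F = 11) :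
    Nat.card {x : PSL(2, F) // IsTri (QuotientGroup.mk w0S : PSL(2, F)) x} = 48 := by
  have h2 := f11_two_ne hF
  have h3 := f11_three_ne hF
  rw [← f11_count48 hF, ← card_sl2_trace (-1) (fun p q r => (r - q) ^ 4 - 3 * (r - q) ^ 2 + 1 = 0)]
  symm
  refine Nat.card_congr (Equiv.ofBijective
    (fun X => ⟨QuotientGroup.mk X.1, SL2_tri_of_trace h3 X.1 X.2.1 X.2.2⟩) ⟨?_, ?_⟩)
  · rintro ⟨X, hX, hS⟩ ⟨X', hX', hS'⟩ h
    have hm : (QuotientGroup.mk X : PSL(2, F)) = QuotientGroup.mk X' := congrArg Subtype.val h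
    rw [PSL2_mk_eq_mk_iff] at hm
    obtain ⟨ε, hε, hXe⟩ := hm
    have ht : (X' : Matrix (Fin 2) (Fin 2) F).trace =
        ε * (X : Matrix (Fin 2) (Fin 2) F).trace := by
      rw [hXe, Matrix.trace_smul, smul_eq_mul]
    rw [hX, hX'] at ht
    have he1 : ε = 1 := by linear_combination ht
    apply Subtype.ext
    apply Subtype.ext
    rw [hXe, he1, one_smul]
  · rintro ⟨x, hx⟩
    obtain ⟨X₀, rfl⟩ := QuotientGroup.mk_surjective x
    obtain ⟨ht, hS⟩ := SL2_trace_of_tri X₀ hx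
    rcases ht with ht | ht
    · refine ⟨⟨negS X₀, ?_, ?_⟩, Subtype.ext (mk_negS X₀)⟩
      · rw [negS_trace, ht]
      · have hS' : (-((X₀ : Matrix (Fin 2) (Fin 2) F) 1 0) -
            -((X₀ : Matrix (Fin 2) (Fin 2) F) 0 1)) ^ 4 -
            3 * (-((X₀ : Matrix (Fin 2) (Fin 2) F) 1 0) -
              -((X₀ : Matrix (Fin 2) (Fin 2) F) 0 1)) ^ 2 + 1 = 0 := by
          linear_combination hS
        exact hS'
    · exact ⟨⟨X₀, ht, hS⟩, rfl⟩

theorem card_tri11 (hF : Fintype.card F = 11) (a : PSL(2, F)) (ha : IsInv a) :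
    Nat.card {x : PSL(2, F) // IsTri a x} = 48 := by
  have h2 := f11_two_ne hF
  have hw1 : (QuotientGroup.mk w0S : PSL(2, F)) ≠ 1 :=
    SL2_not_scalar_of_trace_zero h2 w0S w0S_trace
  have hw2 := PSL2_mk_mul_self_of_trace_zero (w0S : SL(2, F)) w0S_trace
  obtain ⟨c, hc⟩ := isConj_iff.mp (PSL2_involutions_isConj h2 _ a hw1 hw2 ha.1 ha.2)
  rw [← card_tri_w0 hF]
  symm
  refine Nat.card_congr (Equiv.subtypeEquiv (MulAut.conj c).toEquiv (fun x => ?_))
  have h := isTri_map (MulAut.conj c).toMonoidHom (MulAut.conj c).injective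
    (QuotientGroup.mk w0S : PSL(2, F)) x
  rw [← h]
  have e1 : (MulAut.conj c).toMonoidHom (QuotientGroup.mk w0S : PSL(2, F)) = a := by
    rw [← hc]
    rfl
  rw [e1]
  rfl

theorem card_trip11 (hF : Fintype.card F = 11) :
    Nat.card {p : PSL(2, F) × PSL(2, F) // IsTrip p} = 2640 :=
  card_pairs_fiber (α := PSL(2, F)) (β := PSL(2, F)) IsInv IsTri 55 48 (card_invol11 hF)
    (fun a ha => card_tri11 hF a ha)

theorem card_A5_subgroups11 (hF : Fintype.card F = 11) :
    Nat.card {L : Subgroup PSL(2, F) // Nonempty (L ≃* alternatingGroup (Fin 5))} = 22 := by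
  have h1 := card_trip_eq (G := PSL(2, F))
  rw [card_trip11 hF] at h1
  omega

end mat2

section cls

open scoped Pointwise

variable {F : Type*} [Field F] [Fintype F]

theorem card_PSL2_11 (hF : Fintype.card F = 11) : Nat.card PSL(2, F) = 660 := by
  have h := card_PSL2_gen (F := F)
  rw [hF] at h
  have h2 : Nat.gcd 2 (11 - 1) = 2 := by decide
  rw [h2] at h
  norm_num at h
  omega

theorem A5_normalizer11 (hF : Fintype.card F = 11) (L : Subgroup PSL(2, F))
    (e : L ≃* alternatingGroup (Fin 5)) : Subgroup.normalizer (L : Set PSL(2, F)) = L := by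
  have hG := card_PSL2_11 hF
  have hL : Nat.card L = 60 := by rw [Nat.card_congr e.toEquiv, card_alt5]
  haveI : IsSimpleGroup PSL(2, F) :=
    Matrix.ProjectiveSpecialLinearGroup.rank_two_simple (F := F)
      (by rw [Nat.card_eq_fintype_card, hF]; norm_num)
  have hle : L ≤ Subgroup.normalizer (L : Set PSL(2, F)) := Subgroup.le_normalizer
  have hd1 : Nat.card L ∣ Nat.card (Subgroup.normalizer (L : Set PSL(2, F))) :=
    Subgroup.card_dvd_of_le hle
  have hd2 : Nat.card (Subgroup.normalizer (L : Set PSL(2, F))) ∣ Nat.card PSL(2, F) :=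
    Subgroup.card_subgroup_dvd_card _
  rw [hL] at hd1
  rw [hG] at hd2
  obtain ⟨k, hk⟩ := hd1
  have hk11 : k ∣ 11 := by
    rw [hk] at hd2
    exact Nat.dvd_of_mul_dvd_mul_left (by norm_num : 0 < 60) (by simpa using hd2)
  rcases (Nat.dvd_prime (by norm_num : Nat.Prime 11)).mp hk11 with rfl | rfl
  · symm
    apply Subgroup.eq_of_le_of_card_ge hle
    rw [hk, hL]
  · exfalso
    have htop : Subgroup.normalizer (L : Set PSL(2, F)) = ⊤ :=
      Subgroup.eq_top_of_card_eq _ (by rw [hk, hG])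
    haveI hn : L.Normal := Subgroup.normalizer_eq_top_iff.mp htop
    rcases hn.eq_bot_or_eq_top with h | h
    · rw [h] at hL
      simp at hL
    · rw [h, Subgroup.card_top, hG] at hL
      omega

theorem A5_orbit_card11 (hF : Fintype.card F = 11) (L : Subgroup PSL(2, F))
    (e : L ≃* alternatingGroup (Fin 5)) :
    (Set.range (fun g : PSL(2, F) => MulAut.conj g • L)).ncard = 11 := by
  letI : MulAction PSL(2, F) (Subgroup PSL(2, F)) :=
    MulAction.compHom (Subgroup PSL(2, F)) (MulAut.conj : PSL(2, F) →* MulAut PSL(2, F))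
  have hstab : MulAction.stabilizer PSL(2, F) L = Subgroup.normalizer (L : Set PSL(2, F)) := by
    ext g
    rw [MulAction.mem_stabilizer_iff]
    exact Subgroup.mem_normalizer_iff_map_conj_eq.symm
  have horb : Set.range (fun g : PSL(2, F) => MulAut.conj g • L) =
      MulAction.orbit PSL(2, F) L := rfl
  rw [horb]
  have hcard := Nat.card_congr (MulAction.orbitProdStabilizerEquivGroup PSL(2, F) L)
  rw [Nat.card_prod, hstab, A5_normalizer11 hF L e, card_PSL2_11 hF, Nat.card_congr e.toEquiv,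
    card_alt5] at hcard
  have h11 : Nat.card (MulAction.orbit PSL(2, F) L) = 11 := by omega
  exact h11

/-- `PSL₂(11)` has exactly 22 subgroups isomorphic to `A₅`, in two conjugacy classes. -/
theorem A5_classes11 (hF : Fintype.card F = 11) :
    Nat.card {H : Subgroup PSL(2, F) // Nonempty (H ≃* alternatingGroup (Fin 5))} = 22 ∧
    ∃ H K : Subgroup PSL(2, F), Nonempty (H ≃* alternatingGroup (Fin 5)) ∧
      Nonempty (K ≃* alternatingGroup (Fin 5)) ∧ (∀ g : PSL(2, F), MulAut.conj g • H ≠ K) ∧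
      ∀ L : Subgroup PSL(2, F), Nonempty (L ≃* alternatingGroup (Fin 5)) →
        ∃ g : PSL(2, F), MulAut.conj g • L = H ∨ MulAut.conj g • L = K := by
  have h22 := card_A5_subgroups11 hF
  refine ⟨h22, ?_⟩
  obtain ⟨A, hA⟩ : ∃ A : Set (Subgroup PSL(2, F)),
      A = {L : Subgroup PSL(2, F) | Nonempty (L ≃* alternatingGroup (Fin 5))} := ⟨_, rfl⟩
  have hAc : A.ncard = 22 := by
    rw [hA]
    exact h22
  have hsub : ∀ L ∈ A, Set.range (fun g : PSL(2, F) => MulAut.conj g • L) ⊆ A := by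
    intro L hL
    rw [hA] at hL ⊢
    obtain ⟨e⟩ := hL
    rintro _ ⟨g, rfl⟩
    exact ⟨(Subgroup.equivSMul (MulAut.conj g) L).symm.trans e⟩
  have hne : A.Nonempty := by
    rw [← Set.ncard_pos, hAc]
    norm_num
  obtain ⟨H, hH⟩ := hne
  have hHe : Nonempty (H ≃* alternatingGroup (Fin 5)) := by
    rw [hA] at hH
    exact hH
  obtain ⟨eH⟩ := hHe
  have hoH := A5_orbit_card11 hF H eH
  obtain ⟨K, hK, hKH⟩ : ∃ K, K ∈ A ∧ K ∉ Set.range (fun g : PSL(2, F) => MulAut.conj g • H) := by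
    refine Set.exists_mem_notMem_of_ncard_lt_ncard ?_ (Set.toFinite _)
    rw [hoH, hAc]
    norm_num
  have hKe : Nonempty (K ≃* alternatingGroup (Fin 5)) := by
    rw [hA] at hK
    exact hK
  obtain ⟨eK⟩ := hKe
  have hoK := A5_orbit_card11 hF K eK
  have hdisj : Disjoint (Set.range (fun g : PSL(2, F) => MulAut.conj g • H))
      (Set.range (fun g : PSL(2, F) => MulAut.conj g • K)) := by
    rw [Set.disjoint_left]
    rintro _ ⟨g, rfl⟩ ⟨g', hg'⟩
    apply hKH
    refine ⟨g'⁻¹ * g, ?_⟩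
    have hg2 : MulAut.conj g' • K = MulAut.conj g • H := hg'
    show MulAut.conj (g'⁻¹ * g) • H = K
    rw [map_mul, mul_smul, ← hg2, map_inv, inv_smul_smul]
  have hunion : Set.range (fun g : PSL(2, F) => MulAut.conj g • H) ∪
      Set.range (fun g : PSL(2, F) => MulAut.conj g • K) = A := by
    apply Set.eq_of_subset_of_ncard_le (Set.union_subset (hsub H hH) (hsub K hK))
    rw [Set.ncard_union_eq hdisj, hoH, hoK, hAc]
  refine ⟨H, K, ⟨eH⟩, ⟨eK⟩, ?_, ?_⟩
  · intro g hg
    exact hKH ⟨g, hg⟩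
  · intro L hL
    have hLA : L ∈ A := by
      rw [hA]
      exact hL
    rw [← hunion] at hLA
    rcases hLA with ⟨g, hg⟩ | ⟨g, hg⟩
    · refine ⟨g⁻¹, Or.inl ?_⟩
      have hg2 : MulAut.conj g • H = L := hg
      rw [← hg2, map_inv, inv_smul_smul]
    · refine ⟨g⁻¹, Or.inr ?_⟩
      have hg2 : MulAut.conj g • K = L := hg
      rw [← hg2, map_inv, inv_smul_smul]

end cls

end Cfsg.Agent.Lib.helper12
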