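import Mathlib
import Cfsg.Agent.S0256
import Cfsg.Agent.Lib.helper2.SLCard

/-!
Piece (A1) of the S2551 split: `GL_4(2)` has a subgroup isomorphic to `A_7`
(from `PSL_4(2) ≃* A_8`, statement S0256).
-/

namespace Cfsg.Agent.Lib.helper12.A7a

open Matrix

/-- The embedding `Perm (Fin 7) →* Perm (Fin 8)` preserves the sign. -/
theorem sign_via (σ : Equiv.Perm (Fin 7)) :
    Equiv.Perm.sign (Equiv.Perm.viaEmbeddingHom (Fin.castSuccEmb (n := 7)) σ) =
      Equiv.Perm.sign σ := by
  classical
  rw [Equiv.Perm.viaEmbeddingHom_apply]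
  unfold Equiv.Perm.viaEmbedding
  exact @Equiv.Perm.sign_extendDomain (Fin 7) _ (Fin 8) _ _ _ σ _
    (fun a => Classical.propDecidable _) _

/-- `A_7` embeds into `A_8`. -/
theorem exists_alt_emb :
    ∃ ι : alternatingGroup (Fin 7) →* alternatingGroup (Fin 8), Function.Injective ι := by
  classical
  let j : alternatingGroup (Fin 7) →* Equiv.Perm (Fin 8) :=
    (Equiv.Perm.viaEmbeddingHom (Fin.castSuccEmb (n := 7))).comp (alternatingGroup (Fin 7)).subtype
  have hj : ∀ x, j x ∈ alternatingGroup (Fin 8) := by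
    intro x
    rw [Equiv.Perm.mem_alternatingGroup]
    show Equiv.Perm.sign (Equiv.Perm.viaEmbeddingHom (Fin.castSuccEmb (n := 7)) (x : Equiv.Perm (Fin 7))) = 1
    rw [sign_via]
    exact Equiv.Perm.mem_alternatingGroup.mp x.2
  refine ⟨j.codRestrict (alternatingGroup (Fin 8)) hj, ?_⟩
  intro x y hxy
  have h1 : j x = j y := congrArg Subtype.val hxy
  exact Subtype.ext (Equiv.Perm.viaEmbeddingHom_injective _ h1)

theorem exists_A7 {F : Type*} [Field F] [Fintype F] (hF : Fintype.card F = 2) :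
    ∃ H : Subgroup (Matrix.GeneralLinearGroup (Fin 4) F),
      Nonempty (H ≃* alternatingGroup (Fin 7)) := by
  classical
  obtain ⟨e⟩ := Cfsg.Agent.S0256.result hF
  obtain ⟨ι, hι⟩ := exists_alt_emb
  have hc : Subgroup.center (SpecialLinearGroup (Fin 4) F) = ⊥ := by
    have hc := Cfsg.Agent.Lib.helper2.SLCard.card_center_SL F 4 (by norm_num)
    rw [hF] at hc
    exact Subgroup.eq_bot_of_card_eq _ (by rw [hc]; rfl)
  have hq : Function.Injective
      (QuotientGroup.mk' (Subgroup.center (SpecialLinearGroup (Fin 4) F))) := by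
    rw [← MonoidHom.ker_eq_bot_iff, QuotientGroup.ker_mk', hc]
  have hqs : Function.Surjective
      (QuotientGroup.mk' (Subgroup.center (SpecialLinearGroup (Fin 4) F))) :=
    QuotientGroup.mk'_surjective _
  let qe : SpecialLinearGroup (Fin 4) F ≃* ProjectiveSpecialLinearGroup (Fin 4) F :=
    MulEquiv.ofBijective (QuotientGroup.mk' (Subgroup.center (SpecialLinearGroup (Fin 4) F)))
      ⟨hq, hqs⟩
  let ψ : alternatingGroup (Fin 7) →* Matrix.GeneralLinearGroup (Fin 4) F :=
    (Matrix.SpecialLinearGroup.toGL).comp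
      (qe.symm.toMonoidHom.comp (e.symm.toMonoidHom.comp ι))
  have hψ : Function.Injective ψ := by
    intro x y hxy
    have h1 : qe.symm (e.symm (ι x)) = qe.symm (e.symm (ι y)) :=
      Matrix.SpecialLinearGroup.toGL_injective hxy
    exact hι (e.symm.injective (qe.symm.injective h1))
  exact ⟨ψ.range, ⟨(MonoidHom.ofInjective hψ).symm⟩⟩

end Cfsg.Agent.Lib.helper12.A7a
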