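import Mathlib
import Cfsg.Prelude.Def_OddOrderLocal
import Cfsg.Agent.Lib.helper12.DkMinSimple
import Cfsg.Agent.Lib.helper12.DkDih
import Cfsg.Agent.Lib.helper12.DkKlein
import Cfsg.Agent.Lib.helper1.Hall

set_option autoImplicit false

namespace Cfsg.Agent.Lib.helper12

open scoped MatrixGroups

section hallnt

theorem fact_eq_of_dvd {r k n : ℕ} (hr : r.Prime) (hn : n ≠ 0) (h1 : r ^ k ∣ n)
    (h2 : ¬ r ^ (k + 1) ∣ n) : n.factorization r = k := by
  have a := (hr.pow_dvd_iff_le_factorization hn).1 h1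
  have b : ¬ (k + 1 ≤ n.factorization r) :=
    fun h => h2 ((hr.pow_dvd_iff_le_factorization hn).2 h)
  omega

theorem two_three_pow_bd {a b N : ℕ} (h : 2 ^ a * 3 ^ b = N) (hN : N < 64) : a < 6 ∧ b < 4 := by
  constructor
  · by_contra hc
    have h1 : 2 ^ 6 ≤ 2 ^ a := Nat.pow_le_pow_right (by norm_num) (by omega)
    have h3 : 1 ≤ 3 ^ b := Nat.one_le_pow _ _ (by norm_num)
    nlinarith
  · by_contra hc
    have h1 : 3 ^ 4 ≤ 3 ^ b := Nat.pow_le_pow_right (by norm_num) (by omega)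
    have h3 : 1 ≤ 2 ^ a := Nat.one_le_pow _ _ (by norm_num)
    nlinarith

theorem two_three_pow_24 {a b : ℕ} (h : 2 ^ a * 3 ^ b = 24) : a = 3 ∧ b = 1 := by
  obtain ⟨ha, hb⟩ := two_three_pow_bd h (by norm_num)
  interval_cases a <;> interval_cases b <;> simp at h ⊢

theorem two_three_pow_48 {a b : ℕ} (h : 2 ^ a * 3 ^ b = 48) : a = 4 ∧ b = 1 := by
  obtain ⟨ha, hb⟩ := two_three_pow_bd h (by norm_num)
  interval_cases a <;> interval_cases b <;> simp at h ⊢

theorem sq_sub_one_fac (q : ℕ) (hq : 1 ≤ q) : q ^ 2 - 1 = (q - 1) * (q + 1) := by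
  obtain ⟨k, rfl⟩ : ∃ k, q = k + 1 := ⟨q - 1, by omega⟩
  have : (k + 1) ^ 2 = k * (k + 1 + 1) + 1 := by ring
  rw [this]
  simp

theorem fact_of_mul_eq {r k q N i M : ℕ} (hr : r.Prime) (h : r ^ k * M * i = q * N)
    (hq : ¬ r ∣ q) (hM : ¬ r ∣ M) (hi : ¬ r ∣ i) (hN : N ≠ 0) : N.factorization r = k := by
  have hcop : ∀ j, Nat.Coprime (r ^ j) q := fun j =>
    Nat.Coprime.pow_left _ ((Nat.Prime.coprime_iff_not_dvd hr).2 hq)
  apply fact_eq_of_dvd hr hN
  · apply (hcop k).dvd_of_dvd_mul_left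
    rw [← h, mul_assoc]
    exact dvd_mul_right _ _
  · intro hd
    have h1 : r ^ (k + 1) ∣ r ^ k * (M * i) := by
      rw [← mul_assoc, h]
      exact Dvd.dvd.mul_left hd _
    rw [pow_succ] at h1
    have h2 := (Nat.mul_dvd_mul_iff_left (pow_pos hr.pos k)).1 h1
    rcases (Nat.Prime.dvd_mul hr).1 h2 with h | h
    · exact hM h
    · exact hi h

theorem not_dvd_of_fact {r k q N i M : ℕ} (hr : r.Prime) (h : r ^ k * M * i = q * N)
    (hq : ¬ r ∣ q) (hN : N ≠ 0) (hf : N.factorization r = k) : ¬ r ∣ i := by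
  rintro ⟨j, rfl⟩
  have hcop : Nat.Coprime (r ^ (k + 1)) q :=
    Nat.Coprime.pow_left _ ((Nat.Prime.coprime_iff_not_dvd hr).2 hq)
  have h1 : r ^ (k + 1) ∣ q * N := by
    rw [← h]
    exact ⟨M * j, by ring⟩
  have h2 := hcop.dvd_of_dvd_mul_left h1
  have h3 := (hr.pow_dvd_iff_le_factorization hN).1 h2
  omega

theorem hall_arith1 {q i c : ℕ} (h : 2 * i = q * (q - 1) * c) (hi2 : ¬ 2 ∣ i) (hi3 : ¬ 3 ∣ i)
    (hq2 : ¬ 2 ∣ q) (hq3 : ¬ 3 ∣ q) : 3 ∣ q + 1 ∧ q % 4 = 3 := by
  constructor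
  · by_contra hc
    have hq1 : q % 3 = 1 := by
      have h0 : q % 3 = 0 ∨ q % 3 = 1 ∨ q % 3 = 2 := by omega
      rcases h0 with h0 | h0 | h0
      · omega
      · exact h0
      · omega
    obtain ⟨j, hj⟩ : ∃ j, q - 1 = 3 * j := ⟨(q - 1) / 3, by omega⟩
    apply hi3
    apply (Nat.Coprime.dvd_of_dvd_mul_left (by norm_num : Nat.Coprime 3 2))
    rw [h, hj]
    exact ⟨q * j * c, by ring⟩
  · by_contra hc
    obtain ⟨j, hj⟩ : ∃ j, q - 1 = 4 * j := ⟨(q - 1) / 4, by omega⟩
    apply hi2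
    rw [hj] at h
    exact ⟨q * j * c, by linarith [show q * (4 * j) * c = 4 * (q * j * c) by ring]⟩

theorem hall_arith2 {q i c : ℕ} (h : 2 * i = q * (q + 1) * c) (hi2 : ¬ 2 ∣ i) (hi3 : ¬ 3 ∣ i)
    (hq2 : ¬ 2 ∣ q) (hq3 : ¬ 3 ∣ q) : 3 ∣ q - 1 ∧ q % 4 = 1 := by
  constructor
  · by_contra hc
    have hq1 : q % 3 = 2 := by
      have h0 : q % 3 = 0 ∨ q % 3 = 1 ∨ q % 3 = 2 := by omega
      rcases h0 with h0 | h0 | h0
      · omega
      · omega
      · exact h0
    obtain ⟨j, hj⟩ : ∃ j, q + 1 = 3 * j := ⟨(q + 1) / 3, by omega⟩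
    apply hi3
    apply (Nat.Coprime.dvd_of_dvd_mul_left (by norm_num : Nat.Coprime 3 2))
    rw [h, hj]
    exact ⟨q * j * c, by ring⟩
  · by_contra hc
    obtain ⟨j, hj⟩ : ∃ j, q + 1 = 4 * j := ⟨(q + 1) / 4, by omega⟩
    apply hi2
    rw [hj] at h
    exact ⟨q * j * c, by linarith [show q * (4 * j) * c = 4 * (q * j * c) by ring]⟩

theorem hall_arith3 {q i : ℕ} (h : 2 * i = q * (q + 1)) (h4 : q % 4 = 1) (h3 : 3 ∣ q - 1)
    (hq3 : ¬ 3 ∣ q) : ¬ 2 ∣ i ∧ ¬ 3 ∣ i := by
  obtain ⟨s, hs⟩ : ∃ s, q + 1 = 2 * s := ⟨(q + 1) / 2, by omega⟩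
  have hi : i = q * s := by
    rw [hs] at h
    linarith [show q * (2 * s) = 2 * (q * s) by ring]
  subst hi
  constructor
  · intro hd
    rcases (Nat.Prime.dvd_mul Nat.prime_two).1 hd with h | h <;> omega
  · intro hd
    rcases (Nat.Prime.dvd_mul Nat.prime_three).1 hd with h | h <;> omega

theorem hall_arith4 {q i : ℕ} (h : 2 * i = q * (q - 1)) (h4 : q % 4 = 3) (h3 : 3 ∣ q + 1)
    (hq3 : ¬ 3 ∣ q) : ¬ 2 ∣ i ∧ ¬ 3 ∣ i := by
  obtain ⟨s, hs⟩ : ∃ s, q - 1 = 2 * s := ⟨(q - 1) / 2, by omega⟩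
  have hi : i = q * s := by
    rw [hs] at h
    linarith [show q * (2 * s) = 2 * (q * s) by ring]
  subst hi
  constructor
  · intro hd
    rcases (Nat.Prime.dvd_mul Nat.prime_two).1 hd with h | h <;> omega
  · intro hd
    rcases (Nat.Prime.dvd_mul Nat.prime_three).1 hd with h | h <;> omega

end hallnt

section hallgen

/-- A solvable subgroup whose index is prime to `2` and `3` contains a Hall `{2,3}`-subgroup
of the whole group. -/
theorem hall23_of_sub {G : Type*} [Group G] [Finite G] (N : Subgroup G)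
    (hN : Group.IsSolvable N) (h2 : ¬ 2 ∣ N.index) (h3 : ¬ 3 ∣ N.index) :
    ∃ H : Subgroup G, Cfsg.IsPiHall ({2, 3} : Set ℕ) H := by
  have hc0 : Nat.card N ≠ 0 := Nat.card_pos.ne'
  obtain ⟨e, c', hc'2, hc'⟩ := Nat.exists_eq_pow_mul_and_not_dvd hc0 2 (by norm_num)
  have hc'0 : c' ≠ 0 := by
    rintro rfl
    exact hc'2 (dvd_zero _)
  obtain ⟨f, c'', hc''3, hc''⟩ := Nat.exists_eq_pow_mul_and_not_dvd hc'0 3 (by norm_num)
  have hc''2 : ¬ 2 ∣ c'' := fun h => hc'2 (hc''.symm ▸ Dvd.dvd.mul_left h _)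
  have hcard : Nat.card N = 2 ^ e * 3 ^ f * c'' := by
    rw [hc', hc'', mul_assoc]
  have hcop : (2 ^ e * 3 ^ f).Coprime c'' := by
    apply Nat.Coprime.mul_left
    · exact Nat.Coprime.pow_left _ ((Nat.Prime.coprime_iff_not_dvd Nat.prime_two).2 hc''2)
    · exact Nat.Coprime.pow_left _ ((Nat.Prime.coprime_iff_not_dvd Nat.prime_three).2 hc''3)
  obtain ⟨H₀, hH₀⟩ := Cfsg.Agent.Lib.helper1.hall_exists (G := N) _ _ hcard hcop
  refine ⟨H₀.map N.subtype, ?_, ?_⟩
  · intro r hr hrd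
    rw [Subgroup.card_map_of_injective N.subtype_injective, hH₀] at hrd
    rcases (Nat.Prime.dvd_mul hr).1 hrd with h | h
    · left
      exact (Nat.prime_dvd_prime_iff_eq hr Nat.prime_two).1 (hr.dvd_of_dvd_pow h)
    · right
      exact (Nat.prime_dvd_prime_iff_eq hr Nat.prime_three).1 (hr.dvd_of_dvd_pow h)
  · intro r hr hmem hrd
    rw [Subgroup.index_map_subtype] at hrd
    have hi : H₀.index = c'' := by
      have h1 := Subgroup.card_mul_index H₀
      rw [hH₀, hcard] at h1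
      exact Nat.eq_of_mul_eq_mul_left (by positivity) h1
    rw [hi] at hrd
    rcases hmem with rfl | rfl
    · rcases (Nat.Prime.dvd_mul hr).1 hrd with h | h
      · exact hc''2 h
      · exact h2 h
    · rcases (Nat.Prime.dvd_mul hr).1 hrd with h | h
      · exact hc''3 h
      · exact h3 h

/-- A `{2,3}`-subgroup of index prime to `6` is a Hall `{2,3}`-subgroup. -/
theorem hall23_of_card {G : Type*} [Group G] [Finite G] (H : Subgroup G) (a b : ℕ)
    (hH : Nat.card H = 2 ^ a * 3 ^ b) (h2 : ¬ 2 ∣ H.index) (h3 : ¬ 3 ∣ H.index) :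
    Cfsg.IsPiHall ({2, 3} : Set ℕ) H := by
  refine ⟨?_, ?_⟩
  · intro r hr hrd
    rw [hH] at hrd
    rcases (Nat.Prime.dvd_mul hr).1 hrd with h | h
    · left
      exact (Nat.prime_dvd_prime_iff_eq hr Nat.prime_two).1 (hr.dvd_of_dvd_pow h)
    · right
      exact (Nat.prime_dvd_prime_iff_eq hr Nat.prime_three).1 (hr.dvd_of_dvd_pow h)
  · intro r hr hmem hrd
    rcases hmem with rfl | rfl
    · exact h2 hrd
    · exact h3 hrd

end hallgen

section hallpsl

variable {F : Type*} [Field F] [Fintype F]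

theorem PSL2_hall23_iff (p : ℕ) [Fact p.Prime] [CharP F p] (hp : 5 ≤ p) :
    (∃ H : Subgroup PSL(2, F), Cfsg.IsPiHall ({2, 3} : Set ℕ) H) ↔
      (3 ∣ Fintype.card F - 1 ∧ Fintype.card F % 4 = 1) ∨
      (3 ∣ Fintype.card F + 1 ∧ Fintype.card F % 4 = 3) ∨
        2 ^ (Fintype.card F ^ 2 - 1).factorization 2 *
          3 ^ (Fintype.card F ^ 2 - 1).factorization 3 = 24 ∨
        2 ^ (Fintype.card F ^ 2 - 1).factorization 2 *
          3 ^ (Fintype.card F ^ 2 - 1).factorization 3 = 48 := by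
  classical
  have hpp : p.Prime := Fact.out
  obtain ⟨n, -, hqn⟩ := FiniteField.card F p
  have hG := card_PSL2_gen (F := F)
  have hpar := card_parity_cases (F := F)
  have hmq := fun x hx hs => normalizer_Mq_semi_dihedral (F := F) x hx hs
  have hsp := exists_semi_plus (F := F) p
  have hsm := exists_semi_minus (F := F) p
  have hS4 := fun h2 h8 => PSL2_exists_S4 (F := F) h2 h8
  have hA4 := fun h2 h8 => PSL2_exists_A4_norm (F := F) h2 h8
  have h8iff := PSL2_eight_dvd_iff (F := F)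
  have hdk := dk_cases (F := F) p
  have hqpos : 0 < Fintype.card F := Fintype.card_pos
  obtain ⟨q, hq⟩ : ∃ q, q = Fintype.card F := ⟨_, rfl⟩
  rw [← hq] at hG hpar hqn hsp hsm h8iff hdk hqpos ⊢
  have hpq : p ∣ q := by
    rw [hqn]
    exact dvd_pow_self _ n.ne_zero
  have hq5 : 5 ≤ q := by
    have := Nat.le_of_dvd hqpos hpq
    omega
  have hr : ∀ r : ℕ, r.Prime → r ∣ q → r = p := by
    intro r hr hrd
    rw [hqn] at hrd
    exact (Nat.prime_dvd_prime_iff_eq hr hpp).1 (hr.dvd_of_dvd_pow hrd)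
  have hq2 : ¬ 2 ∣ q := fun h => by
    have := hr 2 Nat.prime_two h
    omega
  have hq3 : ¬ 3 ∣ q := fun h => by
    have := hr 3 Nat.prime_three h
    omega
  have hg : Nat.gcd 2 (q - 1) = 2 := by
    rcases hpar with ⟨-, -, h⟩ | ⟨-, h, -⟩
    · exact h
    · exact absurd (Nat.dvd_of_mod_eq_zero h) hq2
  have h2F : (2 : F) ≠ 0 := by
    rcases hpar with ⟨h, -, -⟩ | ⟨-, h, -⟩
    · exact h
    · exact absurd (Nat.dvd_of_mod_eq_zero h) hq2
  have hodd : q % 2 = 1 := by omega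
  rw [hg] at hG hdk hsp hsm
  have hfac := sq_sub_one_fac q (by omega)
  have hqq0 : q ^ 2 - 1 ≠ 0 := by
    rw [hfac]
    have : 0 < (q - 1) * (q + 1) := Nat.mul_pos (by omega) (by omega)
    omega
  constructor
  · rintro ⟨H, hH1, hH2⟩
    have hi2 : ¬ 2 ∣ H.index := hH2 2 Nat.prime_two (by simp)
    have hi3 : ¬ 3 ∣ H.index := hH2 3 Nat.prime_three (by simp)
    have hci := Subgroup.card_mul_index H
    have hHpos : 0 < Nat.card H := Nat.card_pos
    have hpH : ¬ p ∣ Nat.card H := by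
      intro h
      have h23 : p = 2 ∨ p = 3 := hH1 p hpp h
      omega
    have hHtop : H ≠ ⊤ := by
      rintro rfl
      rw [Subgroup.card_top] at hpH
      apply hpH
      have h1 : p ∣ 2 * Nat.card PSL(2, F) := by
        rw [hG]
        exact Dvd.dvd.mul_right hpq _
      rcases (Nat.Prime.dvd_mul hpp).1 h1 with h | h
      · have := (Nat.prime_dvd_prime_iff_eq hpp Nat.prime_two).1 h
        omega
      · exact h
    have hmain : 2 * (Nat.card H * H.index) = q * ((q - 1) * (q + 1)) := by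
      rw [hci, hG, hfac]
    rcases hdk H hHtop with ⟨k, hk, hcd⟩ | ⟨hb, -⟩ | ⟨h12, -⟩ | ⟨h24, -⟩ | ⟨h60, -⟩ |
      ⟨K, _, _, m, hm2, hKm, hK⟩
    · have hHd : Nat.card H ∣ 2 * k := by
        rcases hcd with ⟨-, h⟩ | ⟨⟨f⟩⟩
        · rw [h]
          exact dvd_mul_left _ _
        · rw [Nat.card_congr f.toEquiv, DihedralGroup.nat_card]
      rcases hk with hk | hk
      · obtain ⟨c, hc⟩ := hHd.trans hk
        right; left
        apply hall_arith1 (c := c) ?_ hi2 hi3 hq2 hq3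
        apply Nat.eq_of_mul_eq_mul_left hHpos
        rw [hc] at hmain
        linarith [show q * ((q - 1) * (Nat.card H * c)) = Nat.card H * (q * (q - 1) * c) by ring,
          show 2 * (Nat.card H * H.index) = Nat.card H * (2 * H.index) by ring]
      · obtain ⟨c, hc⟩ := hHd.trans hk
        left
        apply hall_arith2 (c := c) ?_ hi2 hi3 hq2 hq3
        apply Nat.eq_of_mul_eq_mul_left hHpos
        rw [hc] at hmain
        linarith [show q * (Nat.card H * c * (q + 1)) = Nat.card H * (q * (q + 1) * c) by ring,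
          show 2 * (Nat.card H * H.index) = Nat.card H * (2 * H.index) by ring]
    · exfalso
      have hcop : Nat.Coprime (2 * Nat.card H) q := by
        apply Nat.Coprime.mul_left
        · exact (Nat.Prime.coprime_iff_not_dvd Nat.prime_two).2 hq2
        · rw [hqn]
          exact Nat.Coprime.pow_right _ ((Nat.Prime.coprime_iff_not_dvd hpp).2 hpH).symm
      obtain ⟨c, hc⟩ := hcop.dvd_of_dvd_mul_left hb
      apply hi2
      obtain ⟨s, hs⟩ : ∃ s, q + 1 = 2 * s := ⟨(q + 1) / 2, by omega⟩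
      refine ⟨q * c * s, ?_⟩
      apply Nat.eq_of_mul_eq_mul_left (Nat.mul_pos (by norm_num : 0 < 2) hHpos)
      rw [hc, hs] at hmain
      linarith [show q * (2 * Nat.card H * c * (2 * s)) =
          2 * Nat.card H * (2 * (q * c * s)) by ring,
        show 2 * (Nat.card H * H.index) = 2 * Nat.card H * H.index by ring]
    · right; right; left
      rw [h12, ← hfac] at hmain
      have e2 := fact_of_mul_eq (r := 2) (k := 3) (M := 3) Nat.prime_two
        (by rw [← hmain]; ring) hq2 (by norm_num) hi2 hqq0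
      have e3 := fact_of_mul_eq (r := 3) (k := 1) (M := 8) Nat.prime_three
        (by rw [← hmain]; ring) hq3 (by norm_num) hi3 hqq0
      rw [e2, e3]
      norm_num
    · right; right; right
      rw [h24, ← hfac] at hmain
      have e2 := fact_of_mul_eq (r := 2) (k := 4) (M := 3) Nat.prime_two
        (by rw [← hmain]; ring) hq2 (by norm_num) hi2 hqq0
      have e3 := fact_of_mul_eq (r := 3) (k := 1) (M := 16) Nat.prime_three
        (by rw [← hmain]; ring) hq3 (by norm_num) hi3 hqq0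
      rw [e2, e3]
      norm_num
    · exfalso
      have := hH1 5 (by norm_num) (by rw [h60]; norm_num)
      simp at this
    · exfalso
      have hK2 : 2 ≤ Fintype.card K := Fintype.one_lt_card
      obtain ⟨r, hrp, hrd⟩ := Nat.exists_prime_and_dvd (show Fintype.card K ≠ 1 by omega)
      have hrq : r ∣ q := by
        rw [← hKm]
        exact hrd.trans (dvd_pow_self _ (by omega))
      have hrp' := hr r hrp hrq
      subst hrp'
      have hd : r ∣ Fintype.card K * (Fintype.card K ^ 2 - 1) := Dvd.dvd.mul_right hrd _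
      rcases hK with ⟨h, -⟩ | ⟨h, -⟩
      · rw [← h] at hd
        rcases (Nat.Prime.dvd_mul hpp).1 hd with h | h
        · have h2 := Nat.le_of_dvd (by norm_num) (h.trans (Nat.gcd_dvd_left _ _))
          omega
        · exact hpH h
      · rw [← h] at hd
        exact hpH hd
  · rintro (⟨h3, h4⟩ | ⟨h3, h4⟩ | h | h)
    · obtain ⟨x, hx1, hx4, hxc, -⟩ := hsm (by omega)
      obtain ⟨⟨f⟩, hNc⟩ := hmq x hx1 hx4
      obtain ⟨N, hN⟩ : ∃ N, N = Subgroup.normalizer ((Mq x : Subgroup PSL(2, F)) :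
        Set PSL(2, F)) := ⟨_, rfl⟩
      rw [← hN] at f hNc
      have hci := Subgroup.card_mul_index N
      have e1 : (q - 1) * (2 * N.index) = (q - 1) * (q * (q + 1)) := by
        calc (q - 1) * (2 * N.index) = 2 * (Nat.card N * N.index) := by
              rw [hNc, hxc]; ring
          _ = q * (q ^ 2 - 1) := by rw [hci, hG]
          _ = (q - 1) * (q * (q + 1)) := by rw [hfac]; ring
      have e2 := Nat.eq_of_mul_eq_mul_left (by omega) e1
      obtain ⟨a2, a3⟩ := hall_arith3 e2 h4 h3 hq3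
      exact hall23_of_sub N (solv_of_iso f (solv_dihedral _)) a2 a3
    · obtain ⟨x, hx1, hx4, hxc, -⟩ := hsp
      obtain ⟨⟨f⟩, hNc⟩ := hmq x hx1 hx4
      obtain ⟨N, hN⟩ : ∃ N, N = Subgroup.normalizer ((Mq x : Subgroup PSL(2, F)) :
        Set PSL(2, F)) := ⟨_, rfl⟩
      rw [← hN] at f hNc
      have hci := Subgroup.card_mul_index N
      have e1 : (q + 1) * (2 * N.index) = (q + 1) * (q * (q - 1)) := by
        calc (q + 1) * (2 * N.index) = 2 * (Nat.card N * N.index) := by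
              rw [hNc, hxc]; ring
          _ = q * (q ^ 2 - 1) := by rw [hci, hG]
          _ = (q + 1) * (q * (q - 1)) := by rw [hfac]; ring
      have e2 := Nat.eq_of_mul_eq_mul_left (by omega) e1
      obtain ⟨a2, a3⟩ := hall_arith4 e2 h4 h3 hq3
      exact hall23_of_sub N (solv_of_iso f (solv_dihedral _)) a2 a3
    · obtain ⟨e2, e3⟩ := two_three_pow_24 h
      have hn8 : ¬ 8 ∣ Nat.card PSL(2, F) := by
        rw [h8iff hodd]
        intro h16
        have hd : 2 ^ 4 ∣ q ^ 2 - 1 := by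
          generalize q ^ 2 = Q at h16 hqq0 ⊢
          omega
        have := (Nat.prime_two.pow_dvd_iff_le_factorization hqq0).1 hd
        omega
      obtain ⟨H, h12, -⟩ := hA4 h2F hn8
      have hci := Subgroup.card_mul_index H
      have hmain : 24 * H.index = q * (q ^ 2 - 1) := by
        rw [← hG, ← hci, h12]; ring
      refine ⟨H, hall23_of_card H 2 1 (by rw [h12]; norm_num) ?_ ?_⟩
      · exact not_dvd_of_fact (r := 2) (k := 3) (M := 3) Nat.prime_two
          (by rw [← hmain]; ring) hq2 hqq0 e2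
      · exact not_dvd_of_fact (r := 3) (k := 1) (M := 8) Nat.prime_three
          (by rw [← hmain]; ring) hq3 hqq0 e3
    · obtain ⟨e2, e3⟩ := two_three_pow_48 h
      have h8 : 8 ∣ Nat.card PSL(2, F) := by
        rw [h8iff hodd]
        have hd : 2 ^ 4 ∣ q ^ 2 - 1 :=
          (Nat.prime_two.pow_dvd_iff_le_factorization hqq0).2 (by omega)
        generalize q ^ 2 = Q at hd hqq0 ⊢
        omega
      obtain ⟨H, h24, -⟩ := hS4 h2F h8
      have hci := Subgroup.card_mul_index H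
      have hmain : 48 * H.index = q * (q ^ 2 - 1) := by
        rw [← hG, ← hci, h24]; ring
      refine ⟨H, hall23_of_card H 3 1 (by rw [h24]; norm_num) ?_ ?_⟩
      · exact not_dvd_of_fact (r := 2) (k := 4) (M := 3) Nat.prime_two
          (by rw [← hmain]; ring) hq2 hqq0 e2
      · exact not_dvd_of_fact (r := 3) (k := 1) (M := 16) Nat.prime_three
          (by rw [← hmain]; ring) hq3 hqq0 e3

end hallpsl

end Cfsg.Agent.Lib.helper12
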