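import Mathlib
import Cfsg.Agent.Lib.helper12.DkPGL

set_option autoImplicit false

namespace Cfsg.Agent.Lib.helper12

open scoped MatrixGroups

section dkpglord

variable {K : Type*} [Field K]

theorem mat2_cayley_hamilton (A : Matrix (Fin 2) (Fin 2) K) :
    A * A = A.trace • A - A.det • (1 : Matrix (Fin 2) (Fin 2) K) := by
  ext i j
  fin_cases i <;> fin_cases j <;>
    simp [Matrix.mul_apply, Fin.sum_univ_two, Matrix.trace_fin_two, Matrix.det_fin_two] <;> ring

theorem GL2_pow_form (g : GL (Fin 2) K) (i : ℕ) :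
    ∃ a b : K, ((g ^ i : GL (Fin 2) K) : Matrix (Fin 2) (Fin 2) K) =
      a • (1 : Matrix (Fin 2) (Fin 2) K) + b • (g : Matrix (Fin 2) (Fin 2) K) := by
  induction i with
  | zero => exact ⟨1, 0, by simp⟩
  | succ i ih =>
    obtain ⟨a, b, hab⟩ := ih
    refine ⟨-b * (g : Matrix (Fin 2) (Fin 2) K).det,
      a + b * (g : Matrix (Fin 2) (Fin 2) K).trace, ?_⟩
    rw [pow_succ, Units.val_mul, hab, add_mul, Matrix.smul_mul, Matrix.smul_mul, Matrix.one_mul,
      mat2_cayley_hamilton]
    ext i j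
    simp only [Matrix.add_apply, Matrix.smul_apply, Matrix.sub_apply, smul_eq_mul]
    ring

theorem PGL2_orderOf_le [Fintype K] (y : PGL(2, K)) : orderOf y ≤ Fintype.card K + 1 := by
  classical
  induction y using Matrix.ProjGenLinGroup.induction_on with | mk g =>
  obtain ⟨φ, hφ⟩ : ∃ φ : K → PGL(2, K), ∀ c : K,
      ∀ h : (c • (1 : Matrix (Fin 2) (Fin 2) K) + (g : Matrix (Fin 2) (Fin 2) K)).det ≠ 0,
      φ c = Matrix.ProjGenLinGroup.mk (Matrix.GeneralLinearGroup.mkOfDetNeZero _ h) := by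
    refine ⟨fun c => if h : (c • (1 : Matrix (Fin 2) (Fin 2) K) +
      (g : Matrix (Fin 2) (Fin 2) K)).det ≠ 0 then
      Matrix.ProjGenLinGroup.mk (Matrix.GeneralLinearGroup.mkOfDetNeZero _ h) else 1, ?_⟩
    intro c h
    simp only [dif_pos h]
  have hcover : ∀ i : ℕ, (Matrix.ProjGenLinGroup.mk g : PGL(2, K)) ^ i ∈
      insert (1 : PGL(2, K)) (Set.range φ) := by
    intro i
    obtain ⟨a, b, hab⟩ := GL2_pow_form g i
    rw [← map_pow]
    by_cases hb : b = 0
    · left
      rw [Matrix.ProjGenLinGroup.mk_eq_one, GL2_mem_center_entries]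
      rw [hb, zero_smul, add_zero] at hab
      have h := fun i j => congrFun (congrFun hab i) j
      refine ⟨?_, ?_, ?_⟩
      · rw [h 0 1]; simp
      · rw [h 1 0]; simp
      · rw [h 0 0, h 1 1]; simp
    · right
      have hdet : ((a / b) • (1 : Matrix (Fin 2) (Fin 2) K) +
          (g : Matrix (Fin 2) (Fin 2) K)).det ≠ 0 := by
        have e : (a / b) • (1 : Matrix (Fin 2) (Fin 2) K) + (g : Matrix (Fin 2) (Fin 2) K) =
            b⁻¹ • ((g ^ i : GL (Fin 2) K) : Matrix (Fin 2) (Fin 2) K) := by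
          rw [hab, smul_add, smul_smul, smul_smul, inv_mul_cancel₀ hb, one_smul, div_eq_inv_mul]
        rw [e, Matrix.det_smul]
        have h1 : ((g ^ i : GL (Fin 2) K) : Matrix (Fin 2) (Fin 2) K).det ≠ 0 := by
          have := (Matrix.GeneralLinearGroup.det (g ^ i)).ne_zero
          simpa using this
        exact mul_ne_zero (pow_ne_zero _ (inv_ne_zero hb)) h1
      refine ⟨a / b, ?_⟩
      rw [hφ _ hdet, Matrix.ProjGenLinGroup.mk_eq_mk_iff]
      refine ⟨Units.mk0 b hb, ?_⟩
      apply Units.ext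
      rw [Units.val_mul, hab, Matrix.GeneralLinearGroup.coe_scalar]
      show ((a / b) • (1 : Matrix (Fin 2) (Fin 2) K) + (g : Matrix (Fin 2) (Fin 2) K)) *
        Matrix.scalar (Fin 2) b = _
      rw [Matrix.scalar_apply, ← Matrix.smul_one_eq_diagonal, Matrix.mul_smul, Matrix.mul_one,
        smul_add, smul_smul, mul_div_cancel₀ a hb]
  have hsub : (Subgroup.zpowers (Matrix.ProjGenLinGroup.mk g : PGL(2, K)) : Set PGL(2, K)) ⊆
      insert (1 : PGL(2, K)) (Set.range φ) := by
    intro z hz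
    haveI : Finite PGL(2, K) := by
      unfold Matrix.ProjGenLinGroup
      infer_instance
    have hz' : z ∈ Submonoid.powers (Matrix.ProjGenLinGroup.mk g : PGL(2, K)) :=
      (mem_powers_iff_mem_zpowers).2 hz
    obtain ⟨i, rfl⟩ := (Submonoid.mem_powers_iff _ _).1 hz'
    exact hcover i
  rw [← Nat.card_zpowers]
  change Nat.card ((Subgroup.zpowers (Matrix.ProjGenLinGroup.mk g : PGL(2, K)) :
    Set PGL(2, K))) ≤ _
  rw [Nat.card_coe_set_eq]
  have hfin : (insert (1 : PGL(2, K)) (Set.range φ)).Finite :=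
    (Set.finite_range φ).insert 1
  calc (Subgroup.zpowers (Matrix.ProjGenLinGroup.mk g : PGL(2, K)) : Set PGL(2, K)).ncard
      ≤ (insert (1 : PGL(2, K)) (Set.range φ)).ncard := Set.ncard_le_ncard hsub hfin
    _ ≤ (Set.range φ).ncard + 1 := Set.ncard_insert_le _ _
    _ ≤ Fintype.card K + 1 := by
        apply Nat.add_le_add_right
        rw [← Set.image_univ]
        calc (φ '' Set.univ).ncard ≤ (Set.univ : Set K).ncard := Set.ncard_image_le
          _ = Fintype.card K := by rw [Set.ncard_univ, Nat.card_eq_fintype_card]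

/-- Element orders in a group isomorphic to `PSL₂(K)` or `PGL₂(K)` are at most `|K| + 1`. -/
theorem dkd_orderOf_le [Fintype K] {H : Type*} [Group H]
    (h : Nonempty (H ≃* PSL(2, K)) ∨ Nonempty (H ≃* PGL(2, K))) (y : H) :
    orderOf y ≤ Fintype.card K + 1 := by
  rcases h with ⟨⟨e⟩⟩ | ⟨⟨e⟩⟩
  · have h1 : orderOf (Matrix.ProjectiveSpecialLinearGroup.toPGL (e y)) = orderOf (e y) :=
      orderOf_injective _ Matrix.ProjectiveSpecialLinearGroup.toPGL_injective _
    rw [← e.orderOf_eq y, ← h1]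
    exact PGL2_orderOf_le _
  · rw [← e.orderOf_eq y]
    exact PGL2_orderOf_le _

end dkpglord

end Cfsg.Agent.Lib.helper12
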