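import Mathlib
import Cfsg.Prelude.Def_GeometricClasses

set_option autoImplicit false

namespace Cfsg.Agent.Lib.helper12.E27

theorem aux_prime_dvd (r : ℕ) (hr : r.Prime) (hr5 : 5 ≤ r) (m : ℕ) (hm : m = 24 ∨ m = 18)
    (h : r ∣ m) : False := by
  rcases hm with rfl | rfl
  · have hle := Nat.le_of_dvd (by norm_num) h
    interval_cases r <;> first | omega | (norm_num at hr)
  · have hle := Nat.le_of_dvd (by norm_num) h
    interval_cases r <;> first | omega | (norm_num at hr)

/-- (H1) If `y` normalises a subgroup `R` of order 27, centralises a nontrivial element of `R`,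
and `y ^ r` centralises `R` for a prime `r ≥ 5`, then `y` centralises `R`. -/
theorem centralizes_of_pow {G : Type*} [Group G] (R : Subgroup G) (hR : Nat.card R = 27) (y z : G)
    (hy : ∀ x ∈ R, y * x * y⁻¹ ∈ R) (hz : z ∈ R) (hz1 : z ≠ 1) (hzy : y * z = z * y) (r : ℕ)
    (hr : r.Prime) (hr5 : 5 ≤ r) (hyr : ∀ x ∈ R, y ^ r * x = x * y ^ r) :
    ∀ x ∈ R, y * x = x * y := by
  classical
  haveI : Finite ↥R := Nat.finite_of_card_ne_zero (by rw [hR]; norm_num)
  haveI : Fintype ↥R := Fintype.ofFinite _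
  haveI : Fact r.Prime := ⟨hr⟩
  let f : Function.End ↥R := fun x => ⟨y * x * y⁻¹, hy x x.2⟩
  have hf1 : ∀ x : ↥R, ((f x : ↥R) : G) = y * x * y⁻¹ := fun x => rfl
  have hit : ∀ (n : ℕ) (x : ↥R), ((f^[n] x : ↥R) : G) = y ^ n * x * (y ^ n)⁻¹ := by
    intro n
    induction n with
    | zero => intro x; rw [Function.iterate_zero_apply]; simp
    | succ n ih =>
      intro x
      rw [Function.iterate_succ_apply', hf1, ih x, pow_succ']
      group
  have hf : f ^ r ^ 1 = 1 := by
    rw [pow_one]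
    have h1 : (f ^ r : Function.End ↥R) = f^[r] :=
      hom_coe_pow (fun g : Function.End ↥R ↦ g) rfl (fun g h ↦ rfl) f r
    rw [h1]
    funext x
    apply Subtype.ext
    rw [hit r x]
    show y ^ r * (x : G) * (y ^ r)⁻¹ = (x : G)
    rw [hyr x x.2]; group
  have hmod := Equiv.Perm.card_fixedPoints_modEq (f := f) (p := r) (n := 1) hf
  let C : Subgroup ↥R := (Subgroup.centralizer ({y} : Set G)).subgroupOf R
  have hCmem : ∀ x : ↥R, x ∈ C ↔ y * (x : G) = x * y := by
    intro x
    show (x : G) ∈ Subgroup.centralizer ({y} : Set G) ↔ _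
    rw [Subgroup.mem_centralizer_iff]
    constructor
    · intro h; exact h y rfl
    · intro h g hg; rw [Set.mem_singleton_iff] at hg; rw [hg]; exact h
  have hfix : Function.fixedPoints f = (C : Set ↥R) := by
    ext x
    rw [Function.mem_fixedPoints, Function.IsFixedPt, SetLike.mem_coe, hCmem]
    constructor
    · intro h
      have h1 : y * (x : G) * y⁻¹ = x := congrArg Subtype.val h
      exact mul_inv_eq_iff_eq_mul.mp h1
    · intro h
      apply Subtype.ext
      show y * (x : G) * y⁻¹ = x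
      exact mul_inv_eq_iff_eq_mul.mpr h
  have hcardfix : Fintype.card ↥(Function.fixedPoints f) = Nat.card ↥C := by
    rw [← Nat.card_eq_fintype_card]
    exact Nat.card_congr (Equiv.setCongr hfix)
  have hcardR : Fintype.card ↥R = 27 := by rw [← Nat.card_eq_fintype_card]; exact hR
  rw [hcardfix, hcardR] at hmod
  have hdvd : Nat.card ↥C ∣ 27 := by
    have := Subgroup.card_subgroup_dvd_card C
    rwa [hR] at this
  have hne1 : Nat.card ↥C ≠ 1 := by
    intro h1
    have hbot : C = ⊥ := Subgroup.card_eq_one.mp h1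
    have hzC : (⟨z, hz⟩ : ↥R) ∈ C := (hCmem _).mpr hzy
    rw [hbot, Subgroup.mem_bot] at hzC
    exact hz1 (congrArg Subtype.val hzC)
  have h27 : Nat.card ↥C = 27 := by
    have h3 : (27 : ℕ) = 3 ^ 3 := by norm_num
    have hdvd' : Nat.card ↥C ∣ 3 ^ 3 := by rw [← h3]; exact hdvd
    obtain ⟨i, hi, hk⟩ := (Nat.dvd_prime_pow Nat.prime_three).mp hdvd'
    rw [hk] at hmod hne1 ⊢
    interval_cases i
    · exact absurd rfl hne1
    · exfalso
      have h1 : r ∣ 27 - 3 ^ 1 := (Nat.modEq_iff_dvd' (by norm_num)).mp hmod.symm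
      exact aux_prime_dvd r hr hr5 24 (Or.inl rfl) (by simpa using h1)
    · exfalso
      have h1 : r ∣ 27 - 3 ^ 2 := (Nat.modEq_iff_dvd' (by norm_num)).mp hmod.symm
      exact aux_prime_dvd r hr hr5 18 (Or.inr rfl) (by simpa using h1)
    · norm_num
  have htop : C = ⊤ := Subgroup.eq_top_of_card_eq C (by rw [h27, hR])
  intro x hx
  have : (⟨x, hx⟩ : ↥R) ∈ C := by rw [htop]; exact Subgroup.mem_top _
  exact (hCmem _).mp this

/-- (H3) If a prime `r ≥ 5` divides a relative index in `SL_3(F)`, then `SL_3(F)` has a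
non-scalar element `x` with `x ^ r = 1`. -/
theorem exists_order_r {F : Type*} [Field F] [Fintype F] (N : Subgroup (GL (Fin 3) F)) (r : ℕ)
    [Fact r.Prime] (hr5 : 5 ≤ r) (h : r ∣ N.relIndex (Cfsg.Geo.specialLinear (Fin 3) F)) :
    ∃ x ∈ Cfsg.Geo.specialLinear (Fin 3) F, x ^ r = 1 ∧
      ∀ z : F, (x : Matrix (Fin 3) (Fin 3) F) ≠ z • (1 : Matrix (Fin 3) (Fin 3) F) := by
  classical
  have hdvd : r ∣ Nat.card ↥(Cfsg.Geo.specialLinear (Fin 3) F) :=
    h.trans (Subgroup.index_dvd_card _)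
  obtain ⟨x, hx⟩ := exists_prime_orderOf_dvd_card' r hdvd
  have hxr : (x : GL (Fin 3) F) ^ r = 1 := by
    have h1 : x ^ r = 1 := by rw [← hx]; exact pow_orderOf_eq_one x
    have h2 := congrArg Subtype.val h1
    simpa using h2
  refine ⟨(x : GL (Fin 3) F), x.2, hxr, ?_⟩
  intro z hz
  have hx1 : x ≠ 1 := by
    intro h1
    rw [h1, orderOf_one] at hx
    omega
  apply hx1
  have hdet : Matrix.det ((x : GL (Fin 3) F) : Matrix (Fin 3) (Fin 3) F) = 1 := by
    have h2 : Matrix.GeneralLinearGroup.det (x : GL (Fin 3) F) = 1 := x.2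
    have h3 := congrArg Units.val h2
    simpa using h3
  rw [hz, Matrix.det_smul, Matrix.det_one, Fintype.card_fin, mul_one] at hdet
  have hzr : z ^ r = 1 := by
    have h2 : ((x : GL (Fin 3) F) : Matrix (Fin 3) (Fin 3) F) ^ r = 1 := by
      rw [← Units.val_pow_eq_pow_val, hxr]; rfl
    rw [hz, smul_pow, one_pow] at h2
    have h3 := congrFun (congrFun h2 0) 0
    simpa using h3
  have hz1 : z = 1 := by
    have hg : z ^ Nat.gcd 3 r = 1 := pow_gcd_eq_one.mpr ⟨hdet, hzr⟩
    have hcop : Nat.gcd 3 r = 1 :=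
      (Nat.coprime_primes Nat.prime_three (Fact.out : r.Prime)).mpr (by omega)
    rwa [hcop, pow_one] at hg
  apply Subtype.ext
  apply Units.ext
  rw [hz, hz1, one_smul]; rfl

end Cfsg.Agent.Lib.helper12.E27
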