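import Mathlib
import Cfsg.Prelude.Def_GeometricClasses

set_option autoImplicit false

namespace Cfsg.Agent.Lib.helper12.E27

/-- (K2) If a prime `r ≥ 5` divides a relative index in a subgroup `K` of `SL_3(F)`, then `K`
has a non-scalar element `x` with `x ^ r = 1`. -/
theorem exists_order_r' {F : Type*} [Field F] [Fintype F] (K N : Subgroup (GL (Fin 3) F))
    (hK : K ≤ Cfsg.Geo.specialLinear (Fin 3) F) (r : ℕ) [Fact r.Prime] (hr5 : 5 ≤ r)
    (h : r ∣ N.relIndex K) :
    ∃ x ∈ K, x ^ r = 1 ∧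
      ∀ z : F, (x : Matrix (Fin 3) (Fin 3) F) ≠ z • (1 : Matrix (Fin 3) (Fin 3) F) := by
  classical
  have hdvd : r ∣ Nat.card ↥K := h.trans (Subgroup.index_dvd_card _)
  obtain ⟨x, hx⟩ := exists_prime_orderOf_dvd_card' r hdvd
  have hxr : (x : GL (Fin 3) F) ^ r = 1 := by
    have h1 : x ^ r = 1 := by rw [← hx]; exact pow_orderOf_eq_one x
    have h2 := congrArg Subtype.val h1
    simpa using h2
  refine ⟨(x : GL (Fin 3) F), x.2, hxr, ?_⟩
  intro z hz
  have hx1 : x ≠ 1 := by
    intro h1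
    rw [h1, orderOf_one] at hx
    omega
  apply hx1
  have hdet : Matrix.det ((x : GL (Fin 3) F) : Matrix (Fin 3) (Fin 3) F) = 1 := by
    have h2 : Matrix.GeneralLinearGroup.det (x : GL (Fin 3) F) = 1 := hK x.2
    have h3 := congrArg Units.val h2
    simpa using h3
  rw [hz, Matrix.det_smul, Matrix.det_one, Fintype.card_fin, mul_one] at hdet
  have hzr : z ^ r = 1 := by
    have h2 : ((x : GL (Fin 3) F) : Matrix (Fin 3) (Fin 3) F) ^ r = 1 := by
      rw [← Units.val_pow_eq_pow_val, hxr]; rfl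
    rw [hz, smul_pow, one_pow] at h2
    have h3 := congrFun (congrFun h2 0) 0
    simpa using h3
  have hz1 : z = 1 := by
    have hg : z ^ Nat.gcd 3 r = 1 := pow_gcd_eq_one.mpr ⟨hdet, hzr⟩
    have hcop : Nat.gcd 3 r = 1 :=
      (Nat.coprime_primes Nat.prime_three (Fact.out : r.Prime)).mpr (by omega)
    rwa [hcop, pow_one] at hg
  apply Subtype.ext
  apply Units.ext
  rw [hz, hz1, one_smul]; rfl

end Cfsg.Agent.Lib.helper12.E27
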