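import Cfsg.Agent.Lib.helper12.CharTools2
import Cfsg.Agent.Lib.helper12.GL2Char

set_option autoImplicit false

namespace Cfsg.Agent.Lib.helper12

open Matrix Cfsg Cfsg.Agent.Lib.helper24
open scoped ComplexConjugate

section gl2table

variable {F : Type*} [Field F] [Fintype F] [DecidableEq F]

/-- The principal series function of `GL₂`. -/
noncomputable abbrev RGL (α β : MulChar F ℂ) : GL (Fin 2) F → ℂ :=
  indFun (Cfsg.upperTriangularGL 2 F) (borelChar α β)

/-- The linear character `α ∘ det` of `GL₂`. -/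
noncomputable def lamGL (α : MulChar F ℂ) : GL (Fin 2) F → ℂ :=
  fun g => α ((g : Matrix (Fin 2) (Fin 2) F).det)

omit [Fintype F] [DecidableEq F] in
theorem lamGL_isIrr (α : MulChar F ℂ) : IsIrrCharacter (GL (Fin 2) F) (lamGL α) := by
  have h := isIrrCharacter_of_hom (α.toUnitHom.comp (Matrix.GeneralLinearGroup.det (n := Fin 2) (R := F)))
  have e : (fun g => (((α.toUnitHom.comp (Matrix.GeneralLinearGroup.det (n := Fin 2) (R := F))) g : ℂˣ) : ℂ))
      = lamGL α := by
    funext g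
    simp only [MonoidHom.comp_apply, MulChar.coe_toUnitHom]
    rfl
  rwa [e] at h

omit [Fintype F] [DecidableEq F] in
theorem lamGL_borel (α : MulChar F ℂ) (b : ↥(Cfsg.upperTriangularGL 2 F)) :
    lamGL α (b : GL (Fin 2) F) = borelChar α α b := by
  simp only [lamGL, borelChar]
  rw [Matrix.det_fin_two, borelGL_apply_one_zero, mul_zero, sub_zero, map_mul]

theorem borelChar_inner (α β α' β' : MulChar F ℂ) [Fintype ↥(Cfsg.upperTriangularGL 2 F)]
    [Decidable (α = α' ∧ β = β')] :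
    classInner (borelChar α β) (borelChar α' β') = if α = α' ∧ β = β' then 1 else 0 := by
  classical
  unfold classInner
  rw [sum_borelGL]
  have h1 : ∀ (a d : Fˣ), ∑ z : F, borelChar α β (borelMk a d z) * conj (borelChar α' β' (borelMk a d z))
      = (Fintype.card F : ℂ) * ((α (a : F) * conj (α' (a : F))) * (β (d : F) * conj (β' (d : F)))) := by
    intro a d
    simp only [borelChar_borelMk, Finset.sum_const, Finset.card_univ, nsmul_eq_mul, map_mul]
    ring
  simp only [h1, ← Finset.mul_sum, ← Finset.sum_mul, mulChar_orth]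
  rw [card_borelGL]
  have hq : (2 : ℕ) ≤ Fintype.card F := Fintype.one_lt_card
  have hq1 := card_sub_one_ne_zero (F := F)
  have hq0 : (Fintype.card F : ℂ) ≠ 0 := by
    have : (0 : ℕ) < Fintype.card F := by omega
    exact_mod_cast this.ne'
  push_cast
  rw [Nat.cast_sub (by omega)]
  push_cast
  split_ifs <;> (try (exfalso; tauto)) <;> (try field_simp) <;> (try simp)

theorem RGL_lamGL_inner (α β γ : MulChar F ℂ) [Decidable (α = γ ∧ β = γ)] :
    classInner (RGL α β) (lamGL γ) = if α = γ ∧ β = γ then 1 else 0 := by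
  classical
  have := Fintype.ofFinite ↥(Cfsg.upperTriangularGL 2 F)
  rw [frobenius_reciprocity _ _ (isCharacter_conj_class (isCharacter_of_isIrrCharacter (lamGL_isIrr γ)))]
  have e : (fun b : ↥(Cfsg.upperTriangularGL 2 F) => lamGL γ (b : GL (Fin 2) F)) = borelChar γ γ := by
    funext b
    exact lamGL_borel γ b
  rw [e, borelChar_inner]

theorem RGL_isCharacter (α β : MulChar F ℂ) : IsCharacter (GL (Fin 2) F) (RGL α β) :=
  isCharacter_indFun _ (isCharacter_of_isIrrCharacter (borelChar_isIrr α β))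

theorem RGL_isIrr (α β : MulChar F ℂ) (h : α ≠ β) : IsIrrCharacter (GL (Fin 2) F) (RGL α β) := by
  classical
  apply isIrrCharacter_of_inner_self_eq_one (RGL_isCharacter α β)
  rw [RGL_inner]
  simp [h]

/-- The twisted Steinberg character of `GL₂`. -/
noncomputable def stGL (α : MulChar F ℂ) : GL (Fin 2) F → ℂ := RGL α α - lamGL α

theorem stGL_isIrr (α : MulChar F ℂ) : IsIrrCharacter (GL (Fin 2) F) (stGL α) := by
  classical
  apply isIrrCharacter_sub_of_norm_two (RGL_isCharacter α α) (lamGL_isIrr α)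
  · rw [RGL_inner]
    simp
    norm_num
  · rw [RGL_lamGL_inner]
    simp

theorem RGL_eq_lam_add_st (α : MulChar F ℂ) : RGL α α = lamGL α + stGL α := by
  unfold stGL
  abel

theorem RGL_stGL_inner (α β γ : MulChar F ℂ) [Decidable (α = γ ∧ β = γ)] :
    classInner (RGL α β) (stGL γ) = if α = γ ∧ β = γ then 1 else 0 := by
  classical
  unfold stGL
  rw [classInner_sub_right, RGL_inner, RGL_lamGL_inner]
  split_ifs <;> norm_num

theorem RGL_apply_one (α β : MulChar F ℂ) : RGL α β 1 = (Fintype.card F : ℂ) + 1 := by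
  show indFun (Cfsg.upperTriangularGL 2 F) (borelChar α β) 1 = _
  rw [RGL_apply_upper α β 1 (by simp)]
  simp
  ring

omit [Fintype F] [DecidableEq F] in
theorem lamGL_apply_one (α : MulChar F ℂ) : lamGL α 1 = 1 := by
  simp [lamGL]

theorem stGL_apply_one (α : MulChar F ℂ) : stGL α 1 = (Fintype.card F : ℂ) := by
  simp only [stGL, Pi.sub_apply, RGL_apply_one, lamGL_apply_one]
  ring

/-- Cuspidality: orthogonality to all principal series functions. -/
def IsCuspGL (χ : GL (Fin 2) F → ℂ) : Prop :=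
  ∀ α β : MulChar F ℂ, classInner (RGL α β) χ = 0

theorem GL2_irr_cases (χ : IrrCharacter (GL (Fin 2) F)) :
    IsCuspGL χ.1 ∨ (∃ α : MulChar F ℂ, χ.1 = lamGL α) ∨ (∃ α : MulChar F ℂ, χ.1 = stGL α) ∨
      (∃ α β : MulChar F ℂ, α ≠ β ∧ χ.1 = RGL α β) := by
  classical
  by_cases hc : IsCuspGL χ.1
  · exact Or.inl hc
  · right
    unfold IsCuspGL at hc
    push Not at hc
    obtain ⟨α, β, hne⟩ := hc
    by_cases hab : α = β
    · subst hab
      rw [RGL_eq_lam_add_st, classInner_add_left] at hne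
      by_cases h1 : classInner (lamGL α) χ.1 = 0
      · rw [h1, zero_add] at hne
        right; left
        refine ⟨α, ?_⟩
        exact (congrArg Subtype.val (irr_eq_of_inner_ne_zero (χ := ⟨_, stGL_isIrr α⟩) (ψ := χ) hne)).symm
      · left
        refine ⟨α, ?_⟩
        exact (congrArg Subtype.val (irr_eq_of_inner_ne_zero (χ := ⟨_, lamGL_isIrr α⟩) (ψ := χ) h1)).symm
    · right; right
      refine ⟨α, β, hab, ?_⟩
      exact (congrArg Subtype.val (irr_eq_of_inner_ne_zero (χ := ⟨_, RGL_isIrr α β hab⟩) (ψ := χ) hne)).symm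

theorem sum_irr_mul_inner_RGL [Fintype (IrrCharacter (GL (Fin 2) F))] (φ : ℂ → ℂ) (α β : MulChar F ℂ)
    [Decidable (α = β)] :
    ∑ χ : IrrCharacter (GL (Fin 2) F), φ (χ.1 1) * classInner (RGL α β) χ.1 =
      if α = β then φ 1 + φ (Fintype.card F) else φ ((Fintype.card F : ℂ) + 1) := by
  split_ifs with h
  · subst h
    rw [RGL_eq_lam_add_st]
    simp only [classInner_add_left, mul_add, Finset.sum_add_distrib]
    have h1 := sum_irr_mul_inner (fun χ : IrrCharacter (GL (Fin 2) F) => φ (χ.1 1)) ⟨lamGL α, lamGL_isIrr α⟩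
    have h2 := sum_irr_mul_inner (fun χ : IrrCharacter (GL (Fin 2) F) => φ (χ.1 1)) ⟨stGL α, stGL_isIrr α⟩
    simp only at h1 h2
    rw [h1, h2, lamGL_apply_one, stGL_apply_one]
  · have h1 := sum_irr_mul_inner (fun χ : IrrCharacter (GL (Fin 2) F) => φ (χ.1 1)) ⟨RGL α β, RGL_isIrr α β h⟩
    simp only at h1
    rw [h1, RGL_apply_one]

omit [Field F] [Fintype F] [DecidableEq F] in
theorem sum_sum_ite_and {X : Type*} [Fintype X] [DecidableEq X] (γ δ : X) :
    ∑ α : X, ∑ β : X, (if α = γ ∧ β = δ then (1 : ℂ) else 0) = 1 := by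
  have : ∀ α β : X, (if α = γ ∧ β = δ then (1 : ℂ) else 0) =
      (if α = γ then 1 else 0) * (if β = δ then 1 else 0) := by
    intro α β
    split_ifs <;> simp_all
  simp only [this, ← Finset.mul_sum, Finset.sum_ite_eq', Finset.mem_univ, if_true,
    mul_one]

omit [Field F] [Fintype F] [DecidableEq F] in
theorem sum_ite_and_diag {X : Type*} [Fintype X] [DecidableEq X] (γ δ : X) :
    ∑ α : X, (if α = γ ∧ α = δ then (1 : ℂ) else 0) = if γ = δ then 1 else 0 := by
  have : ∀ α : X, (if α = γ ∧ α = δ then (1 : ℂ) else 0) =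
      (if α = γ then (if γ = δ then 1 else 0) else 0) := by
    intro α
    split_ifs <;> simp_all
  simp only [this, Finset.sum_ite_eq', Finset.mem_univ, if_true]

/-- The weight that is `1` on non-cuspidal and `0` on cuspidal irreducible characters. -/
noncomputable def wGL [Fintype (MulChar F ℂ)] (χ : GL (Fin 2) F → ℂ) : ℂ :=
  (1 / 2) * (∑ α : MulChar F ℂ, ∑ β : MulChar F ℂ, classInner (RGL α β) χ +
    ∑ α : MulChar F ℂ, classInner (RGL α α) χ)

theorem wGL_eq [Fintype (MulChar F ℂ)] (χ : IrrCharacter (GL (Fin 2) F)) [Decidable (IsCuspGL χ.1)] :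
    wGL χ.1 = if IsCuspGL χ.1 then 0 else 1 := by
  classical
  rcases GL2_irr_cases χ with hc | ⟨γ, h⟩ | ⟨γ, h⟩ | ⟨γ, δ, hne, h⟩
  · rw [if_pos hc]
    unfold wGL
    simp only [show ∀ α β, classInner (RGL α β) χ.1 = 0 from hc]
    simp
  · have hnc : ¬ IsCuspGL χ.1 := by
      intro hc
      have := hc γ γ
      rw [h, RGL_lamGL_inner] at this
      simp at this
    rw [if_neg hnc]
    unfold wGL
    rw [h]
    simp only [RGL_lamGL_inner, sum_sum_ite_and, sum_ite_and_diag]
    norm_num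
  · have hnc : ¬ IsCuspGL χ.1 := by
      intro hc
      have := hc γ γ
      rw [h, RGL_stGL_inner] at this
      simp at this
    rw [if_neg hnc]
    unfold wGL
    rw [h]
    simp only [RGL_stGL_inner, sum_sum_ite_and, sum_ite_and_diag]
    norm_num
  · have hnc : ¬ IsCuspGL χ.1 := by
      intro hc
      have := hc γ δ
      rw [h, RGL_inner] at this
      simp [hne] at this
    rw [if_neg hnc]
    unfold wGL
    rw [h]
    simp only [RGL_inner, Finset.sum_add_distrib, sum_sum_ite_and, sum_ite_and_diag]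
    simp [hne, Ne.symm hne]
    norm_num

omit [Field F] [Fintype F] [DecidableEq F] in
theorem sum_sum_ite_eq_const {X : Type*} [Fintype X] [DecidableEq X] (A B : ℂ) :
    ∑ α : X, ∑ β : X, (if α = β then A else B) =
      (Fintype.card X : ℂ) * ((Fintype.card X : ℂ) * B + (A - B)) := by
  have : ∀ α β : X, (if α = β then A else B) = B + (if α = β then A - B else 0) := by
    intro α β
    split_ifs <;> ring
  simp only [this, Finset.sum_add_distrib, Finset.sum_const, Finset.card_univ, nsmul_eq_mul,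
    Finset.sum_ite_eq, Finset.mem_univ, if_true]
  ring

/-- The master counting identity for the irreducible characters of `GL₂`. -/
theorem GL2_sum_irr [Fintype (IrrCharacter (GL (Fin 2) F))]
    [DecidablePred (fun χ : IrrCharacter (GL (Fin 2) F) => IsCuspGL χ.1)] (φ : ℂ → ℂ) :
    ∑ χ : IrrCharacter (GL (Fin 2) F), φ (χ.1 1) =
      ((Fintype.card F : ℂ) - 1) * (φ 1 + φ (Fintype.card F)) +
      (((Fintype.card F : ℂ) - 1) * ((Fintype.card F : ℂ) - 2) / 2) * φ ((Fintype.card F : ℂ) + 1) +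
      ∑ χ ∈ Finset.univ.filter (fun χ : IrrCharacter (GL (Fin 2) F) => IsCuspGL χ.1), φ (χ.1 1) := by
  classical
  have := Fintype.ofFinite (MulChar F ℂ)
  have hsplit : ∀ χ : IrrCharacter (GL (Fin 2) F),
      φ (χ.1 1) = φ (χ.1 1) * wGL χ.1 + (if IsCuspGL χ.1 then φ (χ.1 1) else 0) := by
    intro χ
    rw [wGL_eq]
    split_ifs <;> ring
  rw [Finset.sum_congr rfl (fun χ _ => hsplit χ), Finset.sum_add_distrib, ← Finset.sum_filter]
  congr 1
  have e1 : ∑ χ : IrrCharacter (GL (Fin 2) F), φ (χ.1 1) *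
      (∑ α : MulChar F ℂ, ∑ β : MulChar F ℂ, classInner (RGL α β) χ.1) =
      ∑ α : MulChar F ℂ, ∑ β : MulChar F ℂ, ∑ χ : IrrCharacter (GL (Fin 2) F),
        φ (χ.1 1) * classInner (RGL α β) χ.1 := by
    simp only [Finset.mul_sum]
    rw [Finset.sum_comm]
    apply Finset.sum_congr rfl
    intro α _
    rw [Finset.sum_comm]
  have e2 : ∑ χ : IrrCharacter (GL (Fin 2) F), φ (χ.1 1) *
      (∑ α : MulChar F ℂ, classInner (RGL α α) χ.1) =
      ∑ α : MulChar F ℂ, ∑ χ : IrrCharacter (GL (Fin 2) F), φ (χ.1 1) * classInner (RGL α α) χ.1 := by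
    simp only [Finset.mul_sum]
    rw [Finset.sum_comm]
  have e3 : ∑ χ : IrrCharacter (GL (Fin 2) F), φ (χ.1 1) * wGL χ.1 =
      (1 / 2) * (∑ χ : IrrCharacter (GL (Fin 2) F), φ (χ.1 1) *
        (∑ α : MulChar F ℂ, ∑ β : MulChar F ℂ, classInner (RGL α β) χ.1) +
      ∑ χ : IrrCharacter (GL (Fin 2) F), φ (χ.1 1) * (∑ α : MulChar F ℂ, classInner (RGL α α) χ.1)) := by
    rw [← Finset.sum_add_distrib, Finset.mul_sum]
    apply Finset.sum_congr rfl
    intro χ _
    unfold wGL
    ring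
  rw [e3, e1, e2]
  simp only [sum_irr_mul_inner_RGL, sum_sum_ite_eq_const, if_true, Finset.sum_const, Finset.card_univ,
    nsmul_eq_mul]
  have hcard : (Fintype.card (MulChar F ℂ) : ℂ) = (Fintype.card F : ℂ) - 1 := by
    have h := card_mulChar (F := F)
    rw [Nat.card_eq_fintype_card] at h
    rw [h, Nat.cast_sub Fintype.card_pos, Nat.cast_one]
  rw [hcard]
  ring

theorem GL2_cusp_sum (χ : GL (Fin 2) F → ℂ) (hcl : IsClassFunction (GL (Fin 2) F) χ)
    (hc : IsCuspGL χ) (a d : Fˣ) : ∑ z : F, χ (borelMk a d z : GL (Fin 2) F) = 0 := by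
  classical
  have := Fintype.ofFinite ↥(Cfsg.upperTriangularGL 2 F)
  have := Fintype.ofFinite (MulChar F ℂ)
  have key : ∀ α β : MulChar F ℂ, ∑ a' : Fˣ, α (a' : F) *
      ∑ d' : Fˣ, β (d' : F) * conj (∑ z : F, χ (borelMk a' d' z : GL (Fin 2) F)) = 0 := by
    intro α β
    have h := hc α β
    rw [show RGL α β = indFun _ (borelChar α β) from rfl, frobenius_reciprocity _ _ hcl] at h
    unfold classInner at h
    rw [sum_borelGL] at h
    have hB : (Nat.card ↥(Cfsg.upperTriangularGL 2 F) : ℂ)⁻¹ ≠ 0 := inv_ne_zero (NeZero.ne _)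
    have h' := (mul_eq_zero.mp h).resolve_left hB
    rw [← h']
    apply Finset.sum_congr rfl
    intro a' _
    rw [Finset.mul_sum]
    apply Finset.sum_congr rfl
    intro d' _
    rw [map_sum, Finset.mul_sum, Finset.mul_sum]
    apply Finset.sum_congr rfl
    intro z _
    rw [borelChar_borelMk]
    ring
  have s1 : ∀ β : MulChar F ℂ, ∀ a' : Fˣ,
      ∑ d' : Fˣ, β (d' : F) * conj (∑ z : F, χ (borelMk a' d' z : GL (Fin 2) F)) = 0 := by
    intro β
    exact mulChar_fourier_inj _ (fun α => key α β)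
  have s2 : conj (∑ z : F, χ (borelMk a d z : GL (Fin 2) F)) = 0 :=
    mulChar_fourier_inj (fun d' => conj (∑ z : F, χ (borelMk a d' z : GL (Fin 2) F))) (fun β => s1 β a) d
  exact (map_eq_zero _).mp s2

omit [Fintype F] [DecidableEq F] in
theorem borelMk_isConj (a d : Fˣ) (z z' : F) (h : a ≠ d ∨ (z ≠ 0 ∧ z' ≠ 0)) :
    IsConj (borelMk a d z : GL (Fin 2) F) (borelMk a d z') := by
  have hns : ∀ w : F, (a ≠ d ∨ w ≠ 0) →
      ¬ ∃ c : F, ((borelMk a d w : GL (Fin 2) F) : Matrix (Fin 2) (Fin 2) F) = c • (1 : Matrix (Fin 2) (Fin 2) F) := by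
    rintro w hw ⟨c, hc⟩
    rw [borelMk_val] at hc
    have h00 := congrFun (congrFun hc 0) 0
    have h01 := congrFun (congrFun hc 0) 1
    have h11 := congrFun (congrFun hc 1) 1
    simp at h00 h01 h11
    rcases hw with hw | hw
    · exact hw (Units.ext (h00.trans h11.symm))
    · exact hw h01
  apply GL2_isConj_of_trace_det
  · exact hns z (h.imp id (fun h => h.1))
  · exact hns z' (h.imp id (fun h => h.2))
  · simp [borelMk_val, Matrix.trace_fin_two]
  · simp [borelMk_val, Matrix.det_fin_two]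

theorem GL2_cusp_split (χ : GL (Fin 2) F → ℂ) (hcl : IsClassFunction (GL (Fin 2) F) χ)
    (hc : IsCuspGL χ) (a d : Fˣ) (had : a ≠ d) : χ (borelMk a d 0 : GL (Fin 2) F) = 0 := by
  have h := GL2_cusp_sum χ hcl hc a d
  have h1 : ∀ z : F, χ (borelMk a d z : GL (Fin 2) F) = χ (borelMk a d 0 : GL (Fin 2) F) := fun z =>
    isClassFunction_of_isConj hcl (borelMk_isConj a d z 0 (Or.inl had))
  simp only [h1, Finset.sum_const, Finset.card_univ, nsmul_eq_mul] at h
  have hq0 : (Fintype.card F : ℂ) ≠ 0 := by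
    exact_mod_cast (Fintype.card_pos (α := F)).ne'
  exact (mul_eq_zero.mp h).resolve_left hq0

omit [Fintype F] [DecidableEq F] in
theorem borelMk_one_one_zero : ((borelMk (1 : Fˣ) 1 0 : ↥(Cfsg.upperTriangularGL 2 F)) : GL (Fin 2) F) = 1 := by
  apply Units.ext
  rw [borelMk_val]
  ext i j
  fin_cases i <;> fin_cases j <;> simp

/-- The standard unipotent element of `GL₂`. -/
noncomputable def uOneGL (F : Type*) [Field F] : GL (Fin 2) F :=
  ((borelMk (1 : Fˣ) (1 : Fˣ) (1 : F) : ↥(Cfsg.upperTriangularGL 2 F)) : GL (Fin 2) F)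

omit [Fintype F] [DecidableEq F] in
theorem uOneGL_val : ((uOneGL F : GL (Fin 2) F) : Matrix (Fin 2) (Fin 2) F) = !![1, 1; 0, 1] := by
  simp [uOneGL, borelMk_val]

theorem GL2_cusp_unip (χ : GL (Fin 2) F → ℂ) (hcl : IsClassFunction (GL (Fin 2) F) χ)
    (hc : IsCuspGL χ) :
    χ 1 + (((Fintype.card F - 1 : ℕ) : ℂ)) * χ (uOneGL F) = 0 := by
  have h := GL2_cusp_sum χ hcl hc 1 1
  rw [← Finset.add_sum_erase Finset.univ _ (Finset.mem_univ (0 : F)), borelMk_one_one_zero] at h
  have h1 : ∀ z ∈ Finset.univ.erase (0 : F), χ (borelMk 1 1 z : GL (Fin 2) F) = χ (uOneGL F) := by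
    intro z hz
    exact isClassFunction_of_isConj hcl (borelMk_isConj 1 1 z 1 (Or.inr ⟨Finset.ne_of_mem_erase hz, one_ne_zero⟩))
  rw [Finset.sum_congr rfl h1, Finset.sum_const, Finset.card_erase_of_mem (Finset.mem_univ _),
    Finset.card_univ, nsmul_eq_mul] at h
  exact h

theorem GL2_cusp_degree (χ : IrrCharacter (GL (Fin 2) F)) (hc : IsCuspGL χ.1) :
    ∃ m : ℕ, 0 < m ∧ χ.1 1 = ((Fintype.card F : ℂ) - 1) * m ∧
      χ.1 (uOneGL F) = -(m : ℂ) := by
  obtain ⟨d, hd0, hd⟩ := isIrrCharacter_one χ.2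
  have hchar := isCharacter_of_isIrrCharacter χ.2
  have hu := GL2_cusp_unip χ.1 (isCharacter_conj_class hchar) hc
  rw [hd] at hu
  have hq : (2 : ℕ) ≤ Fintype.card F := Fintype.one_lt_card
  obtain ⟨k, hk, hk2⟩ := nat_dvd_of_isIntegral (n := Fintype.card F - 1) (by omega)
    (Cfsg.Agent.Lib.helper23.isCharacter_isIntegral hchar _) hu
  have hk0 : k < 0 := by
    by_contra hcon
    push Not at hcon
    have h1 : (0 : ℤ) ≤ ((Fintype.card F - 1 : ℕ) : ℤ) * k := mul_nonneg (by positivity) hcon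
    have h2 : (0 : ℤ) < (d : ℤ) := by exact_mod_cast hd0
    omega
  refine ⟨(-k).toNat, ?_, ?_, ?_⟩
  · omega
  · rw [hd]
    have h3 : ((-k).toNat : ℤ) = -k := Int.toNat_of_nonneg (by omega)
    have h4 : (d : ℤ) = ((Fintype.card F - 1 : ℕ) : ℤ) * ((-k).toNat : ℤ) := by
      rw [h3]
      linarith
    have h5 : (d : ℂ) = ((Fintype.card F - 1 : ℕ) : ℂ) * ((-k).toNat : ℂ) := by exact_mod_cast h4
    rw [h5, Nat.cast_sub (by omega)]
    simp
  · rw [hk]
    have h3 : ((-k).toNat : ℤ) = -k := Int.toNat_of_nonneg (by omega)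
    have : (k : ℂ) = -(((-k).toNat : ℤ) : ℂ) := by
      rw [h3]
      push_cast
      ring
    rw [this, Int.cast_natCast]

omit [Field F] [Fintype F] [DecidableEq F] in
theorem all_one_of_sum_sq {ι : Type*} (s : Finset ι) (M : ι → ℕ) (hpos : ∀ i ∈ s, 0 < M i)
    (h : ∑ i ∈ s, M i ^ 2 = s.card) : ∀ i ∈ s, M i = 1 := by
  by_contra hcon
  push Not at hcon
  obtain ⟨i, hi, hne⟩ := hcon
  have h1 : ∑ j ∈ s, 1 < ∑ j ∈ s, M j ^ 2 := by
    apply Finset.sum_lt_sum
    · intro j hj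
      have := hpos j hj
      nlinarith
    · refine ⟨i, hi, ?_⟩
      have := hpos i hi
      have : 2 ≤ M i := by omega
      nlinarith
  simp at h1
  omega

omit [DecidableEq F] in
theorem card_GL2_cplx :
    (Nat.card (GL (Fin 2) F) : ℂ) = ((Fintype.card F : ℂ) ^ 2 - 1) * ((Fintype.card F : ℂ) ^ 2 - Fintype.card F) := by
  rw [Matrix.card_GL_field]
  simp only [Fin.prod_univ_two, Fin.val_zero, Fin.val_one, pow_zero, pow_one]
  have h1 : 1 ≤ Fintype.card F ^ 2 := Nat.one_le_pow _ _ Fintype.card_pos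
  have h2 : Fintype.card F ≤ Fintype.card F ^ 2 := by
    have : 1 ≤ Fintype.card F := Fintype.card_pos
    nlinarith
  rw [Nat.cast_mul, Nat.cast_sub h1, Nat.cast_sub h2]
  push_cast
  ring

omit [DecidableEq F] in
theorem card_irr_GL2 [Fintype (IrrCharacter (GL (Fin 2) F))] :
    (Fintype.card (IrrCharacter (GL (Fin 2) F)) : ℂ) = (Fintype.card F : ℂ) ^ 2 - 1 := by
  have h1 := card_irr_eq_card_conjClasses (G := GL (Fin 2) F)
  rw [card_conjClasses_GL2, Nat.card_eq_fintype_card] at h1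
  rw [h1, Nat.cast_sub (Nat.one_le_pow _ _ Fintype.card_pos)]
  push_cast
  ring

theorem GL2_card_cusp [Fintype (IrrCharacter (GL (Fin 2) F))]
    [DecidablePred (fun χ : IrrCharacter (GL (Fin 2) F) => IsCuspGL χ.1)] :
    ((Finset.univ.filter (fun χ : IrrCharacter (GL (Fin 2) F) => IsCuspGL χ.1)).card : ℂ) =
      (Fintype.card F : ℂ) * ((Fintype.card F : ℂ) - 1) / 2 := by
  have hcount := GL2_sum_irr (F := F) (fun _ => (1 : ℂ))
  simp only [Finset.sum_const, Finset.card_univ, nsmul_eq_mul, mul_one] at hcount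
  rw [card_irr_GL2] at hcount
  linear_combination -hcount

theorem GL2_cusp_degree_eq (χ : IrrCharacter (GL (Fin 2) F)) (hc : IsCuspGL χ.1) :
    χ.1 1 = (Fintype.card F : ℂ) - 1 ∧ χ.1 (uOneGL F) = -1 := by
  classical
  have := Fintype.ofFinite (IrrCharacter (GL (Fin 2) F))
  set C := Finset.univ.filter (fun χ : IrrCharacter (GL (Fin 2) F) => IsCuspGL χ.1) with hC
  let M : IrrCharacter (GL (Fin 2) F) → ℕ := fun χ =>
    if h : IsCuspGL χ.1 then Classical.choose (GL2_cusp_degree χ h) else 1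
  have hM : ∀ χ ∈ C, 0 < M χ ∧ χ.1 1 = ((Fintype.card F : ℂ) - 1) * M χ ∧ χ.1 (uOneGL F) = -(M χ : ℂ) := by
    intro χ hχ
    have h : IsCuspGL χ.1 := (Finset.mem_filter.mp hχ).2
    simp only [M, dif_pos h]
    exact Classical.choose_spec (GL2_cusp_degree χ h)
  have hc1 : (C.card : ℂ) = (Fintype.card F : ℂ) * ((Fintype.card F : ℂ) - 1) / 2 := GL2_card_cusp
  have hsq := GL2_sum_irr (F := F) (fun x => x ^ 2)
  beta_reduce at hsq
  rw [sum_sq_degrees, card_GL2_cplx] at hsq
  have hCsq : ∑ χ ∈ C, χ.1 1 ^ 2 = ((Fintype.card F : ℂ) - 1) ^ 2 * ∑ χ ∈ C, ((M χ : ℂ)) ^ 2 := by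
    rw [Finset.mul_sum]
    apply Finset.sum_congr rfl
    intro χ hχ
    rw [(hM χ hχ).2.1]
    ring
  have hfinal : ∑ χ ∈ C, ((M χ : ℂ)) ^ 2 = (C.card : ℂ) := by
    have hq1 := card_sub_one_ne_zero (F := F)
    have hc2 : ((Fintype.card F : ℂ) - 1) ^ 2 * ∑ χ ∈ C, ((M χ : ℂ)) ^ 2 =
        ((Fintype.card F : ℂ) - 1) ^ 2 * (C.card : ℂ) := by
      rw [← hCsq, hc1]
      linear_combination -hsq
    exact mul_left_cancel₀ (pow_ne_zero 2 hq1) hc2
  have hnat : ∑ χ ∈ C, M χ ^ 2 = C.card := by exact_mod_cast hfinal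
  have hall := all_one_of_sum_sq C M (fun χ hχ => (hM χ hχ).1) hnat
  have hχC : χ ∈ C := Finset.mem_filter.mpr ⟨Finset.mem_univ _, hc⟩
  have h := hM χ hχC
  rw [hall χ hχC] at h
  simpa using h.2

/-- Classification of the irreducible characters of `GL₂` over a finite field. -/
theorem GL2_irr_classify (χ : IrrCharacter (GL (Fin 2) F)) :
    (∃ α : MulChar F ℂ, χ.1 = lamGL α) ∨ (∃ α : MulChar F ℂ, χ.1 = stGL α) ∨
      (∃ α β : MulChar F ℂ, α ≠ β ∧ χ.1 = RGL α β) ∨
      (IsCuspGL χ.1 ∧ χ.1 1 = (Fintype.card F : ℂ) - 1 ∧ χ.1 (uOneGL F) = -1) := by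
  rcases GL2_irr_cases χ with hc | h | h | h
  · exact Or.inr (Or.inr (Or.inr ⟨hc, GL2_cusp_degree_eq χ hc⟩))
  · exact Or.inl h
  · exact Or.inr (Or.inl h)
  · exact Or.inr (Or.inr (Or.inl h))

/-- The number of irreducible characters of `GL₂` of a given degree. -/
theorem GL2_count_degree (x : ℂ) [Decidable ((1 : ℂ) = x)] [Decidable ((Fintype.card F : ℂ) = x)]
    [Decidable ((Fintype.card F : ℂ) + 1 = x)] [Decidable ((Fintype.card F : ℂ) - 1 = x)] :
    (Nat.card {χ : IrrCharacter (GL (Fin 2) F) // χ.1 1 = x} : ℂ) =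
      ((Fintype.card F : ℂ) - 1) * ((if (1 : ℂ) = x then 1 else 0) + (if (Fintype.card F : ℂ) = x then 1 else 0)) +
      (((Fintype.card F : ℂ) - 1) * ((Fintype.card F : ℂ) - 2) / 2) *
        (if (Fintype.card F : ℂ) + 1 = x then 1 else 0) +
      ((Fintype.card F : ℂ) * ((Fintype.card F : ℂ) - 1) / 2) *
        (if (Fintype.card F : ℂ) - 1 = x then 1 else 0) := by
  classical
  have := Fintype.ofFinite (IrrCharacter (GL (Fin 2) F))
  rw [Nat.card_eq_fintype_card, Fintype.card_subtype, Finset.card_filter]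
  push_cast
  have h := GL2_sum_irr (F := F) (fun y => if y = x then (1 : ℂ) else 0)
  beta_reduce at h
  rw [h]
  have h2 : ∀ χ ∈ Finset.univ.filter (fun χ : IrrCharacter (GL (Fin 2) F) => IsCuspGL χ.1),
      (if χ.1 1 = x then (1 : ℂ) else 0) = (if (Fintype.card F : ℂ) - 1 = x then 1 else 0) := by
    intro χ hχ
    rw [(GL2_cusp_degree_eq χ (Finset.mem_filter.mp hχ).2).1]
    congr!
  rw [Finset.sum_congr rfl h2, Finset.sum_const, nsmul_eq_mul, GL2_card_cusp]
  congr!

end gl2table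

end Cfsg.Agent.Lib.helper12
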