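import Mathlib
import Cfsg.Prelude.Def_KGroupFacts
import Cfsg.Agent.Lib.helper12.PSL2Aut2

set_option autoImplicit false

namespace Cfsg.Agent.Lib.helper12

section aut3

variable {F : Type*} [Field F]

theorem unip_comm_A (N : Matrix (Fin 2) (Fin 2) F) (ε : F)
    (h : N * !![1, 1; 0, 1] = ε • (!![1, 1; 0, 1] * N)) : N 1 0 = 0 ∧ N 0 0 = N 1 1 := by
  have e00 : N 0 0 = ε * (N 0 0 + N 1 0) := by
    have := congrFun (congrFun h 0) 0
    rw [Matrix.mul_apply, Matrix.smul_apply, Matrix.mul_apply, Fin.sum_univ_two,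
      Fin.sum_univ_two] at this
    simp at this
    linear_combination this
  have e01 : N 0 0 + N 0 1 = ε * (N 0 1 + N 1 1) := by
    have := congrFun (congrFun h 0) 1
    rw [Matrix.mul_apply, Matrix.smul_apply, Matrix.mul_apply, Fin.sum_univ_two,
      Fin.sum_univ_two] at this
    simp at this
    linear_combination this
  have e10 : N 1 0 = ε * N 1 0 := by
    have := congrFun (congrFun h 1) 0
    rw [Matrix.mul_apply, Matrix.smul_apply, Matrix.mul_apply, Fin.sum_univ_two,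
      Fin.sum_univ_two] at this
    simp at this
    linear_combination this
  have e11 : N 1 0 + N 1 1 = ε * N 1 1 := by
    have := congrFun (congrFun h 1) 1
    rw [Matrix.mul_apply, Matrix.smul_apply, Matrix.mul_apply, Fin.sum_univ_two,
      Fin.sum_univ_two] at this
    simp at this
    linear_combination this
  by_cases hε : ε = 1
  · rw [hε] at e00 e01 e10 e11
    have hc : N 1 0 = 0 := by linear_combination e11
    exact ⟨hc, by linear_combination e01⟩
  · have hε' : 1 - ε ≠ 0 := fun h0 => hε (by linear_combination -h0)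
    have hc : N 1 0 = 0 := by
      have h3 : (1 - ε) * N 1 0 = 0 := by linear_combination e10
      exact (mul_eq_zero.mp h3).resolve_left hε'
    have ha : N 0 0 = 0 := by
      have h3 : (1 - ε) * N 0 0 = 0 := by linear_combination e00 + ε * hc
      exact (mul_eq_zero.mp h3).resolve_left hε'
    have hd : N 1 1 = 0 := by
      have h3 : (1 - ε) * N 1 1 = 0 := by linear_combination e11 - hc
      exact (mul_eq_zero.mp h3).resolve_left hε'
    exact ⟨hc, by rw [ha, hd]⟩

theorem unip_comm_B (N : Matrix (Fin 2) (Fin 2) F) (hdet : N.det ≠ 0) (hc : N 1 0 = 0)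
    (had : N 0 0 = N 1 1) (ε s s' : F)
    (h : N * !![1, s'; 0, 1] = ε • (!![1, s; 0, 1] * N)) : s' = s := by
  have ha : N 0 0 ≠ 0 := by
    intro h0
    apply hdet
    rw [Matrix.det_fin_two, hc, h0]
    ring
  have e00 : N 0 0 = ε * (N 0 0 + s * N 1 0) := by
    have := congrFun (congrFun h 0) 0
    rw [Matrix.mul_apply, Matrix.smul_apply, Matrix.mul_apply, Fin.sum_univ_two,
      Fin.sum_univ_two] at this
    simp at this
    linear_combination this
  have e01 : N 0 0 * s' + N 0 1 = ε * (N 0 1 + s * N 1 1) := by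
    have := congrFun (congrFun h 0) 1
    rw [Matrix.mul_apply, Matrix.smul_apply, Matrix.mul_apply, Fin.sum_univ_two,
      Fin.sum_univ_two] at this
    simp at this
    linear_combination this
  have hε : ε = 1 := by
    have h3 : (ε - 1) * N 0 0 = 0 := by linear_combination -e00 - ε * s * hc
    rcases mul_eq_zero.mp h3 with h4 | h4
    · linear_combination h4
    · exact absurd h4 ha
  rw [hε] at e01
  have h3 : N 0 0 * (s' - s) = 0 := by linear_combination e01 - s * had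
  rcases mul_eq_zero.mp h3 with h4 | h4
  · exact absurd h4 ha
  · linear_combination h4

theorem lower_comm_A (N : Matrix (Fin 2) (Fin 2) F) (ε : F)
    (h : N * !![1, 0; 1, 1] = ε • (!![1, 0; 1, 1] * N)) : N 0 1 = 0 := by
  have e00 : N 0 0 + N 0 1 = ε * N 0 0 := by
    have := congrFun (congrFun h 0) 0
    rw [Matrix.mul_apply, Matrix.smul_apply, Matrix.mul_apply, Fin.sum_univ_two,
      Fin.sum_univ_two] at this
    simp at this
    linear_combination this
  have e01 : N 0 1 = ε * N 0 1 := by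
    have := congrFun (congrFun h 0) 1
    rw [Matrix.mul_apply, Matrix.smul_apply, Matrix.mul_apply, Fin.sum_univ_two,
      Fin.sum_univ_two] at this
    simp at this
    linear_combination this
  by_cases hε : ε = 1
  · rw [hε] at e00
    linear_combination e00
  · have hε' : 1 - ε ≠ 0 := fun h0 => hε (by linear_combination -h0)
    have h3 : (1 - ε) * N 0 1 = 0 := by linear_combination e01
    exact (mul_eq_zero.mp h3).resolve_left hε'

theorem conj_rel_of_mk_eq (M M' : GL (Fin 2) F) (g g' : Matrix.SpecialLinearGroup (Fin 2) F)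
    (h : (QuotientGroup.mk (conjSL M g) : Matrix.ProjectiveSpecialLinearGroup (Fin 2) F) =
      QuotientGroup.mk (conjSL M' g')) :
    ∃ ε : F, ε * ε = 1 ∧
      ((M⁻¹ : GL (Fin 2) F) : Matrix (Fin 2) (Fin 2) F) * (M' : Matrix (Fin 2) (Fin 2) F) *
          (g' : Matrix (Fin 2) (Fin 2) F) =
        ε • ((g : Matrix (Fin 2) (Fin 2) F) *
          (((M⁻¹ : GL (Fin 2) F) : Matrix (Fin 2) (Fin 2) F) *
            (M' : Matrix (Fin 2) (Fin 2) F))) := by
  obtain ⟨ε, hε, he⟩ := (PSL2_mk_eq_mk_iff _ _).mp h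
  rw [conjSL_val, conjSL_val] at he
  refine ⟨ε, hε, ?_⟩
  calc ((M⁻¹ : GL (Fin 2) F) : Matrix (Fin 2) (Fin 2) F) * (M' : Matrix (Fin 2) (Fin 2) F) *
        (g' : Matrix (Fin 2) (Fin 2) F)
      = ((M⁻¹ : GL (Fin 2) F) : Matrix (Fin 2) (Fin 2) F) *
          ((M' : Matrix (Fin 2) (Fin 2) F) * (g' : Matrix (Fin 2) (Fin 2) F) *
            ((M'⁻¹ : GL (Fin 2) F) : Matrix (Fin 2) (Fin 2) F)) *
          (M' : Matrix (Fin 2) (Fin 2) F) := by
        simp only [Matrix.mul_assoc]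
        rw [M'.inv_mul, Matrix.mul_one]
    _ = ((M⁻¹ : GL (Fin 2) F) : Matrix (Fin 2) (Fin 2) F) *
          (ε • ((M : Matrix (Fin 2) (Fin 2) F) * (g : Matrix (Fin 2) (Fin 2) F) *
            ((M⁻¹ : GL (Fin 2) F) : Matrix (Fin 2) (Fin 2) F))) *
          (M' : Matrix (Fin 2) (Fin 2) F) := by rw [he]
    _ = ε • ((g : Matrix (Fin 2) (Fin 2) F) *
          (((M⁻¹ : GL (Fin 2) F) : Matrix (Fin 2) (Fin 2) F) *
            (M' : Matrix (Fin 2) (Fin 2) F))) := by
        rw [Matrix.mul_smul, Matrix.smul_mul]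
        congr 1
        simp only [Matrix.mul_assoc]
        rw [← Matrix.mul_assoc ((M⁻¹ : GL (Fin 2) F) : Matrix (Fin 2) (Fin 2) F)
          (M : Matrix (Fin 2) (Fin 2) F), M.inv_mul, Matrix.one_mul]

theorem det_inv_mul_ne_zero (M M' : GL (Fin 2) F) :
    (((M⁻¹ : GL (Fin 2) F) : Matrix (Fin 2) (Fin 2) F) *
      (M' : Matrix (Fin 2) (Fin 2) F)).det ≠ 0 := by
  have h := Matrix.isUnits_det_units (M⁻¹ * M')
  rw [Units.val_mul] at h
  exact h.ne_zero

/-- The field automorphism attached to an automorphism of `PSL₂` is unique. -/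
theorem autRel_unique {α : MulAut (Matrix.ProjectiveSpecialLinearGroup (Fin 2) F)}
    {σ τ : F ≃+* F} (h1 : AutRel α σ) (h2 : AutRel α τ) : σ = τ := by
  obtain ⟨M, hM⟩ := h1
  obtain ⟨M', hM'⟩ := h2
  have key : ∀ x : F, ∃ ε : F, ε * ε = 1 ∧
      ((M⁻¹ : GL (Fin 2) F) : Matrix (Fin 2) (Fin 2) F) * (M' : Matrix (Fin 2) (Fin 2) F) *
          !![1, τ x; 0, 1] =
        ε • (!![1, σ x; 0, 1] *
          (((M⁻¹ : GL (Fin 2) F) : Matrix (Fin 2) (Fin 2) F) *
            (M' : Matrix (Fin 2) (Fin 2) F))) := by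
    intro x
    have h := (hM (uS x)).symm.trans (hM' (uS x))
    rw [mapSL_uS, mapSL_uS] at h
    have h3 := conj_rel_of_mk_eq M M' _ _ h
    rw [uS_val, uS_val] at h3
    exact h3
  obtain ⟨ε1, -, hk1⟩ := key 1
  rw [map_one, map_one] at hk1
  obtain ⟨hc, had⟩ := unip_comm_A _ ε1 hk1
  apply RingEquiv.ext
  intro x
  obtain ⟨ε, -, hk⟩ := key x
  exact (unip_comm_B _ (det_inv_mul_ne_zero M M') hc had ε (σ x) (τ x) hk).symm

/-- Conjugation by a matrix of square determinant is inner on `PSL₂`. -/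
theorem autPSL_conjSL_inner_of_sq (M : GL (Fin 2) F) (b : F)
    (hb : (M : Matrix (Fin 2) (Fin 2) F).det = b * b) :
    autPSL (conjSL M) ∈ Cfsg.Inn (Matrix.ProjectiveSpecialLinearGroup (Fin 2) F) := by
  have hdet : (M : Matrix (Fin 2) (Fin 2) F).det ≠ 0 := (Matrix.isUnits_det_units M).ne_zero
  have hb0 : b ≠ 0 := by
    rintro rfl
    rw [mul_zero] at hb
    exact hdet hb
  obtain ⟨h, hh⟩ : ∃ h : Matrix.SpecialLinearGroup (Fin 2) F,
      (h : Matrix (Fin 2) (Fin 2) F) = b⁻¹ • (M : Matrix (Fin 2) (Fin 2) F) := by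
    refine ⟨⟨b⁻¹ • (M : Matrix (Fin 2) (Fin 2) F), ?_⟩, rfl⟩
    rw [Matrix.det_smul, hb, Fintype.card_fin]
    field_simp
  have hM : (M : Matrix (Fin 2) (Fin 2) F) = b • (h : Matrix (Fin 2) (Fin 2) F) := by
    rw [hh, smul_smul, mul_inv_cancel₀ hb0, one_smul]
  refine ⟨QuotientGroup.mk h, ?_⟩
  ext x
  obtain ⟨g, rfl⟩ := QuotientGroup.mk_surjective x
  rw [MulAut.conj_apply, autPSL_mk, ← QuotientGroup.mk_inv, ← QuotientGroup.mk_mul,
    ← QuotientGroup.mk_mul]
  congr 1
  symm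
  apply conjSL_eq_of_mul_eq
  rw [hM, Matrix.mul_smul, Matrix.smul_mul, ← Matrix.SpecialLinearGroup.coe_mul,
    ← Matrix.SpecialLinearGroup.coe_mul, inv_mul_cancel_right]

/-- Conversely, if conjugation by `M` is inner on `PSL₂` then `det M` is a square. -/
theorem sq_of_autPSL_conjSL_inner (M : GL (Fin 2) F)
    (h : autPSL (conjSL M) ∈ Cfsg.Inn (Matrix.ProjectiveSpecialLinearGroup (Fin 2) F)) :
    ∃ b : F, (M : Matrix (Fin 2) (Fin 2) F).det = b * b := by
  obtain ⟨x, hx⟩ := h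
  obtain ⟨k, rfl⟩ := QuotientGroup.mk_surjective x
  have key : ∀ g : Matrix.SpecialLinearGroup (Fin 2) F, ∃ ε : F, ε * ε = 1 ∧
      (((Matrix.SpecialLinearGroup.toGL k)⁻¹ : GL (Fin 2) F) : Matrix (Fin 2) (Fin 2) F) *
          (M : Matrix (Fin 2) (Fin 2) F) * (g : Matrix (Fin 2) (Fin 2) F) =
        ε • ((g : Matrix (Fin 2) (Fin 2) F) *
          ((((Matrix.SpecialLinearGroup.toGL k)⁻¹ : GL (Fin 2) F) : Matrix (Fin 2) (Fin 2) F) *
            (M : Matrix (Fin 2) (Fin 2) F))) := by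
    intro g
    apply conj_rel_of_mk_eq
    have h3 := congrArg (fun a : MulAut (Matrix.ProjectiveSpecialLinearGroup (Fin 2) F) =>
      a (QuotientGroup.mk g)) hx
    simp only [MulAut.conj_apply, autPSL_mk] at h3
    rw [conjSL_toGL, ← h3]
    rfl
  obtain ⟨ε1, -, h1⟩ := key (uS 1)
  obtain ⟨ε2, -, h2⟩ := key (lS 1)
  rw [uS_val] at h1
  rw [lS_val] at h2
  obtain ⟨hc, had⟩ := unip_comm_A _ ε1 h1
  have hb := lower_comm_A _ ε2 h2
  obtain ⟨N, hN⟩ : ∃ N : Matrix (Fin 2) (Fin 2) F,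
      N = (((Matrix.SpecialLinearGroup.toGL k)⁻¹ : GL (Fin 2) F) : Matrix (Fin 2) (Fin 2) F) *
        (M : Matrix (Fin 2) (Fin 2) F) := ⟨_, rfl⟩
  rw [← hN] at hc had hb
  have hNs : N = N 0 0 • (1 : Matrix (Fin 2) (Fin 2) F) := by
    ext i j
    fin_cases i <;> fin_cases j <;> simp [hc, hb, had]
  have hM : (M : Matrix (Fin 2) (Fin 2) F) =
      N 0 0 • (k : Matrix (Fin 2) (Fin 2) F) := by
    have h3 : (M : Matrix (Fin 2) (Fin 2) F) =
        ((Matrix.SpecialLinearGroup.toGL k : GL (Fin 2) F) : Matrix (Fin 2) (Fin 2) F) * N := by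
      rw [hN, ← Matrix.mul_assoc, (Matrix.SpecialLinearGroup.toGL k).mul_inv, Matrix.one_mul]
    rw [h3, hNs]
    simp
  refine ⟨N 0 0, ?_⟩
  rw [hM, Matrix.det_smul, k.det_coe, Fintype.card_fin]
  ring

end aut3

end Cfsg.Agent.Lib.helper12
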