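import Mathlib
import Cfsg.Prelude.Def_KGroupFacts
import Cfsg.Agent.Lib.helper12.PSL2Aut3

set_option autoImplicit false

namespace Cfsg.Agent.Lib.helper12

section aut4a

variable {F : Type*} [Field F]

/-- Conjugation action of `GL₂` on `PSL₂` as a homomorphism. -/
def conjPSLHom : GL (Fin 2) F →* MulAut (Matrix.ProjectiveSpecialLinearGroup (Fin 2) F) where
  toFun M := autPSL (conjSL M)
  map_one' := by
    ext x
    obtain ⟨g, rfl⟩ := QuotientGroup.mk_surjective x
    rw [autPSL_mk]
    congr 1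
    apply Subtype.ext
    rw [conjSL_val]
    simp
  map_mul' M N := by
    ext x
    obtain ⟨g, rfl⟩ := QuotientGroup.mk_surjective x
    rw [MulAut.mul_apply, autPSL_mk, autPSL_mk, autPSL_mk, conjSL_mul]

theorem conjPSLHom_apply (M : GL (Fin 2) F) : conjPSLHom M = autPSL (conjSL M) := rfl

/-- The diagonal matrix `diag(a, 1)`. -/
noncomputable def diagGL2 (a : Fˣ) : GL (Fin 2) F :=
  Matrix.GeneralLinearGroup.mkOfDetNeZero !![(a : F), 0; 0, 1] (by simp [Matrix.det_fin_two])

theorem diagGL2_det (a : Fˣ) :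
    ((diagGL2 a : GL (Fin 2) F) : Matrix (Fin 2) (Fin 2) F).det = a := by
  show (!![(a : F), 0; 0, 1] : Matrix (Fin 2) (Fin 2) F).det = a
  simp [Matrix.det_fin_two]

theorem GL_det_diagGL2 (a : Fˣ) : Matrix.GeneralLinearGroup.det (diagGL2 a) = a :=
  Units.ext (diagGL2_det a)

end aut4a

section aut4

variable {F : Type*} [Field F] [Fintype F]

theorem ringAut_cyclic_card (p f : ℕ) [Fact p.Prime] [CharP F p] (hF : Fintype.card F = p ^ f) :
    IsCyclic (F ≃+* F) ∧ Nat.card (F ≃+* F) = f := by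
  letI : Algebra (ZMod p) F := ZMod.algebra F p
  let e : (F ≃ₐ[ZMod p] F) →* (F ≃+* F) :=
    { toFun := fun a => a.toRingEquiv
      map_one' := rfl
      map_mul' := fun a b => rfl }
  have hsurj : Function.Surjective e := by
    intro σ
    refine ⟨AlgEquiv.ofRingEquiv (f := σ) (fun r => ?_), ?_⟩
    · exact RingHom.congr_fun (Subsingleton.elim
        ((σ : F →+* F).comp (algebraMap (ZMod p) F)) (algebraMap (ZMod p) F)) r
    · ext x
      rfl
  have hinj : Function.Injective e := by
    intro a b h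
    ext x
    exact RingEquiv.congr_fun h x
  refine ⟨isCyclic_of_surjective e hsurj, ?_⟩
  rw [← Nat.card_congr (Equiv.ofBijective e ⟨hinj, hsurj⟩), IsGalois.card_aut_eq_finrank]
  have h1 := Module.card_eq_pow_finrank (K := ZMod p) (V := F)
  rw [ZMod.card, hF] at h1
  exact (Nat.pow_right_injective (Fact.out : p.Prime).two_le h1).symm

/-- The outer automorphism group of `PSL₂(q)`. -/
theorem PSL2_out_structure (p f : ℕ) [Fact p.Prime] (hf : 1 ≤ f)
    (hF : Fintype.card F = p ^ f) :
    ∃ φ : Cfsg.Out (Matrix.ProjectiveSpecialLinearGroup (Fin 2) F) →* Multiplicative (ZMod f),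
      Function.Surjective φ ∧ IsCyclic φ.ker ∧ Nat.card φ.ker = Nat.gcd 2 (p ^ f - 1) := by
  classical
  have hp : p.Prime := Fact.out
  have hcharp : CharP F p := by
    obtain ⟨p', hp'⟩ := CharP.exists F
    haveI := hp'
    obtain ⟨n, hp'prime, hn⟩ := FiniteField.card F p'
    have h3 : p = p' := by
      have h1 : p ∣ p' ^ (n : ℕ) := by
        rw [← hn, hF]
        exact dvd_pow_self p (by omega)
      exact (Nat.prime_dvd_prime_iff_eq hp hp'prime).mp (hp.dvd_of_dvd_pow h1)
    rw [h3]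
    exact hp'
  obtain ⟨hcyc, hcard⟩ := ringAut_cyclic_card (F := F) p f hF
  subst hcard
  obtain ⟨e, -⟩ : ∃ e : (F ≃+* F) ≃* Multiplicative (ZMod (Nat.card (F ≃+* F))), True :=
    ⟨(zmodCyclicMulEquiv hcyc).symm, trivial⟩
  have hT : ∀ α : MulAut (Matrix.ProjectiveSpecialLinearGroup (Fin 2) F),
      ∃ σ : F ≃+* F, AutRel α σ := exists_autRel p
  choose sg hsg using hT
  have hsgu : ∀ (α : MulAut (Matrix.ProjectiveSpecialLinearGroup (Fin 2) F)) (σ : F ≃+* F),
      AutRel α σ → sg α = σ := fun α σ h => autRel_unique (hsg α) h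
  have hone : AutRel (1 : MulAut (Matrix.ProjectiveSpecialLinearGroup (Fin 2) F))
      (1 : F ≃+* F) := by
    have h := autRel_conj (F := F) 1
    rwa [QuotientGroup.mk_one, map_one] at h
  obtain ⟨φ₀, hφ₀⟩ : ∃ φ₀ : MulAut (Matrix.ProjectiveSpecialLinearGroup (Fin 2) F) →*
      Multiplicative (ZMod (Nat.card (F ≃+* F))), ∀ α, φ₀ α = e (sg α) :=
    ⟨{ toFun := fun α => e (sg α)
       map_one' := by rw [hsgu 1 1 hone, map_one]
       map_mul' := fun α β => by
        rw [hsgu (α * β) (sg α * sg β) (autRel_mul (hsg α) (hsg β)), map_mul] },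
      fun α => rfl⟩
  have hInn : Cfsg.Inn (Matrix.ProjectiveSpecialLinearGroup (Fin 2) F) ≤ φ₀.ker := by
    rintro _ ⟨x, rfl⟩
    obtain ⟨k, rfl⟩ := QuotientGroup.mk_surjective x
    rw [MonoidHom.mem_ker, hφ₀, hsgu _ 1 (autRel_conj k), map_one]
  refine ⟨QuotientGroup.lift (Cfsg.Inn (Matrix.ProjectiveSpecialLinearGroup (Fin 2) F)) φ₀ hInn,
    ?_, ?_⟩
  · intro z
    refine ⟨QuotientGroup.mk (autPSL (mapSL (e.symm z))), ?_⟩
    rw [QuotientGroup.lift_mk, hφ₀, hsgu _ _ (autRel_mapSL (e.symm z)), MulEquiv.apply_symm_apply]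
  · obtain ⟨ζ, hζ⟩ := IsCyclic.exists_generator (α := Fˣ)
    have hδ2 : conjPSLHom (diagGL2 ζ ^ 2) ∈
        Cfsg.Inn (Matrix.ProjectiveSpecialLinearGroup (Fin 2) F) := by
      apply autPSL_conjSL_inner_of_sq (diagGL2 ζ ^ 2) (ζ : F)
      have h1 : Matrix.GeneralLinearGroup.det (diagGL2 ζ ^ 2) = ζ ^ 2 := by
        rw [map_pow, GL_det_diagGL2]
      have h2 := congrArg (fun u : Fˣ => (u : F)) h1
      simp only [Matrix.GeneralLinearGroup.val_det_apply] at h2
      rw [h2]
      push_cast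
      ring
    have hK : (QuotientGroup.lift (Cfsg.Inn (Matrix.ProjectiveSpecialLinearGroup (Fin 2) F))
        φ₀ hInn).ker = Subgroup.zpowers (QuotientGroup.mk (conjPSLHom (diagGL2 ζ)) :
          Cfsg.Out (Matrix.ProjectiveSpecialLinearGroup (Fin 2) F)) := by
      apply le_antisymm
      · intro y hy
        obtain ⟨α, rfl⟩ := QuotientGroup.mk_surjective y
        rw [MonoidHom.mem_ker, QuotientGroup.lift_mk, hφ₀, MulEquiv.map_eq_one_iff] at hy
        have hα := hsg α
        rw [hy] at hα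
        obtain ⟨M, rfl⟩ := (autRel_one_iff α).mp hα
        obtain ⟨k, hk⟩ := Subgroup.mem_zpowers_iff.mp (hζ (Matrix.GeneralLinearGroup.det M))
        have hM' : conjPSLHom ((diagGL2 ζ ^ k)⁻¹ * M) ∈
            Cfsg.Inn (Matrix.ProjectiveSpecialLinearGroup (Fin 2) F) := by
          apply autPSL_conjSL_inner_of_sq _ 1
          have h1 : Matrix.GeneralLinearGroup.det ((diagGL2 ζ ^ k)⁻¹ * M) = 1 := by
            rw [map_mul, map_inv, map_zpow, GL_det_diagGL2, hk, inv_mul_cancel]
          have h2 := congrArg (fun u : Fˣ => (u : F)) h1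
          simp only [Matrix.GeneralLinearGroup.val_det_apply] at h2
          rw [h2]
          simp
        have hsplit : autPSL (conjSL M) =
            conjPSLHom (diagGL2 ζ) ^ k * conjPSLHom ((diagGL2 ζ ^ k)⁻¹ * M) := by
          rw [← conjPSLHom_apply, ← map_zpow, ← map_mul, mul_inv_cancel_left]
        rw [hsplit, QuotientGroup.mk_mul, (QuotientGroup.eq_one_iff _).mpr hM', mul_one,
          QuotientGroup.mk_zpow]
        exact Subgroup.zpow_mem_zpowers _ k
      · rw [Subgroup.zpowers_le, MonoidHom.mem_ker, QuotientGroup.lift_mk, hφ₀,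
          conjPSLHom_apply, hsgu _ 1 (autRel_conjSL (diagGL2 ζ)), map_one]
    rw [hK]
    refine ⟨inferInstance, ?_⟩
    rw [Nat.card_zpowers]
    have hpow2 : (QuotientGroup.mk (conjPSLHom (diagGL2 ζ)) :
        Cfsg.Out (Matrix.ProjectiveSpecialLinearGroup (Fin 2) F)) ^ 2 = 1 := by
      rw [← QuotientGroup.mk_pow, ← map_pow]
      exact (QuotientGroup.eq_one_iff _).mpr hδ2
    have hq2 : 2 ≤ p ^ Nat.card (F ≃+* F) := by
      calc 2 ≤ p := hp.two_le
        _ = p ^ 1 := (pow_one p).symm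
        _ ≤ p ^ Nat.card (F ≃+* F) := Nat.pow_le_pow_right hp.pos hf
    rcases hp.eq_two_or_odd with h2 | hodd
    · -- characteristic two
      have hchar : ringChar F = 2 := by
        rw [← h2]
        exact ringChar.eq F p
      obtain ⟨r, hr⟩ := FiniteField.isSquare_of_char_two hchar (ζ : F)
      have hin : conjPSLHom (diagGL2 ζ) ∈
          Cfsg.Inn (Matrix.ProjectiveSpecialLinearGroup (Fin 2) F) := by
        apply autPSL_conjSL_inner_of_sq _ r
        rw [diagGL2_det, hr]
      rw [(QuotientGroup.eq_one_iff _).mpr hin, orderOf_one]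
      have hoddq : (p ^ Nat.card (F ≃+* F) - 1) % 2 = 1 := by
        have h3 : 2 ∣ p ^ Nat.card (F ≃+* F) := by
          rw [h2]
          exact dvd_pow_self 2 (by omega)
        omega
      have h4 : Nat.gcd 2 (p ^ Nat.card (F ≃+* F) - 1) ∣ 2 := Nat.gcd_dvd_left _ _
      have h5 : Nat.gcd 2 (p ^ Nat.card (F ≃+* F) - 1) ∣ p ^ Nat.card (F ≃+* F) - 1 :=
        Nat.gcd_dvd_right _ _
      rcases (Nat.dvd_prime Nat.prime_two).mp h4 with h6 | h6
      · exact h6.symm
      · rw [h6] at h5
        omega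
    · -- odd characteristic
      have hqodd : p ^ Nat.card (F ≃+* F) % 2 = 1 := by
        rw [Nat.pow_mod, hodd]
        simp
      have hne : (QuotientGroup.mk (conjPSLHom (diagGL2 ζ)) :
          Cfsg.Out (Matrix.ProjectiveSpecialLinearGroup (Fin 2) F)) ≠ 1 := by
        intro h1
        obtain ⟨b, hb⟩ := sq_of_autPSL_conjSL_inner (diagGL2 ζ)
          ((QuotientGroup.eq_one_iff _).mp h1)
        rw [diagGL2_det] at hb
        have hb0 : b ≠ 0 := by
          rintro rfl
          rw [mul_zero] at hb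
          exact ζ.ne_zero hb
        have hζb : ζ = Units.mk0 b hb0 ^ 2 := by
          apply Units.ext
          rw [hb, Units.val_pow_eq_pow_val, Units.val_mk0, pow_two]
        have hordζ : orderOf ζ = p ^ Nat.card (F ≃+* F) - 1 := by
          rw [orderOf_eq_card_of_forall_mem_zpowers hζ, Nat.card_units, Nat.card_eq_fintype_card,
            hF]
        have h3 : ζ ^ ((p ^ Nat.card (F ≃+* F) - 1) / 2) = 1 := by
          rw [hζb, ← pow_mul, Nat.mul_div_cancel' (by omega)]
          have h4 : Fintype.card Fˣ = p ^ Nat.card (F ≃+* F) - 1 := by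
            rw [Fintype.card_units, hF]
          rw [← h4]
          exact pow_card_eq_one
        have h5 := orderOf_dvd_of_pow_eq_one h3
        rw [hordζ] at h5
        have h6 := Nat.le_of_dvd (by omega) h5
        omega
      rw [orderOf_eq_prime hpow2 hne]
      have h4 : 2 ∣ p ^ Nat.card (F ≃+* F) - 1 := by omega
      exact (Nat.gcd_eq_left h4).symm

end aut4

end Cfsg.Agent.Lib.helper12
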