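import Mathlib
import Cfsg.Agent.Lib.helper12.PSL2Prod
import Cfsg.Agent.Lib.helper12.PSL2Spec

set_option autoImplicit false

namespace Cfsg.Agent.Lib.helper12

open scoped MatrixGroups

section qpair

variable {F : Type*} [Field F]

/-- Two `2 × 2` matrices satisfying the quaternion relations. -/
structure QPair (A B : Matrix (Fin 2) (Fin 2) F) : Prop where
  sqA : A * A = -1
  sqB : B * B = -1
  anti : B * A = -(A * B)

theorem QPair.symm {A B : Matrix (Fin 2) (Fin 2) F} (h : QPair A B) : QPair B A :=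
  ⟨h.sqB, h.sqA, by rw [h.anti, neg_neg]⟩

theorem QPair.aba {A B : Matrix (Fin 2) (Fin 2) F} (h : QPair A B) : A * (B * A) = B := by
  rw [h.anti, mul_neg, ← mul_assoc, h.sqA, neg_mul, one_mul, neg_neg]

theorem QPair.aab {A B : Matrix (Fin 2) (Fin 2) F} (h : QPair A B) : A * (A * B) = -B := by
  rw [← mul_assoc, h.sqA, neg_mul, one_mul]

theorem QPair.abb {A B : Matrix (Fin 2) (Fin 2) F} (h : QPair A B) : A * (B * B) = -A := by
  rw [h.sqB, mul_neg, mul_one]

theorem QPair.bab {A B : Matrix (Fin 2) (Fin 2) F} (h : QPair A B) : B * (A * B) = A := by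
  rw [← mul_assoc, h.anti, neg_mul, mul_assoc, h.sqB, mul_neg, mul_one, neg_neg]

theorem QPair.abab {A B : Matrix (Fin 2) (Fin 2) F} (h : QPair A B) :
    A * (B * (A * B)) = -1 := by
  rw [h.bab, h.sqA]

theorem QPair.ab_ne_zero {A B : Matrix (Fin 2) (Fin 2) F} (h : QPair A B) : A * B ≠ 0 := by
  intro h0
  have h1 := h.abab
  rw [h0, mul_zero, mul_zero] at h1
  have h2 := congrFun (congrFun h1 0) 0
  simp at h2

theorem QPair.not_scalar {A B : Matrix (Fin 2) (Fin 2) F} (h2 : (2 : F) ≠ 0) (h : QPair A B) :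
    ¬ ∃ c : F, A = c • (1 : Matrix (Fin 2) (Fin 2) F) := by
  rintro ⟨c, hc⟩
  have h1 := h.anti
  rw [hc, Matrix.mul_smul, Matrix.smul_mul, Matrix.mul_one, Matrix.one_mul] at h1
  have h3 : (2 * c) • B = 0 := by
    rw [mul_smul, two_smul]
    nth_rewrite 1 [h1]
    rw [neg_add_cancel]
  rcases smul_eq_zero.1 h3 with h4 | h4
  · have hc0 : c = 0 := (mul_eq_zero.1 h4).resolve_left h2
    have h5 := h.sqA
    rw [hc, hc0, zero_smul, mul_zero] at h5
    have h6 := congrFun (congrFun h5 0) 0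
    simp at h6
  · have h5 := h.sqB
    rw [h4, mul_zero] at h5
    have h6 := congrFun (congrFun h5 0) 0
    simp at h6

theorem QPair.trace_det {A B : Matrix (Fin 2) (Fin 2) F} (h2 : (2 : F) ≠ 0) (h : QPair A B) :
    A.trace = 0 ∧ A.det = 1 := by
  have hch := sq_eq_trace_smul_sub A
  rw [h.sqA] at hch
  have ht : A.trace = 0 := by
    by_contra ht
    apply h.not_scalar h2
    refine ⟨(A.det - 1) / A.trace, ?_⟩
    have h3 : A.trace • A = (A.det - 1) • (1 : Matrix (Fin 2) (Fin 2) F) := by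
      rw [sub_smul, one_smul]
      have h4 := sub_eq_iff_eq_add.1 hch.symm
      rw [h4]
      abel
    rw [div_eq_inv_mul, mul_smul, ← h3, smul_smul, inv_mul_cancel₀ ht, one_smul]
  refine ⟨ht, ?_⟩
  rw [ht, zero_smul, zero_sub] at hch
  have h3 := congrFun (congrFun hch 0) 0
  simp at h3
  exact h3.symm

theorem QPair.mul {A B : Matrix (Fin 2) (Fin 2) F} (h : QPair A B) : QPair A (A * B) := by
  refine ⟨h.sqA, ?_, ?_⟩
  · rw [mul_assoc, h.abab]
  · rw [mul_assoc, h.aba, h.aab, neg_neg]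

theorem traceless_anticomm (A B : Matrix (Fin 2) (Fin 2) F) (hA : A.trace = 0)
    (hB : B.trace = 0) :
    A * B + B * A = (A * B).trace • (1 : Matrix (Fin 2) (Fin 2) F) := by
  rw [Matrix.trace_fin_two] at hA hB
  have hA' : A 1 1 = -A 0 0 := by linear_combination hA
  have hB' : B 1 1 = -B 0 0 := by linear_combination hB
  ext i j
  fin_cases i <;> fin_cases j <;>
    simp [Matrix.mul_apply, Fin.sum_univ_two, Matrix.trace_fin_two, hA', hB'] <;> ring

/-- A matrix commuting with both members of a quaternion pair is scalar. -/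
theorem QPair.comm_scalar {A B : Matrix (Fin 2) (Fin 2) F} (h2 : (2 : F) ≠ 0) (h : QPair A B)
    (g : Matrix (Fin 2) (Fin 2) F) (hA : g * A = A * g) (hB : g * B = B * g) :
    ∃ c : F, g = c • (1 : Matrix (Fin 2) (Fin 2) F) := by
  obtain ⟨g', hg'⟩ : ∃ g' : Matrix (Fin 2) (Fin 2) F,
      g' = g - (g.trace / 2) • (1 : Matrix (Fin 2) (Fin 2) F) := ⟨_, rfl⟩
  have htr : g'.trace = 0 := by
    rw [hg', Matrix.trace_sub, Matrix.trace_smul, Matrix.trace_one, Fintype.card_fin, smul_eq_mul]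
    push_cast
    field_simp
    ring
  have hA' : g' * A = A * g' := by
    rw [hg', sub_mul, mul_sub, hA, Matrix.smul_mul, Matrix.mul_smul, Matrix.one_mul,
      Matrix.mul_one]
  have hB' : g' * B = B * g' := by
    rw [hg', sub_mul, mul_sub, hB, Matrix.smul_mul, Matrix.mul_smul, Matrix.one_mul,
      Matrix.mul_one]
  have h3 := traceless_anticomm g' A htr (h.trace_det h2).1
  rw [← hA', ← two_smul F (g' * A)] at h3
  -- g' * A is scalar
  have h4 : g' * A = ((g' * A).trace / 2) • (1 : Matrix (Fin 2) (Fin 2) F) := by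
    rw [div_eq_inv_mul, mul_smul, ← h3, smul_smul, inv_mul_cancel₀ h2, one_smul]
  obtain ⟨s, hs⟩ : ∃ s : F, s = (g' * A).trace / 2 := ⟨_, rfl⟩
  rw [← hs] at h4
  have h5 : g' = (-s) • A := by
    have h6 : g' * A * A = s • A := by rw [h4, Matrix.smul_mul, Matrix.one_mul]
    rw [mul_assoc, h.sqA, mul_neg, mul_one] at h6
    rw [neg_smul, ← h6, neg_neg]
  have h7 : (2 * -s) • (A * B) = 0 := by
    have h8 := hB'
    rw [h5, Matrix.smul_mul, Matrix.mul_smul, h.anti, smul_neg] at h8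
    rw [mul_smul, two_smul]
    nth_rewrite 2 [h8]
    rw [add_neg_cancel]
  rcases smul_eq_zero.1 h7 with h9 | h9
  · have hs0 : -s = 0 := (mul_eq_zero.1 h9).resolve_left h2
    rw [hs0, zero_smul] at h5
    refine ⟨g.trace / 2, ?_⟩
    have h10 : g - (g.trace / 2) • (1 : Matrix (Fin 2) (Fin 2) F) = 0 := by rw [← hg', h5]
    exact sub_eq_zero.1 h10
  · exact absurd h9 h.ab_ne_zero

/-- The Hurwitz unit of a quaternion pair. -/
noncomputable def omegaMat (A B : Matrix (Fin 2) (Fin 2) F) : Matrix (Fin 2) (Fin 2) F :=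
  (2⁻¹ : F) • (-1 + A + B + A * B)

theorem QPair.omega_mulA {A B : Matrix (Fin 2) (Fin 2) F} (h : QPair A B) :
    omegaMat A B * A = (A * B) * omegaMat A B := by
  rw [omegaMat, Matrix.smul_mul, Matrix.mul_smul]
  congr 1
  simp only [add_mul, mul_add, neg_mul, mul_neg, one_mul, mul_one, mul_assoc, h.sqA, h.aba,
    h.abb, h.abab, h.anti]
  abel

theorem QPair.omega_mulB {A B : Matrix (Fin 2) (Fin 2) F} (h : QPair A B) :
    omegaMat A B * B = A * omegaMat A B := by
  rw [omegaMat, Matrix.smul_mul, Matrix.mul_smul]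
  congr 1
  simp only [add_mul, mul_add, neg_mul, mul_neg, one_mul, mul_one, mul_assoc, h.sqA, h.sqB,
    h.abb, h.aab]
  abel

theorem QPair.omega_trace {A B : Matrix (Fin 2) (Fin 2) F} (h2 : (2 : F) ≠ 0) (h : QPair A B) :
    (omegaMat A B).trace = -1 := by
  rw [omegaMat, Matrix.trace_smul, Matrix.trace_add, Matrix.trace_add, Matrix.trace_add,
    Matrix.trace_neg, Matrix.trace_one, (h.trace_det h2).1, (h.symm.trace_det h2).1,
    (h.mul.symm.trace_det h2).1, Fintype.card_fin, smul_eq_mul]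
  push_cast
  field_simp
  ring

theorem QPair.omega_sq {A B : Matrix (Fin 2) (Fin 2) F} (h2 : (2 : F) ≠ 0) (h : QPair A B) :
    omegaMat A B * omegaMat A B = -omegaMat A B - 1 := by
  obtain ⟨M, hM⟩ : ∃ M : Matrix (Fin 2) (Fin 2) F, M = -1 + A + B + A * B := ⟨_, rfl⟩
  have e : M * M = -(M + M) - (1 + 1 + 1 + 1) := by
    rw [hM]
    simp only [add_mul, mul_add, neg_mul, mul_neg, one_mul, mul_one, mul_assoc, h.sqA, h.sqB,
      h.aba, h.abb, h.abab, h.anti, h.aab, h.bab, neg_neg]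
    abel
  have hc : (2⁻¹ : F) * 2 = 1 := inv_mul_cancel₀ h2
  have e1 : (2⁻¹ : F) • (M + M) = M := by rw [← two_smul F M, smul_smul, hc, one_smul]
  have e2 : (2⁻¹ : F) • (2⁻¹ : F) • ((1 : Matrix (Fin 2) (Fin 2) F) + 1 + 1 + 1) = 1 := by
    have e3 : (1 : Matrix (Fin 2) (Fin 2) F) + 1 + 1 + 1 =
        (2 : F) • ((2 : F) • (1 : Matrix (Fin 2) (Fin 2) F)) := by
      rw [two_smul, two_smul]
      abel
    rw [e3, smul_smul (2⁻¹ : F) 2, hc, one_smul, smul_smul, hc, one_smul]
  rw [omegaMat, ← hM, Matrix.smul_mul, Matrix.mul_smul, e, smul_sub, smul_sub, smul_neg,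
    smul_neg, e1, e2]

theorem QPair.omega_det {A B : Matrix (Fin 2) (Fin 2) F} (h2 : (2 : F) ≠ 0) (h : QPair A B) :
    (omegaMat A B).det = 1 := by
  have hch := sq_eq_trace_smul_sub (omegaMat A B)
  rw [h.omega_sq h2, h.omega_trace h2, neg_smul, one_smul] at hch
  have h3 := congrFun (congrFun hch 0) 0
  simp only [Matrix.sub_apply, Matrix.neg_apply, Matrix.one_apply_eq, Matrix.smul_apply,
    smul_eq_mul, mul_one] at h3
  linear_combination h3

end qpair

section q8grp

variable {F : Type*} [Field F]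

theorem quat2_rel :
    (QuaternionGroup.a 1 : QuaternionGroup 2) * QuaternionGroup.a 1 =
      QuaternionGroup.xa 0 * QuaternionGroup.xa 0 ∧
    ((QuaternionGroup.a 1 : QuaternionGroup 2) * QuaternionGroup.xa 0) *
      (QuaternionGroup.a 1 * QuaternionGroup.xa 0) = QuaternionGroup.a 1 * QuaternionGroup.a 1 ∧
    ((QuaternionGroup.a 1 : QuaternionGroup 2) * QuaternionGroup.a 1) *
      (QuaternionGroup.a 1 * QuaternionGroup.a 1) = 1 ∧
    (QuaternionGroup.a 1 : QuaternionGroup 2) * QuaternionGroup.a 1 ≠ 1 ∧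
    (QuaternionGroup.xa 0 : QuaternionGroup 2) * QuaternionGroup.a 1 =
      (QuaternionGroup.a 1 * QuaternionGroup.a 1) * (QuaternionGroup.a 1 * QuaternionGroup.xa 0) := by
  decide

theorem quat2_gen (q : QuaternionGroup 2) :
    q ∈ Subgroup.closure ({QuaternionGroup.a 1, QuaternionGroup.xa 0} :
      Set (QuaternionGroup 2)) := by
  have ha : (QuaternionGroup.a 1 : QuaternionGroup 2) ∈
      Subgroup.closure ({QuaternionGroup.a 1, QuaternionGroup.xa 0} :
        Set (QuaternionGroup 2)) := Subgroup.subset_closure (by simp)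
  have hx : (QuaternionGroup.xa 0 : QuaternionGroup 2) ∈
      Subgroup.closure ({QuaternionGroup.a 1, QuaternionGroup.xa 0} :
        Set (QuaternionGroup 2)) := Subgroup.subset_closure (by simp)
  have key : ∀ i : ZMod (2 * 2), (QuaternionGroup.a i : QuaternionGroup 2) ∈
      Subgroup.closure ({QuaternionGroup.a 1, QuaternionGroup.xa 0} :
        Set (QuaternionGroup 2)) := by
    intro i
    have e : (QuaternionGroup.a i : QuaternionGroup 2) =
        (QuaternionGroup.a 1) ^ (ZMod.val i) := by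
      rw [QuaternionGroup.a_one_pow, ZMod.natCast_zmod_val]
    rw [e]
    exact pow_mem ha _
  cases q with
  | a i => exact key i
  | xa i =>
    have e : (QuaternionGroup.xa i : QuaternionGroup 2) =
        QuaternionGroup.xa 0 * QuaternionGroup.a i := by
      rw [QuaternionGroup.xa_mul_a, zero_add]
    rw [e]
    exact mul_mem hx (key i)

theorem q8_exists_pair (h2 : (2 : F) ≠ 0) (R : Subgroup (GL (Fin 2) F))
    (f : R ≃* QuaternionGroup 2) :
    ∃ I J : GL (Fin 2) F, I ∈ R ∧ J ∈ R ∧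
      QPair (I : Matrix (Fin 2) (Fin 2) F) (J : Matrix (Fin 2) (Fin 2) F) ∧
      R ≤ Subgroup.closure {I, J} := by
  obtain ⟨r1, r2, r3, r4, r5⟩ := quat2_rel
  obtain ⟨Iu, hIu⟩ : ∃ Iu : R, Iu = f.symm (QuaternionGroup.a 1) := ⟨_, rfl⟩
  obtain ⟨Ju, hJu⟩ : ∃ Ju : R, Ju = f.symm (QuaternionGroup.xa 0) := ⟨_, rfl⟩
  have g1 : Iu * Iu = Ju * Ju := by rw [hIu, hJu, ← map_mul, ← map_mul, r1]
  have g2 : (Iu * Ju) * (Iu * Ju) = Iu * Iu := by
    rw [hIu, hJu, ← map_mul, ← map_mul, ← map_mul, r2]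
  have g3 : (Iu * Iu) * (Iu * Iu) = 1 := by rw [hIu, ← map_mul, ← map_mul, r3, map_one]
  have g4 : Iu * Iu ≠ 1 := by
    rw [hIu, ← map_mul]
    intro h
    apply r4
    have h5 := congrArg f h
    simpa using h5
  have g5 : Ju * Iu = (Iu * Iu) * (Iu * Ju) := by
    rw [hIu, hJu, ← map_mul, ← map_mul, ← map_mul, ← map_mul, r5]
  obtain ⟨I, hI⟩ : ∃ I : GL (Fin 2) F, I = (Iu : GL (Fin 2) F) := ⟨_, rfl⟩
  obtain ⟨J, hJ⟩ : ∃ J : GL (Fin 2) F, J = (Ju : GL (Fin 2) F) := ⟨_, rfl⟩
  have G1 : I * I = J * J := by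
    rw [hI, hJ]
    exact congrArg (fun q : R => (q : GL (Fin 2) F)) g1
  have G2 : (I * J) * (I * J) = I * I := by
    rw [hI, hJ]
    exact congrArg (fun q : R => (q : GL (Fin 2) F)) g2
  have G3 : (I * I) * (I * I) = 1 := by
    rw [hI]
    exact congrArg (fun q : R => (q : GL (Fin 2) F)) g3
  have G4 : I * I ≠ 1 := by
    rw [hI]
    intro h
    apply g4
    exact Subtype.ext h
  have G5 : J * I = (I * I) * (I * J) := by
    rw [hI, hJ]
    exact congrArg (fun q : R => (q : GL (Fin 2) F)) g5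
  obtain ⟨A, hA⟩ : ∃ A : Matrix (Fin 2) (Fin 2) F, A = (I : Matrix (Fin 2) (Fin 2) F) :=
    ⟨_, rfl⟩
  obtain ⟨B, hB⟩ : ∃ B : Matrix (Fin 2) (Fin 2) F, B = (J : Matrix (Fin 2) (Fin 2) F) :=
    ⟨_, rfl⟩
  have M1 : A * A = B * B := by
    rw [hA, hB]
    exact congrArg (fun q : GL (Fin 2) F => (q : Matrix (Fin 2) (Fin 2) F)) G1
  have M2 : (A * B) * (A * B) = A * A := by
    rw [hA, hB]
    exact congrArg (fun q : GL (Fin 2) F => (q : Matrix (Fin 2) (Fin 2) F)) G2
  have M3 : (A * A) * (A * A) = 1 := by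
    rw [hA]
    exact congrArg (fun q : GL (Fin 2) F => (q : Matrix (Fin 2) (Fin 2) F)) G3
  have M4 : A * A ≠ 1 := by
    rw [hA]
    intro h
    apply G4
    exact Units.ext h
  have M5 : B * A = (A * A) * (A * B) := by
    rw [hA, hB]
    exact congrArg (fun q : GL (Fin 2) F => (q : Matrix (Fin 2) (Fin 2) F)) G5
  have d3 := congrArg Matrix.det M3
  rw [Matrix.det_mul, Matrix.det_mul, Matrix.det_one] at d3
  have hdA : A.det ≠ 0 := by
    intro h0
    rw [h0] at d3
    simp at d3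
  have d1 := congrArg Matrix.det M1
  rw [Matrix.det_mul, Matrix.det_mul] at d1
  have d2 := congrArg Matrix.det M2
  rw [Matrix.det_mul, Matrix.det_mul, Matrix.det_mul] at d2
  have hdd : A.det * A.det = 1 := by
    have h5 : A.det * A.det * (A.det * A.det - 1) = 0 := by
      linear_combination d2 + A.det * A.det * d1
    rcases mul_eq_zero.1 h5 with h6 | h6
    · exact absurd h6 (mul_ne_zero hdA hdA)
    · linear_combination h6
  have hsq : A * A = -1 := by
    have hdet : (A * A).det = 1 := by rw [Matrix.det_mul, hdd]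
    obtain ⟨a, ha⟩ := SL2_scalar_of_mul_self_eq_one h2 (⟨A * A, hdet⟩ : SL(2, F))
      (Subtype.ext M3)
    have ha' : A * A = a • (1 : Matrix (Fin 2) (Fin 2) F) := ha
    have haa : a * a = 1 := by
      have h5 := M3
      rw [ha', Matrix.smul_mul, Matrix.mul_smul, Matrix.one_mul, smul_smul] at h5
      have h6 := congrFun (congrFun h5 0) 0
      simpa using h6
    have hane : a ≠ 1 := by
      intro h1
      apply M4
      rw [ha', h1, one_smul]
    have ham : a = -1 := by
      have h5 : (a - 1) * (a + 1) = 0 := by linear_combination haa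
      rcases mul_eq_zero.1 h5 with h6 | h6
      · exact absurd (sub_eq_zero.1 h6) hane
      · linear_combination h6
    rw [ha', ham, neg_smul, one_smul]
  have hQ : QPair A B := by
    refine ⟨hsq, ?_, ?_⟩
    · rw [← M1, hsq]
    · rw [M5, hsq, neg_mul, one_mul]
  refine ⟨I, J, ?_, ?_, ?_, ?_⟩
  · rw [hI]
    exact Iu.2
  · rw [hJ]
    exact Ju.2
  · rw [← hA, ← hB]
    exact hQ
  · intro u hu
    have hq := quat2_gen (f ⟨u, hu⟩)
    have hmap : (Subgroup.closure ({QuaternionGroup.a 1, QuaternionGroup.xa 0} :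
        Set (QuaternionGroup 2))).map (R.subtype.comp f.symm.toMonoidHom) =
        Subgroup.closure {I, J} := by
      rw [MonoidHom.map_closure, Set.image_pair, hI, hJ, hIu, hJu]
      rfl
    rw [← hmap]
    refine ⟨f ⟨u, hu⟩, hq, ?_⟩
    simp

theorem q8_normalizer_mem (R : Subgroup (GL (Fin 2) F)) [Finite R] (I J W : GL (Fin 2) F)
    (hgen : R ≤ Subgroup.closure {I, J}) (h1 : W * I * W⁻¹ ∈ R) (h2 : W * J * W⁻¹ ∈ R) :
    W ∈ Subgroup.normalizer (R : Set (GL (Fin 2) F)) := by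
  haveI : Finite (↥(R : Set (GL (Fin 2) F))) := inferInstanceAs (Finite R)
  apply Subgroup.mem_normalizer_fintype
  intro n hn
  have hT : Subgroup.closure {I, J} ≤ R.comap (MulAut.conj W).toMonoidHom := by
    rw [Subgroup.closure_le]
    intro u hu
    rcases hu with hu | hu
    · rw [hu]
      exact h1
    · have hu' : u = J := hu
      rw [hu']
      exact h2
  exact hT (hgen hn)

theorem mem_ker_det_iff (x : GL (Fin 2) F) :
    x ∈ (Matrix.GeneralLinearGroup.det : GL (Fin 2) F →* Fˣ).ker ↔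
      (x : Matrix (Fin 2) (Fin 2) F).det = 1 := by
  rw [MonoidHom.mem_ker, Units.ext_iff, Matrix.GeneralLinearGroup.val_det_apply, Units.val_one]

end q8grp

section q8main

variable {F : Type*} [Field F]

theorem q8norm_conj [Fintype F] (N : Subgroup (GL (Fin 2) F)) (x W : GL (Fin 2) F)
    (hx : (x : Matrix (Fin 2) (Fin 2) F).det = 1) (hW : (W : Matrix (Fin 2) (Fin 2) F).det = 1)
    (hWN : W ∈ N)
    (htr : (x : Matrix (Fin 2) (Fin 2) F).trace = (W : Matrix (Fin 2) (Fin 2) F).trace)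
    (h4 : (x : Matrix (Fin 2) (Fin 2) F).trace ^ 2 ≠ 4) :
    ∃ g : GL (Fin 2) F, g ∈ (Matrix.GeneralLinearGroup.det : GL (Fin 2) F →* Fˣ).ker ∧
      g⁻¹ * x * g ∈ N := by
  obtain ⟨X, hX⟩ : ∃ X : SL(2, F), X = ⟨(x : Matrix (Fin 2) (Fin 2) F), hx⟩ := ⟨_, rfl⟩
  obtain ⟨Ws, hWs⟩ : ∃ Ws : SL(2, F), Ws = ⟨(W : Matrix (Fin 2) (Fin 2) F), hW⟩ := ⟨_, rfl⟩
  have hXc : (X : Matrix (Fin 2) (Fin 2) F) = (x : Matrix (Fin 2) (Fin 2) F) := by rw [hX]
  have hWc : (Ws : Matrix (Fin 2) (Fin 2) F) = (W : Matrix (Fin 2) (Fin 2) F) := by rw [hWs]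
  have hconj : IsConj X Ws := by
    apply SL2_isConj_of_trace_eq
    · rw [hXc, hWc]
      exact htr
    · rw [hXc]
      exact h4
  obtain ⟨c, hc⟩ := isConj_iff.1 hconj
  have hxG : Matrix.SpecialLinearGroup.toGL X = x := Units.ext hXc
  have hWG : Matrix.SpecialLinearGroup.toGL Ws = W := Units.ext hWc
  refine ⟨Matrix.SpecialLinearGroup.toGL c⁻¹, ?_, ?_⟩
  · rw [mem_ker_det_iff]
    exact (c⁻¹).2
  · have e : (Matrix.SpecialLinearGroup.toGL c⁻¹)⁻¹ * x * Matrix.SpecialLinearGroup.toGL c⁻¹ =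
        W := by
      rw [← hxG, ← hWG, ← hc, map_inv, inv_inv, map_mul, map_mul, map_inv]
    rw [e]
    exact hWN

theorem q8norm_no_big (h2 : (2 : F) ≠ 0) (R : Subgroup (GL (Fin 2) F))
    (f : R ≃* QuaternionGroup 2) (r : ℕ) (hr : r.Prime) (hr5 : 5 ≤ r) (y : GL (Fin 2) F)
    (hy : y ∈ Subgroup.normalizer (R : Set (GL (Fin 2) F))) (hyr : y ^ r = 1) :
    ∃ c : F, (y : Matrix (Fin 2) (Fin 2) F) = c • (1 : Matrix (Fin 2) (Fin 2) F) := by
  haveI : Fact r.Prime := ⟨hr⟩
  obtain ⟨I, J, hI, hJ, hQ, hgen⟩ := q8_exists_pair h2 R f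
  haveI : Finite R := Finite.of_equiv _ f.symm.toEquiv
  have hcard : Nat.card R = 8 := by
    rw [Nat.card_congr f.toEquiv, Nat.card_eq_fintype_card, QuaternionGroup.card]
  obtain ⟨K, hK⟩ : ∃ K : Subgroup (GL (Fin 2) F), K = Subgroup.zpowers y := ⟨_, rfl⟩
  have hyK : y ∈ K := by
    rw [hK]
    exact Subgroup.mem_zpowers y
  have hKN : K ≤ Subgroup.normalizer (R : Set (GL (Fin 2) F)) := by
    rw [hK]
    exact Subgroup.zpowers_le.2 hy
  have hKp : IsPGroup r K := by
    rintro ⟨g, hg⟩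
    have hg' := hg
    rw [hK] at hg'
    obtain ⟨n, rfl⟩ := Subgroup.mem_zpowers_iff.1 hg'
    refine ⟨1, Subtype.ext ?_⟩
    rw [Subgroup.coe_pow, Subgroup.coe_one]
    show (y ^ n) ^ (r ^ 1) = 1
    rw [pow_one, ← zpow_natCast, ← zpow_mul, mul_comm, zpow_mul, zpow_natCast, hyr, one_zpow]
  letI act : MulAction K R :=
    { smul := fun k u => ⟨(k : GL (Fin 2) F) * u * (k : GL (Fin 2) F)⁻¹,
        (Subgroup.mem_normalizer_iff.1 (hKN k.2) u).1 u.2⟩
      one_smul := fun u => Subtype.ext (by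
        show ((1 : K) : GL (Fin 2) F) * u * ((1 : K) : GL (Fin 2) F)⁻¹ = u
        rw [Subgroup.coe_one, one_mul, inv_one, mul_one])
      mul_smul := fun k k' u => Subtype.ext (by
        show ((k * k' : K) : GL (Fin 2) F) * u * ((k * k' : K) : GL (Fin 2) F)⁻¹ =
          (k : GL (Fin 2) F) * ((k' : GL (Fin 2) F) * u * (k' : GL (Fin 2) F)⁻¹) *
            (k : GL (Fin 2) F)⁻¹
        rw [Subgroup.coe_mul, mul_inv_rev]
        simp only [mul_assoc]) }
  have hsmul : ∀ (k : K) (u : R), ((k • u : R) : GL (Fin 2) F) =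
      (k : GL (Fin 2) F) * u * (k : GL (Fin 2) F)⁻¹ := fun k u => rfl
  have hmod := hKp.card_modEq_card_fixedPoints R
  obtain ⟨F₀, hF₀⟩ : ∃ F₀ : Subgroup R, F₀ = (Subgroup.centralizer {y}).subgroupOf R :=
    ⟨_, rfl⟩
  have hfix : MulAction.fixedPoints K R = (F₀ : Set R) := by
    ext u
    rw [MulAction.mem_fixedPoints, SetLike.mem_coe, hF₀, Subgroup.mem_subgroupOf,
      Subgroup.mem_centralizer_singleton_iff]
    constructor
    · intro h
      have h3 := congrArg (fun q : R => (q : GL (Fin 2) F)) (h ⟨y, hyK⟩)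
      have h4 : y * (u : GL (Fin 2) F) * y⁻¹ = u := h3
      rw [mul_inv_eq_iff_eq_mul] at h4
      exact h4.symm
    · intro h k
      obtain ⟨k, hk⟩ := k
      have hk' := hk
      rw [hK] at hk'
      obtain ⟨n, rfl⟩ := Subgroup.mem_zpowers_iff.1 hk'
      apply Subtype.ext
      rw [hsmul]
      show y ^ n * (u : GL (Fin 2) F) * (y ^ n)⁻¹ = u
      have hc : Commute y (u : GL (Fin 2) F) := h.symm
      rw [(hc.zpow_left n).eq, mul_inv_cancel_right]
  have hcF : Nat.card (MulAction.fixedPoints K R) = Nat.card F₀ := by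
    rw [hfix]
    rfl
  rw [hcard, hcF] at hmod
  have hdvd : Nat.card F₀ ∣ 8 := by
    rw [← hcard]
    exact Subgroup.card_subgroup_dvd_card F₀
  have hII : (⟨I * I, R.mul_mem hI hI⟩ : R) ∈ F₀ := by
    rw [hF₀, Subgroup.mem_subgroupOf, Subgroup.mem_centralizer_singleton_iff]
    show I * I * y = y * (I * I)
    apply Units.ext
    rw [Units.val_mul, Units.val_mul, Units.val_mul, Units.val_mul, hQ.sqA, neg_mul, one_mul,
      mul_neg, mul_one]
  have hne1 : Nat.card F₀ ≠ 1 := by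
    intro h1
    have hbot := Subgroup.eq_bot_of_card_eq F₀ h1
    rw [hbot, Subgroup.mem_bot] at hII
    have h3 := congrArg (fun q : R => ((q : GL (Fin 2) F) : Matrix (Fin 2) (Fin 2) F)) hII
    have h4 : (I : Matrix (Fin 2) (Fin 2) F) * (I : Matrix (Fin 2) (Fin 2) F) = 1 := h3
    rw [hQ.sqA] at h4
    have h5 := congrFun (congrFun h4 0) 0
    rw [Matrix.neg_apply, Matrix.one_apply_eq] at h5
    apply h2
    linear_combination (-1 : F) * h5
  have hle : Nat.card F₀ ≤ 8 := Nat.le_of_dvd (by norm_num) hdvd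
  have h8 : Nat.card F₀ = 8 := by
    obtain ⟨c, hc⟩ : ∃ c, c = Nat.card F₀ := ⟨_, rfl⟩
    rw [← hc] at hmod hdvd hne1 hle ⊢
    have hrd : r ∣ 8 - c := (Nat.modEq_iff_dvd' hle).1 hmod.symm
    by_contra hc8
    have hpos : 0 < 8 - c := by omega
    have hr6 : r ≤ 8 - c := Nat.le_of_dvd hpos hrd
    have hc3 : c ≤ 3 := by omega
    interval_cases c
    · exact absurd hdvd (by decide)
    · exact absurd rfl hne1
    · have hr6' : r ≤ 6 := hr6
      interval_cases r
      · exact absurd hrd (by decide)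
      · exact absurd hr (by norm_num)
    · exact absurd hdvd (by decide)
  have htop : F₀ = ⊤ := Subgroup.eq_top_of_card_eq F₀ (by rw [h8, hcard])
  have hIc : (⟨I, hI⟩ : R) ∈ F₀ := by
    rw [htop]
    exact Subgroup.mem_top _
  have hJc : (⟨J, hJ⟩ : R) ∈ F₀ := by
    rw [htop]
    exact Subgroup.mem_top _
  rw [hF₀, Subgroup.mem_subgroupOf, Subgroup.mem_centralizer_singleton_iff] at hIc hJc
  have hIc' : I * y = y * I := hIc
  have hJc' : J * y = y * J := hJc
  refine hQ.comm_scalar h2 (y : Matrix (Fin 2) (Fin 2) F) ?_ ?_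
  · have h5 := congrArg (fun q : GL (Fin 2) F => (q : Matrix (Fin 2) (Fin 2) F)) hIc'
    exact h5.symm
  · have h5 := congrArg (fun q : GL (Fin 2) F => (q : Matrix (Fin 2) (Fin 2) F)) hJc'
    exact h5.symm

theorem q8norm_main [Fintype F] (h2 : (2 : F) ≠ 0) (h3 : (3 : F) ≠ 0)
    (R : Subgroup (GL (Fin 2) F)) (f : R ≃* QuaternionGroup 2) (r : ℕ) (hr : r.Prime)
    (hΩ : r ∣ (Subgroup.normalizer (R : Set (GL (Fin 2) F))).relIndex
      (Matrix.GeneralLinearGroup.det : GL (Fin 2) F →* Fˣ).ker) :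
    (∀ x ∈ (Matrix.GeneralLinearGroup.det : GL (Fin 2) F →* Fˣ).ker,
      (∃ z : F, ((x ^ r : GL (Fin 2) F) : Matrix (Fin 2) (Fin 2) F) =
        z • (1 : Matrix (Fin 2) (Fin 2) F)) →
      (∀ z : F, (x : Matrix (Fin 2) (Fin 2) F) ≠ z • (1 : Matrix (Fin 2) (Fin 2) F)) →
      ∃ g ∈ (Matrix.GeneralLinearGroup.det : GL (Fin 2) F →* Fˣ).ker,
        g⁻¹ * x * g ∈ Subgroup.normalizer (R : Set (GL (Fin 2) F))) ↔ (r = 2 ∨ r = 3) := by
  haveI : Fact r.Prime := ⟨hr⟩
  haveI : Finite R := Finite.of_equiv _ f.symm.toEquiv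
  obtain ⟨I, J, hI, hJ, hQ, hgen⟩ := q8_exists_pair h2 R f
  obtain ⟨S, hS⟩ : ∃ S : Subgroup (GL (Fin 2) F),
      S = (Matrix.GeneralLinearGroup.det : GL (Fin 2) F →* Fˣ).ker := ⟨_, rfl⟩
  obtain ⟨N, hN⟩ : ∃ N : Subgroup (GL (Fin 2) F),
      N = Subgroup.normalizer (R : Set (GL (Fin 2) F)) := ⟨_, rfl⟩
  rw [← hS, ← hN] at hΩ ⊢
  have hRN : R ≤ N := by
    rw [hN]
    exact Subgroup.le_normalizer
  constructor
  · intro H
    by_contra hne
    push_neg at hne
    have hr5 : 5 ≤ r := by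
      have h2le := hr.two_le
      by_contra hlt
      have h4 : r = 4 := by omega
      rw [h4] at hr
      exact absurd hr (by norm_num)
    have hdvd : r ∣ Nat.card S := dvd_trans hΩ (Subgroup.relIndex_dvd_card N S)
    obtain ⟨xs, hxs⟩ := exists_prime_orderOf_dvd_card' (G := S) r hdvd
    obtain ⟨x, hx⟩ : ∃ x : GL (Fin 2) F, x = (xs : GL (Fin 2) F) := ⟨_, rfl⟩
    have hxS : x ∈ S := by
      rw [hx]
      exact xs.2
    have hord : orderOf x = r := by
      rw [hx, Subgroup.orderOf_coe]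
      exact hxs
    have hxr : x ^ r = 1 := by
      rw [← hord]
      exact pow_orderOf_eq_one x
    have hxdet : (x : Matrix (Fin 2) (Fin 2) F).det = 1 := by
      rw [hS] at hxS
      exact (mem_ker_det_iff x).1 hxS
    have hns : ∀ z : F, (x : Matrix (Fin 2) (Fin 2) F) ≠ z • (1 : Matrix (Fin 2) (Fin 2) F) := by
      intro z hz
      have hzz : z * z = 1 := by
        rw [hz, Matrix.det_smul, Matrix.det_one, Fintype.card_fin] at hxdet
        linear_combination hxdet
      have hxx : x ^ 2 = 1 := by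
        apply Units.ext
        rw [pow_two, Units.val_mul, hz, Matrix.smul_mul, Matrix.mul_smul, Matrix.one_mul,
          smul_smul, hzz, one_smul, Units.val_one]
      have h5 : r ∣ 2 := by
        rw [← hord]
        exact orderOf_dvd_of_pow_eq_one hxx
      have h6 := Nat.le_of_dvd (by norm_num) h5
      omega
    obtain ⟨g, hg, hgN⟩ := H x hxS ⟨1, by rw [hxr, Units.val_one, one_smul]⟩ hns
    have hyr : (g⁻¹ * x * g) ^ r = 1 := by
      have e0 : g⁻¹ * x * g = g⁻¹ * x * g⁻¹⁻¹ := by rw [inv_inv]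
      rw [e0, conj_pow, hxr, mul_one, inv_inv, inv_mul_cancel]
    rw [hN] at hgN
    obtain ⟨c, hc⟩ := q8norm_no_big h2 R f r hr hr5 (g⁻¹ * x * g) hgN hyr
    apply hns c
    have e : x = g * (g⁻¹ * x * g) * g⁻¹ := by group
    rw [e, Units.val_mul, Units.val_mul, hc, Matrix.mul_smul, Matrix.smul_mul, Matrix.mul_one,
      ← Units.val_mul, mul_inv_cancel, Units.val_one]
  · intro hr23 x hxS hz hns
    have hxdet : (x : Matrix (Fin 2) (Fin 2) F).det = 1 := by
      rw [hS] at hxS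
      exact (mem_ker_det_iff x).1 hxS
    obtain ⟨z, hz⟩ := hz
    obtain ⟨X, hX⟩ : ∃ X : Matrix (Fin 2) (Fin 2) F, X = (x : Matrix (Fin 2) (Fin 2) F) :=
      ⟨_, rfl⟩
    rw [← hX] at hns hxdet
    have hch := sq_eq_trace_smul_sub X
    rw [hxdet, one_smul] at hch
    obtain ⟨t, ht⟩ : ∃ t : F, t = X.trace := ⟨_, rfl⟩
    rw [← ht] at hch
    have key : ∀ W : GL (Fin 2) F, W ∈ N → (W : Matrix (Fin 2) (Fin 2) F).det = 1 →
        (W : Matrix (Fin 2) (Fin 2) F).trace = t → t ^ 2 ≠ 4 → ∃ g ∈ S, g⁻¹ * x * g ∈ N := by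
      intro W hWN hWd hWt h4
      rw [hS]
      refine q8norm_conj N x W ?_ hWd hWN ?_ ?_
      · rw [← hX]
        exact hxdet
      · rw [← hX, ← ht, hWt]
      · rw [← hX, ← ht]
        exact h4
    rcases hr23 with rfl | rfl
    · -- r = 2
      have hz' : X * X = z • (1 : Matrix (Fin 2) (Fin 2) F) := by
        rw [hX, ← Units.val_mul, ← pow_two]
        exact hz
      have ht0 : t = 0 := by
        by_contra ht0
        apply hns (t⁻¹ * (z + 1))
        have h5 : t • X = (z + 1) • (1 : Matrix (Fin 2) (Fin 2) F) := by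
          rw [add_smul, one_smul, ← hz', hch]
          abel
        rw [mul_smul, ← h5, smul_smul, inv_mul_cancel₀ ht0, one_smul]
      refine key I (hRN hI) (hQ.trace_det h2).2 ?_ ?_
      · rw [(hQ.trace_det h2).1, ht0]
      · rw [ht0]
        intro h
        apply h2
        have h4 : (2 : F) * 2 = 0 := by linear_combination -h
        exact mul_self_eq_zero.1 h4
    · -- r = 3
      have hz' : X * X * X = z • (1 : Matrix (Fin 2) (Fin 2) F) := by
        rw [hX, ← Units.val_mul, ← Units.val_mul, ← pow_three']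
        exact hz
      have ht1 : t ^ 2 = 1 := by
        by_contra ht1
        have ht1' : t ^ 2 - 1 ≠ 0 := fun h => ht1 (sub_eq_zero.1 h)
        apply hns ((t ^ 2 - 1)⁻¹ * (z + t))
        have h5 : (t ^ 2 - 1) • X = (z + t) • (1 : Matrix (Fin 2) (Fin 2) F) := by
          rw [add_smul, ← hz', hch, sub_mul, Matrix.smul_mul, hch, one_mul, smul_sub, sub_smul,
            pow_two, mul_smul, one_smul]
          abel
        rw [mul_smul, ← h5, smul_smul, inv_mul_cancel₀ ht1', one_smul]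
      have h4 : t ^ 2 ≠ 4 := by
        rw [ht1]
        intro h
        apply h3
        linear_combination -h
      obtain ⟨W, hW⟩ : ∃ W : GL (Fin 2) F, W = Matrix.SpecialLinearGroup.toGL
          ⟨omegaMat (I : Matrix (Fin 2) (Fin 2) F) (J : Matrix (Fin 2) (Fin 2) F),
            hQ.omega_det h2⟩ := ⟨_, rfl⟩
      have hWc : (W : Matrix (Fin 2) (Fin 2) F) =
          omegaMat (I : Matrix (Fin 2) (Fin 2) F) (J : Matrix (Fin 2) (Fin 2) F) := by
        rw [hW]
        rfl
      have hWI : W * I = (I * J) * W := by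
        apply Units.ext
        rw [Units.val_mul, Units.val_mul, Units.val_mul, hWc]
        exact hQ.omega_mulA
      have hWJ : W * J = I * W := by
        apply Units.ext
        rw [Units.val_mul, Units.val_mul, hWc]
        exact hQ.omega_mulB
      have hWN : W ∈ N := by
        rw [hN]
        refine q8_normalizer_mem R I J W hgen ?_ ?_
        · rw [hWI, mul_inv_cancel_right]
          exact R.mul_mem hI hJ
        · rw [hWJ, mul_inv_cancel_right]
          exact hI
      have hWd : (W : Matrix (Fin 2) (Fin 2) F).det = 1 := by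
        rw [hWc]
        exact hQ.omega_det h2
      have hWt : (W : Matrix (Fin 2) (Fin 2) F).trace = -1 := by
        rw [hWc]
        exact hQ.omega_trace h2
      have ht2 : (t - 1) * (t + 1) = 0 := by linear_combination ht1
      rcases mul_eq_zero.1 ht2 with h6 | h6
      · have ht' : t = 1 := sub_eq_zero.1 h6
        refine key (I * I * W) (N.mul_mem (hRN (R.mul_mem hI hI)) hWN) ?_ ?_ h4
        · rw [Units.val_mul, Units.val_mul, Matrix.det_mul, Matrix.det_mul,
            (hQ.trace_det h2).2, hWd, one_mul, one_mul]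
        · rw [Units.val_mul, Units.val_mul, hQ.sqA, neg_mul, one_mul, Matrix.trace_neg, hWt,
            neg_neg, ht']
      · have ht' : t = -1 := by linear_combination h6
        refine key W hWN hWd ?_ h4
        rw [hWt, ht']

end q8main

end Cfsg.Agent.Lib.helper12
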