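import Mathlib
import Cfsg.Prelude.Def_Solvable
import Cfsg.Agent.Lib.helper1.Fitting

set_option autoImplicit false

namespace Cfsg.Agent.Lib.helper12.S1451C

/-- Conjugation by a normalising element, as an automorphism of the subgroup. -/
theorem exists_conjAut {G : Type*} [Group G] (S : Subgroup G) (g : G)
    (hg : g ∈ Subgroup.normalizer (S : Set G)) :
    ∃ φ : ↥S ≃* ↥S, ∀ x : ↥S, ((φ x : ↥S) : G) = g * x * g⁻¹ := by
  have hg' : g⁻¹ ∈ Subgroup.normalizer (S : Set G) := Subgroup.inv_mem _ hg
  refine ⟨{ toFun := fun x => ⟨g * x * g⁻¹, (Subgroup.mem_normalizer_iff.mp hg x).mp x.2⟩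
            invFun := fun x => ⟨g⁻¹ * x * g, by
              have h := (Subgroup.mem_normalizer_iff.mp hg' x).mp x.2
              simpa using h⟩
            left_inv := fun x => by apply Subtype.ext; simp [mul_assoc]
            right_inv := fun x => by apply Subtype.ext; simp [mul_assoc]
            map_mul' := fun x y => by apply Subtype.ext; simp [mul_assoc] }, fun x => rfl⟩

/-- (C) of the S1451 split: a characteristic subgroup `T` of a Sylow `q`-subgroup `S` with
`T ≤ S'` is normal in `G`, when `G' ≤ F(G)` and the `p'`-elements of `G'` centralise `O_p(G)`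
for `p ≠ q`. -/
theorem char_le_der_normal {G : Type*} [Group G] [Finite G] (q : ℕ) [Fact q.Prime] (S : Sylow q G)
    (T : Subgroup ↥(S : Subgroup G)) (hT : T.Characteristic)
    (hTS : T.map (S : Subgroup G).subtype ≤ ⁅(S : Subgroup G), (S : Subgroup G)⁆)
    (hK : commutator G ≤ Cfsg.fittingSubgroup G)
    (h : ∀ p : ℕ, p.Prime → p ≠ q → ∀ g ∈ commutator G, (orderOf g).Coprime p →
      g ∈ Subgroup.centralizer ((Cfsg.pCore p G : Subgroup G) : Set G)) :
    (T.map (S : Subgroup G).subtype).Normal := by
  classical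
  have hcrit : ∀ g : G, (∀ x ∈ T.map (S : Subgroup G).subtype,
        g * x * g⁻¹ ∈ T.map (S : Subgroup G).subtype) →
      (∀ x ∈ T.map (S : Subgroup G).subtype, g⁻¹ * x * g ∈ T.map (S : Subgroup G).subtype) →
      g ∈ Subgroup.normalizer ((T.map (S : Subgroup G).subtype : Subgroup G) : Set G) := by
    intro g h1 h2
    rw [Subgroup.mem_normalizer_iff]
    intro x
    constructor
    · exact h1 x
    · intro hx
      have := h2 _ hx
      simpa [mul_assoc] using this
  have hconj : ∀ g ∈ Subgroup.normalizer ((S : Subgroup G) : Set G),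
      ∀ x ∈ T.map (S : Subgroup G).subtype, g * x * g⁻¹ ∈ T.map (S : Subgroup G).subtype := by
    intro g hg x hx
    obtain ⟨t, ht, rfl⟩ := Subgroup.mem_map.mp hx
    obtain ⟨φ, hφ⟩ := exists_conjAut (S : Subgroup G) g hg
    have h1 : T.map φ.toMonoidHom ≤ T := Subgroup.characteristic_iff_map_le.mp hT φ
    have h2 : φ t ∈ T := h1 (Subgroup.mem_map_of_mem _ ht)
    exact Subgroup.mem_map.mpr ⟨φ t, h2, hφ t⟩
  have h1 : Subgroup.normalizer ((S : Subgroup G) : Set G) ≤
      Subgroup.normalizer ((T.map (S : Subgroup G).subtype : Subgroup G) : Set G) := by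
    intro g hg
    apply hcrit g (hconj g hg)
    intro x hx
    have := hconj g⁻¹ (Subgroup.inv_mem _ hg) x hx
    simpa using this
  have hTcomm : T.map (S : Subgroup G).subtype ≤ commutator G := by
    refine hTS.trans ?_
    rw [commutator_def]
    exact Subgroup.commutator_mono le_top le_top
  have hTq : ∀ x ∈ T.map (S : Subgroup G).subtype, ∃ k : ℕ, orderOf x = q ^ k := by
    intro x hx
    obtain ⟨t, ht, rfl⟩ := Subgroup.mem_map.mp hx
    obtain ⟨k, hk⟩ := IsPGroup.iff_orderOf.mp S.isPGroup' t
    exact ⟨k, by rw [← hk]; exact Subgroup.orderOf_coe t⟩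
  have h2 : ∀ p : Nat.Primes, Cfsg.pCore (p : ℕ) G ≤
      Subgroup.normalizer ((T.map (S : Subgroup G).subtype : Subgroup G) : Set G) := by
    intro p
    by_cases hpq : (p : ℕ) = q
    · have hle : Cfsg.pCore (p : ℕ) G ≤ (S : Subgroup G) := by
        rw [hpq]
        haveI := Cfsg.Agent.Lib.helper1.pCore_normal q G
        exact (Cfsg.Agent.Lib.helper1.pCore_isPGroup q G).le_sylow_of_normal S
      exact hle.trans (Subgroup.le_normalizer.trans h1)
    · intro g hg
      have hcomm : ∀ x ∈ T.map (S : Subgroup G).subtype, g * x = x * g := by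
        intro x hx
        obtain ⟨k, hk⟩ := hTq x hx
        have hcop : (orderOf x).Coprime (p : ℕ) := by
          rw [hk]
          exact Nat.Coprime.pow_left k
            ((Nat.coprime_primes (Fact.out : q.Prime) p.2).mpr (fun hh => hpq hh.symm))
        have hx' := h p p.2 hpq x (hTcomm hx) hcop
        rw [Subgroup.mem_centralizer_iff] at hx'
        exact hx' g hg
      apply hcrit g
      · intro x hx
        rw [hcomm x hx, mul_inv_cancel_right]
        exact hx
      · intro x hx
        have h3 : g⁻¹ * x * g = x := by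
          rw [mul_assoc, ← hcomm x hx, inv_mul_cancel_left]
        rw [h3]
        exact hx
  have hF : Cfsg.fittingSubgroup G ≤
      Subgroup.normalizer ((T.map (S : Subgroup G).subtype : Subgroup G) : Set G) := by
    rw [Cfsg.Agent.Lib.helper1.fitting_eq_iSup_pCore]
    exact iSup_le h2
  haveI hSF : ((S : Subgroup G) ⊔ Cfsg.fittingSubgroup G).Normal :=
    Subgroup.Normal.of_commutator_le (G := G) (hK.trans le_sup_right)
  have hfr := Sylow.normalizer_sup_eq_top' S
    (N := (S : Subgroup G) ⊔ Cfsg.fittingSubgroup G) le_sup_left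
  have htop : Subgroup.normalizer ((T.map (S : Subgroup G).subtype : Subgroup G) : Set G) = ⊤ := by
    apply top_le_iff.mp
    rw [← hfr]
    exact sup_le h1 (sup_le (Subgroup.le_normalizer.trans h1) hF)
  exact Subgroup.normalizer_eq_top_iff.mp htop

end Cfsg.Agent.Lib.helper12.S1451C
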