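import Mathlib
import Cfsg.Prelude.Def_Solvable

/-!
Piece (T1w) of the S1454 split: if every `p'`-element of `A'` is trivial then `A' ≤ O_p(A)`
and `O_p(A)` has index prime to `p`.
-/

namespace Cfsg.Agent.Lib.helper12.S1454T1w

open scoped commutatorElement

theorem part_one_wrap {A : Type*} [Group A] [Finite A] (p : ℕ) [Fact p.Prime]
    (h : ∀ g ∈ commutator A, (orderOf g).Coprime p → g = 1) :
    commutator A ≤ Cfsg.pCore p A ∧ ((Cfsg.pCore p A).index).Coprime p := by
  classical
  have hp := (Fact.out : p.Prime)
  -- the commutator subgroup is a p-group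
  have hpg : IsPGroup p (commutator A) := by
    intro g
    have hn : orderOf (g : A) ≠ 0 := (orderOf_pos (g : A)).ne'
    refine ⟨(orderOf (g : A)).factorization p, ?_⟩
    have hmem : (g : A) ^ p ^ (orderOf (g : A)).factorization p ∈ commutator A :=
      (commutator A).pow_mem g.2 _
    have hord : orderOf ((g : A) ^ p ^ (orderOf (g : A)).factorization p) =
        orderOf (g : A) / p ^ (orderOf (g : A)).factorization p := by
      rw [orderOf_pow, Nat.gcd_eq_right (Nat.ordProj_dvd _ _)]
    have hcop : (orderOf ((g : A) ^ p ^ (orderOf (g : A)).factorization p)).Coprime p := by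
      rw [hord]
      exact (Nat.coprime_ordCompl hp hn).symm
    have h1 := h _ hmem hcop
    exact Subtype.ext (by simpa using h1)
  have hle : commutator A ≤ Cfsg.pCore p A :=
    le_sSup ⟨inferInstance, hpg⟩
  refine ⟨hle, ?_⟩
  -- a Sylow p-subgroup contains the commutator subgroup, hence is normal
  obtain ⟨P⟩ : Nonempty (Sylow p A) := inferInstance
  have hcP : commutator A ≤ (P : Subgroup A) := by
    have e1 : IsPGroup p (commutator A ⊔ (P : Subgroup A) : Subgroup A) :=
      hpg.to_sup_of_normal_left P.isPGroup'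
    have e2 := P.is_maximal' e1 le_sup_right
    exact sup_eq_right.mp e2
  have hPn : (P : Subgroup A).Normal := by
    refine ⟨fun x hx g => ?_⟩
    have e1 : ⁅g, x⁆ ∈ commutator A := by
      rw [commutator_def]
      exact Subgroup.commutator_mem_commutator (Subgroup.mem_top g) (Subgroup.mem_top x)
    have e2 : g * x * g⁻¹ = ⁅g, x⁆ * x := by
      rw [commutatorElement_def]; group
    rw [e2]
    exact (P : Subgroup A).mul_mem (hcP e1) hx
  have hPle : (P : Subgroup A) ≤ Cfsg.pCore p A := le_sSup ⟨hPn, P.isPGroup'⟩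
  have hdvd : (Cfsg.pCore p A).index ∣ (P : Subgroup A).index := Subgroup.index_dvd_of_le hPle
  have hnd : ¬ p ∣ (P : Subgroup A).index := P.not_dvd_index
  have hnd' : ¬ p ∣ (Cfsg.pCore p A).index := fun hh => hnd (hh.trans hdvd)
  exact ((Nat.Prime.coprime_iff_not_dvd hp).mpr hnd').symm

end Cfsg.Agent.Lib.helper12.S1454T1w
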