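import Mathlib

set_option autoImplicit false

open scoped commutatorElement

namespace Cfsg.Agent.Lib.helper12.S1456M2

variable {G : Type*} [Group G]

/-- `X` abelian, `e` commuting with `X`: `X ⊔ ⟨e⟩` is abelian. -/
theorem sup_zpowers_comm (X : Subgroup G) (e : G) (hX : ∀ a ∈ X, ∀ b ∈ X, a * b = b * a)
    (hXe : ∀ a ∈ X, a * e = e * a) :
    ∀ a ∈ X ⊔ Subgroup.zpowers e, ∀ b ∈ X ⊔ Subgroup.zpowers e, a * b = b * a := by
  have hS : X ⊔ Subgroup.zpowers e = Subgroup.closure ((X : Set G) ∪ {e}) := by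
    rw [Subgroup.closure_union, Subgroup.closure_eq, Subgroup.zpowers_eq_closure]
  have hle : Subgroup.closure ((X : Set G) ∪ {e}) ≤ Subgroup.centralizer ((X : Set G) ∪ {e}) := by
    rw [Subgroup.closure_le]
    intro a ha
    rw [SetLike.mem_coe, Subgroup.mem_centralizer_iff]
    intro b hb
    rcases ha with ha | ha <;> rcases hb with hb | hb
    · exact hX b hb a ha
    · rw [Set.mem_singleton_iff] at hb; rw [hb]; exact (hXe a ha).symm
    · rw [Set.mem_singleton_iff] at ha; rw [ha]; exact hXe b hb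
    · rw [Set.mem_singleton_iff] at ha hb; rw [ha, hb]
  intro a ha b hb
  rw [hS] at ha hb
  have h1 := hle ha
  rw [← Subgroup.centralizer_closure, Subgroup.mem_centralizer_iff] at h1
  exact (h1 b hb).symm

/-- A proper subgroup of a group of exponent `p` has index at least `p`. -/
theorem card_mul_le_of_lt [Finite G] (p : ℕ) [Fact p.Prime] (X Y : Subgroup G) (hlt : X < Y)
    (hexp : ∀ d ∈ Y, d ^ p = 1) : p * Nat.card X ≤ Nat.card Y := by
  have hp : p.Prime := Fact.out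
  have hY : IsPGroup p Y := fun g => ⟨1, by rw [pow_one]; exact Subtype.ext (hexp g g.2)⟩
  have hX : IsPGroup p X := fun g => ⟨1, by rw [pow_one]; exact Subtype.ext (hexp g (hlt.le g.2))⟩
  obtain ⟨a, ha⟩ := IsPGroup.iff_card.mp hX
  obtain ⟨b, hb⟩ := IsPGroup.iff_card.mp hY
  have hlt' : Nat.card X < Nat.card Y := by
    by_contra hcon
    push_neg at hcon
    exact hlt.ne (Subgroup.eq_of_le_of_card_ge hlt.le hcon)
  rw [ha, hb] at hlt' ⊢
  have hab : a < b := (Nat.pow_lt_pow_iff_right hp.one_lt).mp hlt'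
  calc p * p ^ a = p ^ (a + 1) := by ring
    _ ≤ p ^ b := Nat.pow_le_pow_right hp.pos hab

/-- (M2) of the S1456 split. -/
theorem rank_of_mem [Finite G] (p : ℕ) [Fact p.Prime] (D : Subgroup G) (hexp : ∀ d ∈ D, d ^ p = 1)
    (hcl : ∀ x ∈ D, ∀ y ∈ D, ∀ z ∈ D, ⁅x, y⁆ * z = z * ⁅x, y⁆) (e : G) (he : e ∈ D)
    (hr : ∀ B : Subgroup G, B ≤ D → (∀ b ∈ B, b * e = e * b) →
      (∀ a ∈ B, ∀ b ∈ B, a * b = b * a) → Nat.card B ≤ p ^ 2) :
    ∀ B : Subgroup G, B ≤ D → (∀ a ∈ B, ∀ b ∈ B, a * b = b * a) → Nat.card B ≤ p ^ 2 := by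
  classical
  have hp : p.Prime := Fact.out
  have hcl' : ∀ x ∈ D, ∀ y ∈ D, ∀ z ∈ D,
      x * y * x⁻¹ * y⁻¹ * z = z * (x * y * x⁻¹ * y⁻¹) := fun x hx y hy z hz => hcl x hx y hy z hz
  have hcD : ∀ d ∈ D, d * e * d⁻¹ * e⁻¹ ∈ D := fun d hd =>
    D.mul_mem (D.mul_mem (D.mul_mem hd he) (D.inv_mem hd)) (D.inv_mem he)
  let ψ : ↥D →* G :=
    { toFun := fun d => (d : G) * e * (d : G)⁻¹ * e⁻¹
      map_one' := by simp
      map_mul' := by
        intro d d'
        have h1 := hcl' d' d'.2 e he d d.2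
        have h2 := hcl' d' d'.2 e he _ (hcD d d.2)
        calc ((d * d' : ↥D) : G) * e * ((d * d' : ↥D) : G)⁻¹ * e⁻¹
            = (d : G) * ((d' : G) * e * (d' : G)⁻¹ * e⁻¹) * (e * (d : G)⁻¹ * e⁻¹) := by
              rw [Subgroup.coe_mul]; group
          _ = ((d' : G) * e * (d' : G)⁻¹ * e⁻¹) * (d : G) * (e * (d : G)⁻¹ * e⁻¹) := by
              rw [← h1]
          _ = ((d' : G) * e * (d' : G)⁻¹ * e⁻¹) * ((d : G) * e * (d : G)⁻¹ * e⁻¹) := by group
          _ = ((d : G) * e * (d : G)⁻¹ * e⁻¹) * ((d' : G) * e * (d' : G)⁻¹ * e⁻¹) := h2 }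
  have hψ : ∀ d : ↥D, ψ d = (d : G) * e * (d : G)⁻¹ * e⁻¹ := fun d => rfl
  have k1 : ψ.range ≤ D := by
    rintro k ⟨d, rfl⟩
    exact hcD d d.2
  have k2 : ∀ k ∈ ψ.range, ∀ z ∈ D, k * z = z * k := by
    rintro k ⟨d, rfl⟩ z hz
    exact hcl' d d.2 e he z hz
  have k3 : ∀ a ∈ ψ.range, ∀ b ∈ ψ.range, a * b = b * a := fun a ha b hb => k2 a ha b (k1 hb)
  have k3e : ∀ a ∈ ψ.range, a * e = e * a := fun a ha => k2 a ha e he
  -- generic bound for abelian subgroups commuting with e and not containing e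
  have hbound : ∀ X : Subgroup G, X ≤ D → (∀ a ∈ X, ∀ b ∈ X, a * b = b * a) →
      (∀ a ∈ X, a * e = e * a) → e ∉ X → Nat.card X ≤ p := by
    intro X hXD hXab hXe heX
    have hlt : X < X ⊔ Subgroup.zpowers e := by
      refine lt_of_le_of_ne le_sup_left (fun h => heX ?_)
      rw [h]
      exact Subgroup.mem_sup_right (Subgroup.mem_zpowers e)
    have hle : X ⊔ Subgroup.zpowers e ≤ D := sup_le hXD ((Subgroup.zpowers_le).mpr he)
    have h1 := card_mul_le_of_lt p X (X ⊔ Subgroup.zpowers e) hlt (fun d hd => hexp d (hle hd))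
    have hab := sup_zpowers_comm X e hXab hXe
    have h2 := hr (X ⊔ Subgroup.zpowers e) hle
      (fun b hb => hab b hb e (Subgroup.mem_sup_right (Subgroup.mem_zpowers e))) hab
    have h3 : p * Nat.card X ≤ p * p := by rw [← sq]; exact h1.trans h2
    exact Nat.le_of_mul_le_mul_left h3 hp.pos
  have k4 : Nat.card ψ.range ≤ p := by
    by_cases hK : ψ.range = ⊥
    · rw [hK, Subgroup.card_bot]; exact hp.pos
    · apply hbound ψ.range k1 k3 k3e
      intro heK
      apply hK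
      rw [eq_bot_iff]
      rintro k ⟨d, rfl⟩
      rw [Subgroup.mem_bot, hψ]
      have h1 : e * (d : G) = (d : G) * e := k2 e heK d d.2
      rw [← h1]; group
  intro B hBD hBab
  by_cases heB : e ∈ B
  · exact hr B hBD (fun b hb => hBab b hb e heB) hBab
  · have hB0D : B ⊓ Subgroup.centralizer ({e} : Set G) ≤ D := inf_le_left.trans hBD
    have hB0e : ∀ a ∈ B ⊓ Subgroup.centralizer ({e} : Set G), a * e = e * a := by
      intro a ha
      have h1 := Subgroup.mem_centralizer_iff.mp ha.2 e rfl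
      exact h1.symm
    have b2 : Nat.card ↥(B ⊓ Subgroup.centralizer ({e} : Set G)) ≤ p :=
      hbound _ hB0D (fun a ha b hb => hBab a ha.1 b hb.1) hB0e (fun h => heB h.1)
    let ψB : ↥B →* G := ψ.comp (Subgroup.inclusion hBD)
    have h1 : Nat.card ψB.ker * Nat.card ψB.range = Nat.card ↥B := by
      rw [← Subgroup.index_ker]; exact Subgroup.card_mul_index _
    have h2 : Nat.card ψB.range ≤ p := by
      refine le_trans (Subgroup.card_le_of_le ?_) k4
      rintro x ⟨b, rfl⟩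
      exact ⟨Subgroup.inclusion hBD b, rfl⟩
    have h3 : Nat.card ψB.ker ≤ Nat.card ↥(B ⊓ Subgroup.centralizer ({e} : Set G)) := by
      have hmem : ∀ b : ↥ψB.ker, ((b : ↥B) : G) ∈ B ⊓ Subgroup.centralizer ({e} : Set G) := by
        intro b
        refine Subgroup.mem_inf.mpr ⟨(b : ↥B).2, ?_⟩
        rw [Subgroup.mem_centralizer_iff]
        intro h hh
        rw [Set.mem_singleton_iff] at hh
        rw [hh]
        have h4 : ((b : ↥B) : G) * e * ((b : ↥B) : G)⁻¹ * e⁻¹ = 1 := MonoidHom.mem_ker.mp b.2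
        have h5 : ((b : ↥B) : G) * e * ((b : ↥B) : G)⁻¹ = e := mul_inv_eq_one.mp h4
        exact (mul_inv_eq_iff_eq_mul.mp h5).symm
      refine Nat.card_le_card_of_injective (fun b : ↥ψB.ker => (⟨((b : ↥B) : G), hmem b⟩ :
        ↥(B ⊓ Subgroup.centralizer ({e} : Set G)))) ?_
      intro b b' hbb
      apply Subtype.ext
      apply Subtype.ext
      have h6 := congrArg Subtype.val hbb
      exact h6
    calc Nat.card ↥B = Nat.card ψB.ker * Nat.card ψB.range := h1.symm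
      _ ≤ p * p := Nat.mul_le_mul (h3.trans b2) h2
      _ = p ^ 2 := (sq p).symm

end Cfsg.Agent.Lib.helper12.S1456M2
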