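import Mathlib
import Cfsg.Agent.Lib.helper12.S1456M2

/-!
Piece (X1) of the S1454 split: a nonabelian group `D` of exponent `p` and class `2` all of whose
abelian subgroups have order at most `p ^ 2` has order `p ^ 3` and centre of order `p`.
-/

namespace Cfsg.Agent.Lib.helper12.S1454X1

open scoped commutatorElement
open Cfsg.Agent.Lib.helper12.S1456M2

theorem extraspecial_of_rank {H : Type*} [Group H] [Finite H] (p : ℕ) [Fact p.Prime]
    (D : Subgroup H) (hexp : ∀ d ∈ D, d ^ p = 1)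
    (hcl : ∀ x ∈ D, ∀ y ∈ D, ∀ z ∈ D, ⁅x, y⁆ * z = z * ⁅x, y⁆)
    (hrk : ∀ B : Subgroup H, B ≤ D → (∀ x ∈ B, ∀ y ∈ B, x * y = y * x) → Nat.card B ≤ p ^ 2)
    (hnc : ∃ x ∈ D, ∃ y ∈ D, x * y ≠ y * x) :
    Nat.card D = p ^ 3 ∧ Nat.card ↥(D ⊓ Subgroup.centralizer (D : Set H)) = p := by
  classical
  have hp : p.Prime := Fact.out
  obtain ⟨d, hd, y, hy, hdy⟩ := hnc
  set Z : Subgroup H := D ⊓ Subgroup.centralizer (D : Set H) with hZdef
  have hZD : Z ≤ D := inf_le_left
  have hZc : ∀ z ∈ Z, ∀ x ∈ D, z * x = x * z := by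
    intro z hz x hx
    exact (Subgroup.mem_centralizer_iff.mp hz.2 x hx).symm
  have hZab : ∀ a ∈ Z, ∀ b ∈ Z, a * b = b * a := fun a ha b hb => hZc a ha b (hZD hb)
  have hdZ : d ∉ Z := fun h => hdy (hZc d h y hy)
  have hfZ : ∀ x ∈ D, ⁅d, x⁆ ∈ Z := by
    intro x hx
    have hcD : ⁅d, x⁆ ∈ D := by
      rw [commutatorElement_def]
      exact D.mul_mem (D.mul_mem (D.mul_mem hd hx) (D.inv_mem hd)) (D.inv_mem hx)
    refine ⟨hcD, ?_⟩
    show ⁅d, x⁆ ∈ Subgroup.centralizer (D : Set H)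
    rw [Subgroup.mem_centralizer_iff]
    intro w hw
    exact (hcl d hd x hx w hw).symm
  have hcom1 : ⁅d, y⁆ ≠ 1 := by
    intro h
    rw [commutatorElement_eq_one_iff_commute] at h
    exact hdy h
  -- K = Z ⊔ zpowers d
  set K : Subgroup H := Z ⊔ Subgroup.zpowers d with hKdef
  have hKD : K ≤ D := sup_le hZD (by rw [Subgroup.zpowers_le]; exact hd)
  have hKab : ∀ a ∈ K, ∀ b ∈ K, a * b = b * a :=
    sup_zpowers_comm Z d hZab (fun a ha => hZc a ha d hd)
  have hKcard : Nat.card K ≤ p ^ 2 := hrk K hKD hKab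
  have hZK : Z < K := by
    refine lt_of_le_of_ne le_sup_left ?_
    intro h
    apply hdZ
    rw [h]
    exact Subgroup.mem_sup_right (Subgroup.mem_zpowers d)
  have h1 : p * Nat.card Z ≤ Nat.card K :=
    card_mul_le_of_lt p Z K hZK (fun x hx => hexp x (hKD hx))
  have hZp : IsPGroup p Z := fun g => ⟨1, by rw [pow_one]; exact Subtype.ext (hexp g (hZD g.2))⟩
  have hZle : Nat.card Z ≤ p := by
    have h2 : p * Nat.card Z ≤ p * p := by
      calc p * Nat.card Z ≤ Nat.card K := h1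
        _ ≤ p ^ 2 := hKcard
        _ = p * p := by ring
    exact Nat.le_of_mul_le_mul_left h2 hp.pos
  have hZne : Z ≠ ⊥ := by
    intro h
    have h2 : ⁅d, y⁆ ∈ Z := hfZ y hy
    rw [h] at h2
    exact hcom1 (Subgroup.mem_bot.mp h2)
  have hZcard : Nat.card Z = p := by
    obtain ⟨a, ha⟩ := IsPGroup.iff_card.mp hZp
    have ha0 : a ≠ 0 := by
      rintro rfl
      rw [pow_zero] at ha
      exact hZne (Subgroup.eq_bot_of_card_eq _ ha)
    have h2 : p ≤ Nat.card Z := by
      rw [ha]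
      exact Nat.le_self_pow ha0 p
    exact le_antisymm hZle h2
  have hKcard' : Nat.card K = p ^ 2 := by
    apply le_antisymm hKcard
    rw [hZcard] at h1
    calc p ^ 2 = p * p := by ring
      _ ≤ Nat.card K := h1
  -- C = C_D(d)
  set C : Subgroup H := D ⊓ Subgroup.centralizer ({d} : Set H) with hCdef
  have hCD : C ≤ D := inf_le_left
  have hCd : ∀ x ∈ C, x * d = d * x := by
    intro x hx
    exact (Subgroup.mem_centralizer_iff.mp hx.2 d (Set.mem_singleton d)).symm
  have hKC : K ≤ C := by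
    intro x hx
    refine ⟨hKD hx, ?_⟩
    show x ∈ Subgroup.centralizer ({d} : Set H)
    rw [Subgroup.mem_centralizer_iff]
    intro h hh
    rw [Set.mem_singleton_iff] at hh
    rw [hh]
    exact hKab _ (Subgroup.mem_sup_right (Subgroup.mem_zpowers _)) x hx
  have hCK : C ≤ K := by
    intro x hx
    by_contra hxK
    have hK'D : K ⊔ Subgroup.zpowers x ≤ D :=
      sup_le hKD (by rw [Subgroup.zpowers_le]; exact hCD hx)
    have hxK' : ∀ a ∈ K, a * x = x * a := by
      intro a ha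
      have hle : K ≤ Subgroup.centralizer ({x} : Set H) := by
        refine sup_le ?_ ?_
        · intro z hz
          rw [Subgroup.mem_centralizer_iff]
          intro h hh
          rw [Set.mem_singleton_iff] at hh
          rw [hh]
          exact (hZc z hz _ (hCD hx)).symm
        · rw [Subgroup.zpowers_le, Subgroup.mem_centralizer_iff]
          intro h hh
          rw [Set.mem_singleton_iff] at hh
          rw [hh]
          exact hCd _ hx
      exact (Subgroup.mem_centralizer_iff.mp (hle ha) x (Set.mem_singleton x)).symm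
    have hK'ab := sup_zpowers_comm K x hKab hxK'
    have hK'card := hrk _ hK'D hK'ab
    have hKK' : K < K ⊔ Subgroup.zpowers x := by
      refine lt_of_le_of_ne le_sup_left ?_
      intro h
      apply hxK
      rw [h]
      exact Subgroup.mem_sup_right (Subgroup.mem_zpowers x)
    have h2 := card_mul_le_of_lt p K _ hKK' (fun x hx => hexp x (hK'D hx))
    rw [hKcard'] at h2
    have h3 : p ^ 2 < p * p ^ 2 := by
      have h4 := hp.one_lt
      have h5 := pow_pos hp.pos 2
      nlinarith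
    omega
  have hCeq : C = K := le_antisymm hCK hKC
  have hCcard : Nat.card C = p ^ 2 := by rw [hCeq, hKcard']
  have hCltD : C < D := by
    refine lt_of_le_of_ne hCD ?_
    intro h
    have hyC : y ∈ C := by rw [h]; exact hy
    exact hdy (hCd y hyC).symm
  have h3 := card_mul_le_of_lt p C D hCltD hexp
  rw [hCcard] at h3
  -- upper bound: injection D → Z × C
  let rep : H → H := fun z => if h : ∃ y0 ∈ D, ⁅d, y0⁆ = z then Classical.choose h else 1
  have hrep : ∀ x ∈ D, rep ⁅d, x⁆ ∈ D ∧ ⁅d, rep ⁅d, x⁆⁆ = ⁅d, x⁆ := by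
    intro x hx
    have h : ∃ y0 ∈ D, ⁅d, y0⁆ = ⁅d, x⁆ := ⟨x, hx, rfl⟩
    have h2 := Classical.choose_spec h
    simp only [rep, dif_pos h]
    exact h2
  have hfib : ∀ x ∈ D, ∀ x' ∈ D, ⁅d, x⁆ = ⁅d, x'⁆ → x'⁻¹ * x ∈ C := by
    intro x hx x' hx' h
    refine ⟨D.mul_mem (D.inv_mem hx') hx, ?_⟩
    show x'⁻¹ * x ∈ Subgroup.centralizer ({d} : Set H)
    rw [Subgroup.mem_centralizer_iff]
    intro w hw
    rw [Set.mem_singleton_iff] at hw
    rw [hw]
    rw [commutatorElement_def, commutatorElement_def] at h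
    have h' : x * d⁻¹ * x⁻¹ = x' * d⁻¹ * x'⁻¹ := by
      have h2 := congrArg (fun t => d⁻¹ * t) h
      simpa [mul_assoc] using h2
    have h'' : (x'⁻¹ * x) * d⁻¹ = d⁻¹ * (x'⁻¹ * x) := by
      have h2 := congrArg (fun t => x'⁻¹ * t * x) h'
      simpa [mul_assoc] using h2
    have hc : Commute (x'⁻¹ * x) d⁻¹ := h''
    have hc2 : Commute (x'⁻¹ * x) d := by simpa using hc.inv_right
    exact hc2.eq.symm
  let φ : D → Z × C := fun x =>
    (⟨⁅d, (x : H)⁆, hfZ x x.2⟩,
      ⟨(rep ⁅d, (x : H)⁆)⁻¹ * (x : H), hfib x x.2 _ (hrep x x.2).1 (hrep x x.2).2.symm⟩)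
  have hφ : Function.Injective φ := by
    intro x x' h
    have e1 : ⁅d, (x : H)⁆ = ⁅d, (x' : H)⁆ := congrArg (fun t => ((t.1 : Z) : H)) h
    have e2 : (rep ⁅d, (x : H)⁆)⁻¹ * (x : H) = (rep ⁅d, (x' : H)⁆)⁻¹ * (x' : H) :=
      congrArg (fun t => ((t.2 : C) : H)) h
    rw [e1] at e2
    exact Subtype.ext (mul_left_cancel e2)
  have h4 := Nat.card_le_card_of_injective φ hφ
  rw [Nat.card_prod, hZcard, hCcard] at h4
  refine ⟨le_antisymm ?_ ?_, hZcard⟩
  · calc Nat.card D ≤ p * p ^ 2 := h4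
      _ = p ^ 3 := by ring
  · calc p ^ 3 = p * p ^ 2 := by ring
      _ ≤ Nat.card D := h3

end Cfsg.Agent.Lib.helper12.S1454X1
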