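import Mathlib

/-!
Piece (Q1) of the S1455 split: in a central product `R₀ R₁` with `|R₀| = p` and `R₁` cyclic,
a subgroup of exponent `p` has order at most `p ^ 2`.
-/

namespace Cfsg.Agent.Lib.helper12.S1455Q1

theorem mem_sup_comm {R : Type*} [Group R] (R₀ R₁ : Subgroup R)
    (hc : ∀ a ∈ R₀, ∀ b ∈ R₁, a * b = b * a) (x : R) (hx : x ∈ R₀ ⊔ R₁) :
    ∃ a ∈ R₀, ∃ c ∈ R₁, x = a * c := by
  let T : Subgroup R :=
    { carrier := {x | ∃ a ∈ R₀, ∃ c ∈ R₁, x = a * c}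
      one_mem' := ⟨1, R₀.one_mem, 1, R₁.one_mem, by simp⟩
      mul_mem' := by
        rintro x y ⟨a, ha, c, hc', rfl⟩ ⟨a', ha', c', hc'', rfl⟩
        refine ⟨a * a', R₀.mul_mem ha ha', c * c', R₁.mul_mem hc' hc'', ?_⟩
        have h := hc a' ha' c hc'
        calc a * c * (a' * c') = a * (c * a') * c' := by group
          _ = a * (a' * c) * c' := by rw [← h]
          _ = a * a' * (c * c') := by group
      inv_mem' := by
        rintro x ⟨a, ha, c, hc', rfl⟩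
        refine ⟨a⁻¹, R₀.inv_mem ha, c⁻¹, R₁.inv_mem hc', ?_⟩
        have h := hc a⁻¹ (R₀.inv_mem ha) c⁻¹ (R₁.inv_mem hc')
        rw [mul_inv_rev, h] }
  have h : R₀ ⊔ R₁ ≤ T := by
    refine sup_le ?_ ?_
    · intro a ha; exact ⟨a, ha, 1, R₁.one_mem, by simp⟩
    · intro c hc'; exact ⟨1, R₀.one_mem, c, hc', by simp⟩
  exact h hx

theorem narrow_count {R : Type*} [Group R] [Finite R] (p : ℕ) [Fact p.Prime] (R₀ R₁ B : Subgroup R)
    (h0 : Nat.card R₀ = p) (h1 : IsCyclic R₁) (hc : ∀ a ∈ R₀, ∀ b ∈ R₁, a * b = b * a)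
    (hB : B ≤ R₀ ⊔ R₁) (hBp : ∀ b ∈ B, b ^ p = 1) : Nat.card B ≤ p ^ 2 := by
  classical
  have hp := (Fact.out : p.Prime)
  have key : ∀ b : B, ∃ ac : R₀ × {c : R₁ // c ^ p = 1},
      (b : R) = (ac.1 : R) * ((ac.2 : R₁) : R) := by
    intro b
    obtain ⟨a, ha, c, hc', hbc⟩ := mem_sup_comm R₀ R₁ hc b (hB b.2)
    have hap : a ^ p = 1 := by
      have h := pow_card_eq_one' (G := R₀) (x := ⟨a, ha⟩)
      rw [h0] at h
      simpa using congrArg Subtype.val h
    have hcp : c ^ p = 1 := by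
      have h1' := hBp b b.2
      rw [hbc, (show Commute a c from hc a ha c hc').mul_pow, hap, one_mul] at h1'
      exact h1'
    exact ⟨(⟨a, ha⟩, ⟨⟨c, hc'⟩, by ext; simpa using hcp⟩), hbc⟩
  choose f hf using key
  have hinj : Function.Injective f := by
    intro b b' h
    apply Subtype.ext
    rw [hf b, hf b', h]
  have hcard := Nat.card_le_card_of_injective f hinj
  rw [Nat.card_prod, h0] at hcard
  have hO : Nat.card {c : R₁ // c ^ p = 1} ≤ p := by
    haveI : Fintype R₁ := Fintype.ofFinite _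
    rw [Nat.card_eq_fintype_card, Fintype.card_subtype]
    exact IsCyclic.card_pow_eq_one_le hp.pos
  calc Nat.card B ≤ p * Nat.card {c : R₁ // c ^ p = 1} := hcard
    _ ≤ p * p := Nat.mul_le_mul_left _ hO
    _ = p ^ 2 := by ring

end Cfsg.Agent.Lib.helper12.S1455Q1
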