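import Mathlib
import Cfsg.Agent.Lib.helper12.S1455Q1

/-!
Piece (Q2) of the S1455 split: transfer of the narrow data of a Sylow `p`-subgroup `S`
to the quotient by a normal `p'`-subgroup `N` with `G = N N_G(S)`.
-/

namespace Cfsg.Agent.Lib.helper12.S1455Q2

theorem narrow_quot {G : Type*} [Group G] [Finite G] (p : ℕ) [Fact p.Prime] (S : Sylow p G)
    (N : Subgroup G) [N.Normal] (hN : (Nat.card N).Coprime p)
    (hSn : N ⊔ Subgroup.normalizer ((S : Subgroup G) : Set G) = ⊤)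
    (R₀ R₁ : Subgroup ↥(S : Subgroup G)) (h0 : Nat.card R₀ = p) (h1 : IsCyclic R₁)
    (hc : ∀ a ∈ R₀, ∀ b ∈ R₁, a * b = b * a)
    (hsup : R₀ ⊔ R₁ = Subgroup.centralizer (R₀ : Set ↥(S : Subgroup G))) :
    ∃ P E : Subgroup (G ⧸ N), P.Normal ∧ IsPGroup p P ∧
      (∀ Q : Subgroup (G ⧸ N), Q.Normal → IsPGroup p Q → Q ≤ P) ∧ E ≤ P ∧
      (∀ a ∈ E, ∀ b ∈ E, a * b = b * a) ∧ (∀ a ∈ E, a ^ p = 1) ∧
      ∀ B : Subgroup (G ⧸ N), B ≤ P → B ≤ Subgroup.centralizer (E : Set (G ⧸ N)) →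
        (∀ a ∈ B, ∀ b ∈ B, a * b = b * a) → (∀ b ∈ B, b ^ p = 1) → Nat.card B ≤ p ^ 2 := by
  classical
  have hp := (Fact.out : p.Prime)
  set π : G →* G ⧸ N := QuotientGroup.mk' N with hπ
  have hπs : Function.Surjective π := QuotientGroup.mk'_surjective N
  set φ : ↥(S : Subgroup G) →* G ⧸ N := π.comp (S : Subgroup G).subtype with hφ
  -- φ is injective
  have hφi : Function.Injective φ := by
    rw [injective_iff_map_eq_one]
    intro s hs
    have hsN : (s : G) ∈ N := by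
      have h : π (s : G) = 1 := hs
      rwa [hπ, QuotientGroup.mk'_apply, QuotientGroup.eq_one_iff] at h
    have h1' : orderOf (s : G) ∣ Nat.card N := by
      have h := orderOf_dvd_natCard (⟨(s : G), hsN⟩ : N)
      rwa [Subgroup.orderOf_mk] at h
    obtain ⟨k, hk⟩ := S.isPGroup' s
    have h2 : orderOf (s : G) ∣ p ^ k := by
      rw [Subgroup.orderOf_coe]
      exact orderOf_dvd_of_pow_eq_one hk
    have hcop : Nat.gcd (Nat.card N) (p ^ k) = 1 := Nat.Coprime.pow_right k hN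
    have h3 : orderOf (s : G) = 1 := Nat.dvd_one.mp (by rw [← hcop]; exact Nat.dvd_gcd h1' h2)
    rw [orderOf_eq_one_iff] at h3
    exact Subtype.ext h3
  have hPp : IsPGroup p ((S : Subgroup G).map π) := S.isPGroup'.map π
  have hPn : ((S : Subgroup G).map π).Normal := by
    rw [← Subgroup.normalizer_eq_top_iff]
    have e1 : (Subgroup.normalizer ((S : Subgroup G) : Set G)).map π ≤
        Subgroup.normalizer (((S : Subgroup G).map π : Subgroup (G ⧸ N)) : Set (G ⧸ N)) :=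
      Subgroup.le_normalizer_map π
    have e2 : (N ⊔ Subgroup.normalizer ((S : Subgroup G) : Set G)).map π = ⊤ := by
      rw [hSn, ← MonoidHom.range_eq_map, MonoidHom.range_eq_top]; exact hπs
    rw [Subgroup.map_sup] at e2
    have e3 : N.map π = ⊥ := by
      rw [Subgroup.map_eq_bot_iff, hπ, QuotientGroup.ker_mk']
    rw [e3, bot_sup_eq] at e2
    rw [eq_top_iff, ← e2]; exact e1
  have hmax : ∀ Q : Subgroup (G ⧸ N), Q.Normal → IsPGroup p Q → Q ≤ (S : Subgroup G).map π := by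
    intro Q _ hQ
    have hsy : ((S.mapSurjective hπs : Sylow p (G ⧸ N)) : Subgroup (G ⧸ N)) =
        (S : Subgroup G).map π := Sylow.coe_mapSurjective hπs S
    have e1 : IsPGroup p (Q ⊔ (S : Subgroup G).map π : Subgroup (G ⧸ N)) :=
      hQ.to_sup_of_normal_right hPp
    have e2 := (S.mapSurjective hπs).is_maximal' (Q := Q ⊔ (S : Subgroup G).map π) e1
      (by rw [hsy]; exact le_sup_right)
    rw [hsy] at e2
    exact sup_eq_right.mp e2
  have hpow : ∀ a ∈ R₀, a ^ p = 1 := by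
    intro a ha
    have h := pow_card_eq_one' (G := R₀) (x := ⟨a, ha⟩)
    rw [h0] at h
    simpa using congrArg Subtype.val h
  have hcomm : ∀ a ∈ R₀, ∀ b ∈ R₀, a * b = b * a := by
    intro a ha b hb
    haveI : IsCyclic R₀ := isCyclic_of_prime_card h0
    obtain ⟨g, hg⟩ := IsCyclic.exists_generator (α := R₀)
    obtain ⟨m, hm⟩ := Subgroup.mem_zpowers_iff.mp (hg ⟨a, ha⟩)
    obtain ⟨n, hn⟩ := Subgroup.mem_zpowers_iff.mp (hg ⟨b, hb⟩)
    have e : (⟨a, ha⟩ : R₀) * ⟨b, hb⟩ = ⟨b, hb⟩ * ⟨a, ha⟩ := by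
      rw [← hm, ← hn]; exact zpow_mul_comm g m n
    exact congrArg Subtype.val e
  refine ⟨(S : Subgroup G).map π, R₀.map φ, hPn, hPp, hmax, ?_, ?_, ?_, ?_⟩
  · rintro _ ⟨r, hr, rfl⟩
    exact ⟨(r : G), r.2, rfl⟩
  · rintro _ ⟨a, ha, rfl⟩ _ ⟨b, hb, rfl⟩
    rw [← map_mul, ← map_mul, hcomm a ha b hb]
  · rintro _ ⟨a, ha, rfl⟩
    rw [← map_pow, hpow a ha, map_one]
  · intro B hBP hBE hBc hBp
    have hBr : B ≤ φ.range := by
      intro x hx
      obtain ⟨s, hs, rfl⟩ := hBP hx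
      exact ⟨⟨s, hs⟩, rfl⟩
    have hcard : Nat.card B = Nat.card (B.comap φ) := by
      rw [← Subgroup.card_map_of_injective (K := B.comap φ) hφi,
        Subgroup.map_comap_eq_self hBr]
    rw [hcard]
    apply Cfsg.Agent.Lib.helper12.S1455Q1.narrow_count p R₀ R₁ (B.comap φ) h0 h1 hc
    · rw [hsup]
      intro b hb
      rw [Subgroup.mem_centralizer_iff]
      intro r hr
      apply hφi
      rw [map_mul, map_mul]
      have hb' : φ b ∈ B := hb
      have h := hBE hb'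
      rw [Subgroup.mem_centralizer_iff] at h
      exact h (φ r) ⟨r, hr, rfl⟩
    · intro b hb
      apply hφi
      rw [map_pow, map_one]
      exact hBp _ hb

end Cfsg.Agent.Lib.helper12.S1455Q2
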