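import Mathlib
import Cfsg.Agent.Lib.helper12.SL2Syl
import Cfsg.Agent.Lib.helper12.SL2Ord4
import Cfsg.Agent.Lib.helper12.PSL2Klein
import Cfsg.Agent.Lib.helper12.DkMinSimple

set_option autoImplicit false

namespace Cfsg.Agent.Lib.helper12

open scoped MatrixGroups

section sl23

variable {F : Type*} [Field F] [Fintype F]

theorem sl23_card (hF : Fintype.card F = 3) : Nat.card SL(2, F) = 24 := by
  rw [card_SL2, hF]
  norm_num

theorem sl23_two (hF : Fintype.card F = 3) : (2 : F) ≠ 0 :=
  two_ne_zero_of_card_odd (by rw [hF])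

theorem sl23_nonsq (hF : Fintype.card F = 3) : ∀ r : F, r ^ 2 ≠ -1 := by
  intro r hr
  have h1 : IsSquare (-1 : F) := ⟨r, by rw [← hr, pow_two]⟩
  rw [FiniteField.isSquare_neg_one_iff, hF] at h1
  exact h1 rfl

theorem quat2_pow4 (x : QuaternionGroup 2) : x ^ 4 = 1 := by
  have h := Monoid.pow_exponent_eq_one x
  rw [QuaternionGroup.exponent] at h
  exact h

theorem sl23_ncard_coe {G : Type*} [Group G] (K : Subgroup G) :
    ((K : Set G)).ncard = Nat.card K := by
  rw [← Nat.card_coe_set_eq]
  rfl

theorem sl23_sylow (hF : Fintype.card F = 3) (P : Sylow 2 SL(2, F)) :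
    Nat.card P = 8 ∧ Nonempty ((P : Subgroup SL(2, F)) ≃* QuaternionGroup 2) := by
  obtain ⟨k, hk, ⟨f⟩⟩ := SL2_sylow_two_quat (by rw [hF]) P
  have hc : Nat.card P = 4 * 2 ^ k := by
    rw [Nat.card_congr f.toEquiv, Nat.card_eq_fintype_card, QuaternionGroup.card]
  have hd : Nat.card P ∣ 24 := by
    rw [← sl23_card hF]
    exact Subgroup.card_subgroup_dvd_card _
  have hk1 : k = 1 := by
    rw [hc] at hd
    have h6 : 2 ^ k ∣ 6 := by
      have h7 : 4 * 2 ^ k ∣ 4 * 6 := hd
      exact (Nat.mul_dvd_mul_iff_left (by norm_num)).1 h7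
    have hle : 2 ^ k ≤ 6 := Nat.le_of_dvd (by norm_num) h6
    have hk2 : k ≤ 2 := by
      by_contra hcon
      push Not at hcon
      have h8 : 2 ^ 3 ≤ 2 ^ k := Nat.pow_le_pow_right (by norm_num) hcon
      omega
    interval_cases k
    · rfl
    · exfalso
      norm_num at h6
  subst hk1
  exact ⟨by rw [hc]; norm_num, ⟨f⟩⟩

theorem sl23_pow4_card (hF : Fintype.card F = 3) :
    ({g : SL(2, F) | g ^ 4 = 1}).ncard ≤ 8 := by
  classical
  have h2 := sl23_two hF
  have hns := sl23_nonsq hF
  have hZ : ({g : SL(2, F) | (g : Matrix (Fin 2) (Fin 2) F).trace = 0}).ncard ≤ 6 := by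
    have hb : ∀ g : {g : SL(2, F) // (g : Matrix (Fin 2) (Fin 2) F).trace = 0},
        ((g : SL(2, F)) : Matrix (Fin 2) (Fin 2) F) 0 1 ≠ 0 := by
      rintro ⟨g, hg⟩ h0
      have hdet := SL2_det_eq g
      rw [Matrix.trace_fin_two] at hg
      have h0' : (g : Matrix (Fin 2) (Fin 2) F) 0 1 = 0 := h0
      rw [h0', zero_mul, sub_zero] at hdet
      apply hns ((g : Matrix (Fin 2) (Fin 2) F) 0 0)
      linear_combination -hdet + (g : Matrix (Fin 2) (Fin 2) F) 0 0 * hg
    let f : {g : SL(2, F) // (g : Matrix (Fin 2) (Fin 2) F).trace = 0} → F × Fˣ :=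
      fun g => (((g : SL(2, F)) : Matrix (Fin 2) (Fin 2) F) 0 0, Units.mk0 _ (hb g))
    have hf : Function.Injective f := by
      rintro ⟨g, hg⟩ ⟨g', hg'⟩ heq
      have e1 : (g : Matrix (Fin 2) (Fin 2) F) 0 0 = (g' : Matrix (Fin 2) (Fin 2) F) 0 0 :=
        congrArg Prod.fst heq
      have e2 : (g : Matrix (Fin 2) (Fin 2) F) 0 1 = (g' : Matrix (Fin 2) (Fin 2) F) 0 1 :=
        congrArg (fun p : F × Fˣ => (p.2 : F)) heq
      have hb' := hb ⟨g, hg⟩
      rw [Matrix.trace_fin_two] at hg hg'
      have e3 : (g : Matrix (Fin 2) (Fin 2) F) 1 1 = (g' : Matrix (Fin 2) (Fin 2) F) 1 1 := by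
        linear_combination hg - hg' - e1
      have hdet := SL2_det_eq g
      have hdet' := SL2_det_eq g'
      have e4 : (g : Matrix (Fin 2) (Fin 2) F) 1 0 = (g' : Matrix (Fin 2) (Fin 2) F) 1 0 := by
        have h5 : (g : Matrix (Fin 2) (Fin 2) F) 0 1 * ((g : Matrix (Fin 2) (Fin 2) F) 1 0 -
            (g' : Matrix (Fin 2) (Fin 2) F) 1 0) = 0 := by
          linear_combination -hdet + hdet' - (g' : Matrix (Fin 2) (Fin 2) F) 1 0 * e2 +
            (g : Matrix (Fin 2) (Fin 2) F) 1 1 * e1 + (g' : Matrix (Fin 2) (Fin 2) F) 0 0 * e3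
        exact sub_eq_zero.1 ((mul_eq_zero.1 h5).resolve_left hb')
      exact Subtype.ext (SL2_ext e1 e2 e4 e3)
    have hcard : Nat.card (F × Fˣ) = 6 := by
      rw [Nat.card_prod, Nat.card_units, Nat.card_eq_fintype_card, hF]
    rw [← Nat.card_coe_set_eq]
    calc Nat.card _ ≤ Nat.card (F × Fˣ) := Nat.card_le_card_of_injective f hf
      _ = 6 := hcard
  have hsub : {g : SL(2, F) | g ^ 4 = 1} ⊆ ({1, signSL false} : Set SL(2, F)) ∪
      {g : SL(2, F) | (g : Matrix (Fin 2) (Fin 2) F).trace = 0} := by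
    intro g hg
    have hg4 : g ^ 4 = 1 := hg
    have hsq : (g * g) * (g * g) = 1 := by
      rw [← hg4, show (4 : ℕ) = 2 + 2 from rfl, pow_add, pow_two]
    have hc : g * g ∈ Subgroup.center SL(2, F) :=
      (SL2_mem_center_iff _).2 (SL2_scalar_of_mul_self_eq_one h2 _ hsq)
    rcases (SL2_center_iff _).1 hc with h1 | h1
    · left
      have hc' : g ∈ Subgroup.center SL(2, F) :=
        (SL2_mem_center_iff _).2 (SL2_scalar_of_mul_self_eq_one h2 _ h1)
      rcases (SL2_center_iff _).1 hc' with h3 | h3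
      · exact Or.inl h3
      · exact Or.inr h3
    · right
      exact SL2_trace_zero_of_sq g h1
  have hpair : ({1, signSL false} : Set SL(2, F)).ncard = 2 :=
    Set.ncard_pair (Ne.symm (signSL_false_ne_one h2))
  calc ({g : SL(2, F) | g ^ 4 = 1}).ncard
      ≤ (({1, signSL false} : Set SL(2, F)) ∪
        {g : SL(2, F) | (g : Matrix (Fin 2) (Fin 2) F).trace = 0}).ncard :=
        Set.ncard_le_ncard hsub
    _ ≤ ({1, signSL false} : Set SL(2, F)).ncard +
        ({g : SL(2, F) | (g : Matrix (Fin 2) (Fin 2) F).trace = 0}).ncard :=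
        Set.ncard_union_le _ _
    _ ≤ 8 := by rw [hpair]; omega

theorem sl23_sylow_eq (hF : Fintype.card F = 3) (P P' : Sylow 2 SL(2, F)) :
    (P : Subgroup SL(2, F)) = P' := by
  have hT := sl23_pow4_card hF
  have key : ∀ R : Sylow 2 SL(2, F), ((R : Subgroup SL(2, F)) : Set SL(2, F)) =
      {g : SL(2, F) | g ^ 4 = 1} := by
    intro R
    obtain ⟨hc, ⟨f⟩⟩ := sl23_sylow hF R
    refine Set.eq_of_subset_of_ncard_le ?_ ?_
    · intro g hg
      have h4 := quat2_pow4 (f ⟨g, hg⟩)
      rw [← map_pow, ← map_one f] at h4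
      have h5 := f.injective h4
      have h6 := congrArg (fun q : (R : Subgroup SL(2, F)) => (q : SL(2, F))) h5
      simpa using h6
    · rw [sl23_ncard_coe]
      have hc' : Nat.card (R : Subgroup SL(2, F)) = 8 := hc
      rw [hc']
      exact hT
  apply SetLike.coe_injective
  rw [key P, key P']

theorem sl23_sylow_normal (hF : Fintype.card F = 3) (P : Sylow 2 SL(2, F)) :
    (P : Subgroup SL(2, F)).Normal := by
  rw [← Subgroup.normalizer_eq_top_iff]
  apply top_unique
  intro g _
  exact Sylow.smul_eq_iff_mem_normalizer.1 (Sylow.ext (sl23_sylow_eq hF _ _))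

theorem sl23_index (hF : Fintype.card F = 3) (P : Sylow 2 SL(2, F)) :
    (P : Subgroup SL(2, F)).index = 3 := by
  have h := Subgroup.card_mul_index (P : Subgroup SL(2, F))
  have hc : Nat.card (P : Subgroup SL(2, F)) = 8 := (sl23_sylow hF P).1
  rw [hc, sl23_card hF] at h
  omega

theorem sl23_main (hF : Fintype.card F = 3) :
    (∃ Q : Subgroup SL(2, F), Q.Normal ∧ Q.index = 3 ∧ Nonempty (Q ≃* QuaternionGroup 2)) ∧
      Nat.card (Subgroup.center SL(2, F)) = 2 := by
  obtain ⟨P⟩ : Nonempty (Sylow 2 SL(2, F)) := inferInstance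
  exact ⟨⟨P, sl23_sylow_normal hF P, sl23_index hF P, (sl23_sylow hF P).2⟩,
    card_center_SL2_odd (sl23_two hF)⟩

end sl23

section sl23b

open scoped commutatorElement

variable {F : Type*} [Field F] [Fintype F]

theorem sl23_no_normal4 (hF : Fintype.card F = 3) (K : Subgroup SL(2, F)) (hK : K.Normal) :
    Nat.card K ≠ 4 := by
  intro h4
  have h2 := sl23_two hF
  have hns := sl23_nonsq hF
  obtain ⟨g, hgK, htr, hKz, hggz, -, -⟩ := SL2_order_four h2 K h4
  have hN := SL2_card_normalizer_order_four h2 g hggz htr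
  rw [← hKz, Subgroup.normalizer_eq_top_iff.2 hK, Subgroup.card_top, sl23_card hF,
    card_centralizer_of_elliptic g (by
      intro r hr
      rw [htr, zero_mul, add_zero] at hr
      exact hns r hr), hF] at hN
  omega

theorem sl23_central_of_card_le_two (hF : Fintype.card F = 3) (K : Subgroup SL(2, F))
    (hK : Nat.card K ≤ 2) : K ≤ Subgroup.center SL(2, F) := by
  intro k hk
  have h2 := sl23_two hF
  have hpos : 0 < Nat.card K := Nat.card_pos
  have hkk : k * k = 1 := by
    have h5 := pow_card_eq_one' (G := K) (x := ⟨k, hk⟩)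
    have h6 : (⟨k, hk⟩ : K) ^ 2 = 1 := by
      rcases (by omega : Nat.card K = 1 ∨ Nat.card K = 2) with h | h
      · rw [h, pow_one] at h5
        rw [h5, one_pow]
      · rw [h] at h5
        exact h5
    have h7 := congrArg (fun q : K => (q : SL(2, F))) h6
    simpa [pow_two] using h7
  exact (SL2_mem_center_iff _).2 (SL2_scalar_of_mul_self_eq_one h2 _ hkk)

theorem sl23_commutator (hF : Fintype.card F = 3) (P : Sylow 2 SL(2, F)) :
    commutator SL(2, F) = (P : Subgroup SL(2, F)) := by
  classical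
  have h2 := sl23_two hF
  have hc : Nat.card (P : Subgroup SL(2, F)) = 8 := (sl23_sylow hF P).1
  haveI hn := sl23_sylow_normal hF P
  have hidx := sl23_index hF P
  have hle : commutator SL(2, F) ≤ (P : Subgroup SL(2, F)) := by
    haveI : Fact (Nat.Prime 3) := ⟨Nat.prime_three⟩
    have hq : Nat.card (SL(2, F) ⧸ (P : Subgroup SL(2, F))) = 3 := by
      rw [← Subgroup.index_eq_card]
      exact hidx
    haveI : IsCyclic (SL(2, F) ⧸ (P : Subgroup SL(2, F))) := isCyclic_of_prime_card hq
    letI : CommGroup (SL(2, F) ⧸ (P : Subgroup SL(2, F))) := IsCyclic.commGroup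
    have h5 := Abelianization.commutator_subset_ker
      (QuotientGroup.mk' (P : Subgroup SL(2, F)))
    rwa [QuotientGroup.ker_mk'] at h5
  have hKn : (commutator SL(2, F)).Normal := inferInstance
  have hd : Nat.card (commutator SL(2, F)) ∣ 8 := by
    rw [← hc]
    exact Subgroup.card_dvd_of_le hle
  have hne4 := sl23_no_normal4 hF _ hKn
  have hgt2 : ¬ Nat.card (commutator SL(2, F)) ≤ 2 := by
    intro h
    have hcen := sl23_central_of_card_le_two hF _ h
    apply PSL2_not_comm (F := F)
    intro a b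
    obtain ⟨g, rfl⟩ := QuotientGroup.mk_surjective a
    obtain ⟨k, rfl⟩ := QuotientGroup.mk_surjective b
    have hm : ⁅g, k⁆ ∈ commutator SL(2, F) :=
      Subgroup.commutator_mem_commutator (Subgroup.mem_top g) (Subgroup.mem_top k)
    have hz := hcen hm
    have h1 : (QuotientGroup.mk ⁅g, k⁆ : PSL(2, F)) = 1 := (QuotientGroup.eq_one_iff _).2 hz
    rw [commutatorElement_def] at h1
    have h3 : (QuotientGroup.mk g : PSL(2, F)) * QuotientGroup.mk k * (QuotientGroup.mk g)⁻¹ *
        (QuotientGroup.mk k)⁻¹ = 1 := h1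
    rw [mul_inv_eq_one, mul_inv_eq_iff_eq_mul] at h3
    exact h3
  have h8 : Nat.card (commutator SL(2, F)) = 8 := by
    have hle8 : Nat.card (commutator SL(2, F)) ≤ 8 := Nat.le_of_dvd (by norm_num) hd
    obtain ⟨c, hcdef⟩ : ∃ c, c = Nat.card (commutator SL(2, F)) := ⟨_, rfl⟩
    rw [← hcdef] at hd hne4 hgt2 hle8 ⊢
    interval_cases c <;> first | rfl | omega | (exfalso; revert hd; decide)
  apply Subgroup.eq_of_le_of_card_ge hle
  rw [hc, h8]

theorem sl23_sylow3_card (hF : Fintype.card F = 3) (P3 : Sylow 3 SL(2, F)) :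
    Nat.card P3 = 3 := by
  haveI : Fact (Nat.Prime 3) := ⟨Nat.prime_three⟩
  obtain ⟨n, hn⟩ := IsPGroup.iff_card.mp P3.isPGroup'
  have hd : Nat.card P3 ∣ 24 := by
    rw [← sl23_card hF]
    exact Subgroup.card_subgroup_dvd_card _
  have h3 : 3 ∣ Nat.card P3 := by
    apply Sylow.dvd_card_of_dvd_card
    rw [sl23_card hF]
    norm_num
  rw [hn] at hd h3 ⊢
  have hn1 : n ≤ 1 := by
    by_contra hcon
    push Not at hcon
    have h9 : 3 ^ 2 ∣ 3 ^ n := pow_dvd_pow 3 hcon
    have h9' : 3 ^ 2 ∣ 24 := dvd_trans h9 hd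
    norm_num at h9'
  interval_cases n
  · norm_num at h3
  · norm_num

theorem sl23_complement (hF : Fintype.card F = 3) (P : Sylow 2 SL(2, F))
    (P3 : Sylow 3 SL(2, F)) :
    Subgroup.IsComplement' (P : Subgroup SL(2, F)) (P3 : Subgroup SL(2, F)) := by
  have hc : Nat.card (P : Subgroup SL(2, F)) = 8 := (sl23_sylow hF P).1
  have hc3 : Nat.card (P3 : Subgroup SL(2, F)) = 3 := sl23_sylow3_card hF P3
  apply Subgroup.isComplement'_of_coprime
  · rw [hc, hc3, sl23_card hF]
  · rw [hc, hc3]
    norm_num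

theorem sl23_normal (hF : Fintype.card F = 3) (P : Sylow 2 SL(2, F))
    (N : Subgroup SL(2, F)) (hN : N.Normal) :
    N = ⊥ ∨ N = ⊤ ∨ N = Subgroup.center SL(2, F) ∨ N = (P : Subgroup SL(2, F)) := by
  classical
  have h2 := sl23_two hF
  have hc : Nat.card (P : Subgroup SL(2, F)) = 8 := (sl23_sylow hF P).1
  have hPn := sl23_sylow_normal hF P
  have hG := sl23_card hF
  have hZ := card_center_SL2_odd (F := F) h2
  have hdv : Nat.card N ∣ 24 := by
    rw [← hG]
    exact Subgroup.card_subgroup_dvd_card N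
  have key : ∀ M : Subgroup SL(2, F), M.Normal → M ≤ (P : Subgroup SL(2, F)) →
      M = (P : Subgroup SL(2, F)) ∨ M ≤ Subgroup.center SL(2, F) := by
    intro M hM hle
    have hd : Nat.card M ∣ 8 := by
      rw [← hc]
      exact Subgroup.card_dvd_of_le hle
    have hne4 := sl23_no_normal4 hF M hM
    have hle8 : Nat.card M ≤ 8 := Nat.le_of_dvd (by norm_num) hd
    by_cases h8 : Nat.card M = 8
    · left
      exact Subgroup.eq_of_le_of_card_ge hle (by rw [hc, h8])
    · right
      apply sl23_central_of_card_le_two hF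
      obtain ⟨c, hcdef⟩ : ∃ c, c = Nat.card M := ⟨_, rfl⟩
      rw [← hcdef] at hd hne4 hle8 h8 ⊢
      interval_cases c <;> first | omega | (exfalso; revert hd; decide)
  by_cases h3 : 3 ∣ Nat.card N
  · right; left
    by_cases hPN : (P : Subgroup SL(2, F)) ≤ N
    · apply Subgroup.eq_top_of_card_eq
      have h8 : 8 ∣ Nat.card N := by
        rw [← hc]
        exact Subgroup.card_dvd_of_le hPN
      have h24 : 3 * 8 ∣ Nat.card N :=
        Nat.Coprime.mul_dvd_of_dvd_of_dvd (by norm_num : Nat.Coprime 3 8) h3 h8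
      rw [hG]
      exact Nat.dvd_antisymm hdv h24
    · exfalso
      have hM : (N ⊓ (P : Subgroup SL(2, F))).Normal := Subgroup.normal_inf_normal N P
      rcases key _ hM inf_le_right with h | h
      · apply hPN
        rw [← h]
        exact inf_le_left
      · haveI : Fact (Nat.Prime 3) := ⟨Nat.prime_three⟩
        obtain ⟨n', hn'⟩ := exists_prime_orderOf_dvd_card' (G := N) 3 h3
        obtain ⟨n, hnN⟩ := n'
        have hn3 : orderOf n = 3 := by
          rw [← hn', Subgroup.orderOf_mk]
        have hnpow : n ^ 3 = 1 := by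
          rw [← hn3]
          exact pow_orderOf_eq_one n
        have hcomm : ∀ q ∈ (P : Subgroup SL(2, F)), n * q * n⁻¹ = q := by
          intro q hq
          obtain ⟨c, hcdef⟩ : ∃ c, c = n * q * n⁻¹ * q⁻¹ := ⟨_, rfl⟩
          have hcN : c ∈ N := by
            have h5 := hN.conj_mem n⁻¹ (inv_mem hnN) q
            have h6 := N.mul_mem hnN h5
            have e : n * (q * n⁻¹ * q⁻¹) = c := by
              rw [hcdef]
              group
            rwa [e] at h6
          have hcP : c ∈ (P : Subgroup SL(2, F)) := by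
            rw [hcdef]
            exact mul_mem (hPn.conj_mem q hq n) (inv_mem hq)
          have hcz : c ∈ Subgroup.center SL(2, F) := h ⟨hcN, hcP⟩
          have hcc : c * c = 1 := by
            rcases (SL2_center_iff c).1 hcz with h1 | h1
            · rw [h1, one_mul]
            · rw [h1]
              exact signSL_false_mul_self
          have hcq : n * q * n⁻¹ = c * q := by
            rw [hcdef]
            group
          have hnc : n * c * n⁻¹ = c := by
            have h5 := Subgroup.mem_center_iff.1 hcz n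
            rw [h5, mul_inv_cancel_right]
          have h2q : n * (n * q * n⁻¹) * n⁻¹ = q := by
            calc n * (n * q * n⁻¹) * n⁻¹ = n * (c * q) * n⁻¹ := by rw [hcq]
              _ = (n * c * n⁻¹) * (n * q * n⁻¹) := by simp [mul_assoc]
              _ = c * (c * q) := by rw [hnc, hcq]
              _ = q := by rw [← mul_assoc, hcc, one_mul]
          have h3q : n * (n * (n * q * n⁻¹) * n⁻¹) * n⁻¹ = n * q * n⁻¹ := by rw [h2q]
          have h4q : n * (n * (n * q * n⁻¹) * n⁻¹) * n⁻¹ = n ^ 3 * q * (n ^ 3)⁻¹ := by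
            simp [pow_succ, mul_assoc]
          rw [h4q, hnpow, one_mul, inv_one, mul_one] at h3q
          exact h3q.symm
        obtain ⟨C, hC⟩ : ∃ C : Subgroup SL(2, F), C = Subgroup.centralizer ({n} : Set SL(2, F)) :=
          ⟨_, rfl⟩
        have hPC : (P : Subgroup SL(2, F)) ≤ C := by
          intro q hq
          rw [hC, Subgroup.mem_centralizer_singleton_iff]
          have h5 := hcomm q hq
          rw [mul_inv_eq_iff_eq_mul] at h5
          exact h5.symm
        have hnC : n ∈ C := by
          rw [hC, Subgroup.mem_centralizer_singleton_iff]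
        have h8 : 8 ∣ Nat.card C := by
          rw [← hc]
          exact Subgroup.card_dvd_of_le hPC
        have h3' : 3 ∣ Nat.card C := by
          rw [← hn3]
          have h5 := orderOf_dvd_natCard (⟨n, hnC⟩ : C)
          rwa [Subgroup.orderOf_mk] at h5
        have h24 : 3 * 8 ∣ Nat.card C :=
          Nat.Coprime.mul_dvd_of_dvd_of_dvd (by norm_num : Nat.Coprime 3 8) h3' h8
        have hdC : Nat.card C ∣ 24 := by
          rw [← hG]
          exact Subgroup.card_subgroup_dvd_card C
        have hCtop : C = ⊤ := by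
          apply Subgroup.eq_top_of_card_eq
          rw [hG]
          exact Nat.dvd_antisymm hdC h24
        have hncen : n ∈ Subgroup.center SL(2, F) := by
          rw [Subgroup.mem_center_iff]
          intro g
          have hg : g ∈ C := by
            rw [hCtop]
            trivial
          rw [hC, Subgroup.mem_centralizer_singleton_iff] at hg
          exact hg
        have hnn : n * n = 1 := by
          rcases (SL2_center_iff n).1 hncen with h1 | h1
          · rw [h1, one_mul]
          · rw [h1]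
            exact signSL_false_mul_self
        have hn1 : n = 1 := by
          have e : n ^ 3 = n * n * n := by rw [pow_succ, pow_two]
          rw [e, hnn, one_mul] at hnpow
          exact hnpow
        rw [hn1, orderOf_one] at hn3
        norm_num at hn3
  · have hd8 : Nat.card N ∣ 8 := by
      have hcop : Nat.Coprime (Nat.card N) 3 :=
        ((Nat.Prime.coprime_iff_not_dvd Nat.prime_three).2 h3).symm
      exact hcop.dvd_of_dvd_mul_left (by
        have e : (3 : ℕ) * 8 = 24 := by norm_num
        rw [e]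
        exact hdv)
    have hp : IsPGroup 2 N := by
      have hd8' : Nat.card N ∣ 2 ^ 3 := hd8
      obtain ⟨m, -, hm⟩ := (Nat.dvd_prime_pow Nat.prime_two).1 hd8'
      exact IsPGroup.of_card hm
    obtain ⟨Q, hQ⟩ := hp.exists_le_sylow
    rw [sl23_sylow_eq hF Q P] at hQ
    rcases key N hN hQ with h | h
    · exact Or.inr (Or.inr (Or.inr h))
    · have hle2 : Nat.card N ≤ 2 := by
        have h5 := Subgroup.card_le_of_le h
        omega
      have hpos : 0 < Nat.card N := Nat.card_pos
      rcases (by omega : Nat.card N = 1 ∨ Nat.card N = 2) with h1 | h1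
      · exact Or.inl (Subgroup.eq_bot_of_card_eq N h1)
      · right; right; left
        exact Subgroup.eq_of_le_of_card_ge h (by rw [hZ, h1])

end sl23b

end Cfsg.Agent.Lib.helper12
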