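import Mathlib
import Cfsg.Prelude.Def_RootSubgroups
import Cfsg.Agent.Lib.helper12.SL2SylP

set_option autoImplicit false

namespace Cfsg.Agent.Lib.helper12

section rk1

variable {k : Type*} [Field k]

theorem SL2_mul_entries (g h : Matrix.SpecialLinearGroup (Fin 2) k) :
    ((g * h : Matrix.SpecialLinearGroup (Fin 2) k) : Matrix (Fin 2) (Fin 2) k) 0 0 =
      (g : Matrix (Fin 2) (Fin 2) k) 0 0 * (h : Matrix (Fin 2) (Fin 2) k) 0 0 +
        (g : Matrix (Fin 2) (Fin 2) k) 0 1 * (h : Matrix (Fin 2) (Fin 2) k) 1 0 ∧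
    ((g * h : Matrix.SpecialLinearGroup (Fin 2) k) : Matrix (Fin 2) (Fin 2) k) 0 1 =
      (g : Matrix (Fin 2) (Fin 2) k) 0 0 * (h : Matrix (Fin 2) (Fin 2) k) 0 1 +
        (g : Matrix (Fin 2) (Fin 2) k) 0 1 * (h : Matrix (Fin 2) (Fin 2) k) 1 1 ∧
    ((g * h : Matrix.SpecialLinearGroup (Fin 2) k) : Matrix (Fin 2) (Fin 2) k) 1 0 =
      (g : Matrix (Fin 2) (Fin 2) k) 1 0 * (h : Matrix (Fin 2) (Fin 2) k) 0 0 +
        (g : Matrix (Fin 2) (Fin 2) k) 1 1 * (h : Matrix (Fin 2) (Fin 2) k) 1 0 ∧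
    ((g * h : Matrix.SpecialLinearGroup (Fin 2) k) : Matrix (Fin 2) (Fin 2) k) 1 1 =
      (g : Matrix (Fin 2) (Fin 2) k) 1 0 * (h : Matrix (Fin 2) (Fin 2) k) 0 1 +
        (g : Matrix (Fin 2) (Fin 2) k) 1 1 * (h : Matrix (Fin 2) (Fin 2) k) 1 1 := by
  rw [Matrix.SpecialLinearGroup.coe_mul]
  simp [Matrix.mul_apply, Fin.sum_univ_two]

theorem SL2_inv_entries (g : Matrix.SpecialLinearGroup (Fin 2) k) :
    ((g⁻¹ : Matrix.SpecialLinearGroup (Fin 2) k) : Matrix (Fin 2) (Fin 2) k) 0 0 =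
      (g : Matrix (Fin 2) (Fin 2) k) 1 1 ∧
    ((g⁻¹ : Matrix.SpecialLinearGroup (Fin 2) k) : Matrix (Fin 2) (Fin 2) k) 0 1 =
      -(g : Matrix (Fin 2) (Fin 2) k) 0 1 ∧
    ((g⁻¹ : Matrix.SpecialLinearGroup (Fin 2) k) : Matrix (Fin 2) (Fin 2) k) 1 0 =
      -(g : Matrix (Fin 2) (Fin 2) k) 1 0 ∧
    ((g⁻¹ : Matrix.SpecialLinearGroup (Fin 2) k) : Matrix (Fin 2) (Fin 2) k) 1 1 =
      (g : Matrix (Fin 2) (Fin 2) k) 0 0 := by
  rw [Matrix.SpecialLinearGroup.coe_inv, Matrix.adjugate_fin_two]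
  simp

theorem mem_lowerUnipotentSL2 (g : Matrix.SpecialLinearGroup (Fin 2) k) :
    g ∈ Cfsg.lowerUnipotentSL2 k ↔ (g : Matrix (Fin 2) (Fin 2) k) 0 1 = 0 ∧
      (g : Matrix (Fin 2) (Fin 2) k) 0 0 = 1 ∧ (g : Matrix (Fin 2) (Fin 2) k) 1 1 = 1 := by
  constructor
  · intro hg
    unfold Cfsg.lowerUnipotentSL2 at hg
    induction hg using Subgroup.closure_induction with
    | mem x hx => exact hx
    | one => simp
    | mul x y _ _ hx hy =>
      obtain ⟨h00, h01, h10, h11⟩ := SL2_mul_entries x y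
      rw [h01, h00, h11, hx.1, hx.2.1, hx.2.2, hy.1, hy.2.1, hy.2.2]
      simp
    | inv x _ hx =>
      obtain ⟨h00, h01, h10, h11⟩ := SL2_inv_entries x
      rw [h01, h00, h11, hx.1, hx.2.1, hx.2.2]
      simp
  · intro hg
    exact Subgroup.subset_closure hg

theorem mem_upperUnipotentSL2 (g : Matrix.SpecialLinearGroup (Fin 2) k) :
    g ∈ Cfsg.upperUnipotentSL2 k ↔ (g : Matrix (Fin 2) (Fin 2) k) 1 0 = 0 ∧
      (g : Matrix (Fin 2) (Fin 2) k) 0 0 = 1 ∧ (g : Matrix (Fin 2) (Fin 2) k) 1 1 = 1 := by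
  constructor
  · intro hg
    unfold Cfsg.upperUnipotentSL2 at hg
    induction hg using Subgroup.closure_induction with
    | mem x hx => exact hx
    | one => simp
    | mul x y _ _ hx hy =>
      obtain ⟨h00, h01, h10, h11⟩ := SL2_mul_entries x y
      rw [h10, h00, h11, hx.1, hx.2.1, hx.2.2, hy.1, hy.2.1, hy.2.2]
      simp
    | inv x _ hx =>
      obtain ⟨h00, h01, h10, h11⟩ := SL2_inv_entries x
      rw [h10, h00, h11, hx.1, hx.2.1, hx.2.2]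
      simp
  · intro hg
    exact Subgroup.subset_closure hg

theorem mem_conjBy_iff {G : Type*} [Group G] (A : Subgroup G) (x g : G) :
    g ∈ Cfsg.conjBy A x ↔ x⁻¹ * g * x ∈ A := by
  unfold Cfsg.conjBy
  rw [Subgroup.mem_map_equiv]
  rfl

theorem lowerUnipotent_comm (a b : Matrix.SpecialLinearGroup (Fin 2) k)
    (ha : a ∈ Cfsg.lowerUnipotentSL2 k) (hb : b ∈ Cfsg.lowerUnipotentSL2 k) : a * b = b * a := by
  rw [mem_lowerUnipotentSL2] at ha hb
  obtain ⟨h00, h01, h10, h11⟩ := SL2_mul_entries a b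
  obtain ⟨k00, k01, k10, k11⟩ := SL2_mul_entries b a
  apply SL2_ext <;>
    simp only [h00, h01, h10, h11, k00, k01, k10, k11, ha.1, ha.2.1, ha.2.2, hb.1, hb.2.1,
      hb.2.2] <;> (try ring)

theorem upperUnipotent_comm (a b : Matrix.SpecialLinearGroup (Fin 2) k)
    (ha : a ∈ Cfsg.upperUnipotentSL2 k) (hb : b ∈ Cfsg.upperUnipotentSL2 k) : a * b = b * a := by
  rw [mem_upperUnipotentSL2] at ha hb
  obtain ⟨h00, h01, h10, h11⟩ := SL2_mul_entries a b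
  obtain ⟨k00, k01, k10, k11⟩ := SL2_mul_entries b a
  apply SL2_ext <;>
    simp only [h00, h01, h10, h11, k00, k01, k10, k11, ha.1, ha.2.1, ha.2.2, hb.1, hb.2.1,
      hb.2.2] <;> (try ring)

theorem SL2_conj_entries (x g : Matrix.SpecialLinearGroup (Fin 2) k) :
    ((x * g * x⁻¹ : Matrix.SpecialLinearGroup (Fin 2) k) : Matrix (Fin 2) (Fin 2) k) 0 0 =
      ((x : Matrix (Fin 2) (Fin 2) k) 0 0 * (g : Matrix (Fin 2) (Fin 2) k) 0 0 +
        (x : Matrix (Fin 2) (Fin 2) k) 0 1 * (g : Matrix (Fin 2) (Fin 2) k) 1 0) *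
          (x : Matrix (Fin 2) (Fin 2) k) 1 1 +
      ((x : Matrix (Fin 2) (Fin 2) k) 0 0 * (g : Matrix (Fin 2) (Fin 2) k) 0 1 +
        (x : Matrix (Fin 2) (Fin 2) k) 0 1 * (g : Matrix (Fin 2) (Fin 2) k) 1 1) *
          (-(x : Matrix (Fin 2) (Fin 2) k) 1 0) ∧
    ((x * g * x⁻¹ : Matrix.SpecialLinearGroup (Fin 2) k) : Matrix (Fin 2) (Fin 2) k) 0 1 =
      ((x : Matrix (Fin 2) (Fin 2) k) 0 0 * (g : Matrix (Fin 2) (Fin 2) k) 0 0 +
        (x : Matrix (Fin 2) (Fin 2) k) 0 1 * (g : Matrix (Fin 2) (Fin 2) k) 1 0) *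
          (-(x : Matrix (Fin 2) (Fin 2) k) 0 1) +
      ((x : Matrix (Fin 2) (Fin 2) k) 0 0 * (g : Matrix (Fin 2) (Fin 2) k) 0 1 +
        (x : Matrix (Fin 2) (Fin 2) k) 0 1 * (g : Matrix (Fin 2) (Fin 2) k) 1 1) *
          (x : Matrix (Fin 2) (Fin 2) k) 0 0 ∧
    ((x * g * x⁻¹ : Matrix.SpecialLinearGroup (Fin 2) k) : Matrix (Fin 2) (Fin 2) k) 1 0 =
      ((x : Matrix (Fin 2) (Fin 2) k) 1 0 * (g : Matrix (Fin 2) (Fin 2) k) 0 0 +
        (x : Matrix (Fin 2) (Fin 2) k) 1 1 * (g : Matrix (Fin 2) (Fin 2) k) 1 0) *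
          (x : Matrix (Fin 2) (Fin 2) k) 1 1 +
      ((x : Matrix (Fin 2) (Fin 2) k) 1 0 * (g : Matrix (Fin 2) (Fin 2) k) 0 1 +
        (x : Matrix (Fin 2) (Fin 2) k) 1 1 * (g : Matrix (Fin 2) (Fin 2) k) 1 1) *
          (-(x : Matrix (Fin 2) (Fin 2) k) 1 0) ∧
    ((x * g * x⁻¹ : Matrix.SpecialLinearGroup (Fin 2) k) : Matrix (Fin 2) (Fin 2) k) 1 1 =
      ((x : Matrix (Fin 2) (Fin 2) k) 1 0 * (g : Matrix (Fin 2) (Fin 2) k) 0 0 +
        (x : Matrix (Fin 2) (Fin 2) k) 1 1 * (g : Matrix (Fin 2) (Fin 2) k) 1 0) *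
          (-(x : Matrix (Fin 2) (Fin 2) k) 0 1) +
      ((x : Matrix (Fin 2) (Fin 2) k) 1 0 * (g : Matrix (Fin 2) (Fin 2) k) 0 1 +
        (x : Matrix (Fin 2) (Fin 2) k) 1 1 * (g : Matrix (Fin 2) (Fin 2) k) 1 1) *
          (x : Matrix (Fin 2) (Fin 2) k) 0 0 := by
  obtain ⟨a00, a01, a10, a11⟩ := SL2_mul_entries (x * g) x⁻¹
  obtain ⟨b00, b01, b10, b11⟩ := SL2_mul_entries x g
  obtain ⟨c00, c01, c10, c11⟩ := SL2_inv_entries x
  rw [a00, a01, a10, a11, b00, b01, b10, b11, c00, c01, c10, c11]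
  exact ⟨rfl, rfl, rfl, rfl⟩

/-- The key equivalence: for `u` upper and `l` lower unitriangular with `u₀₁ l₁₀ = 1`,
`u g u⁻¹` is lower unitriangular iff `l g l⁻¹` is upper unitriangular. -/
theorem conj_mem_unipotent_iff (u l g : Matrix.SpecialLinearGroup (Fin 2) k)
    (hu : u ∈ Cfsg.upperUnipotentSL2 k) (hl : l ∈ Cfsg.lowerUnipotentSL2 k)
    (h : (u : Matrix (Fin 2) (Fin 2) k) 0 1 * (l : Matrix (Fin 2) (Fin 2) k) 1 0 = 1) :
    u * g * u⁻¹ ∈ Cfsg.lowerUnipotentSL2 k ↔ l * g * l⁻¹ ∈ Cfsg.upperUnipotentSL2 k := by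
  rw [mem_upperUnipotentSL2] at hu
  rw [mem_lowerUnipotentSL2] at hl
  rw [mem_lowerUnipotentSL2, mem_upperUnipotentSL2]
  obtain ⟨a00, a01, a10, a11⟩ := SL2_conj_entries u g
  obtain ⟨b00, b01, b10, b11⟩ := SL2_conj_entries l g
  rw [a00, a01, a11, b00, b10, b11, hu.1, hu.2.1, hu.2.2, hl.1, hl.2.1, hl.2.2]
  generalize (u : Matrix (Fin 2) (Fin 2) k) 0 1 = c at *
  generalize (l : Matrix (Fin 2) (Fin 2) k) 1 0 = t at *
  generalize (g : Matrix (Fin 2) (Fin 2) k) 0 0 = p at *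
  generalize (g : Matrix (Fin 2) (Fin 2) k) 0 1 = q at *
  generalize (g : Matrix (Fin 2) (Fin 2) k) 1 0 = r at *
  generalize (g : Matrix (Fin 2) (Fin 2) k) 1 1 = s at *
  constructor
  · rintro ⟨E1, E2, E3⟩
    have hp : p = 1 - c * r := by linear_combination E2
    have hs : s = 1 + c * r := by linear_combination E3
    have hq : q = -c * c * r := by linear_combination E1 + c * E2 - c * E3
    subst hp hs hq
    refine ⟨?_, ?_, ?_⟩
    · linear_combination (r * (c * t - 1)) * h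
    · linear_combination (c * r) * h
    · linear_combination (-c * r) * h
  · rintro ⟨F1, F2, F3⟩
    have hp : p = 1 + t * q := by linear_combination F2
    have hs : s = 1 - t * q := by linear_combination F3
    have hr : r = -t * t * q := by linear_combination F1 - t * F2 + t * F3
    subst hp hs hr
    refine ⟨?_, ?_, ?_⟩
    · linear_combination (q * (c * t - 1)) * h
    · linear_combination (-t * q) * h
    · linear_combination (t * q) * h

theorem isNilpotent_of_comm {G : Type*} [Group G] (h : ∀ a b : G, a * b = b * a) :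
    Group.IsNilpotent G :=
  @CommGroup.isNilpotent G { (inferInstance : Group G) with mul_comm := h }

theorem uS_mem_upper (y : k) : uS y ∈ Cfsg.upperUnipotentSL2 k := by
  rw [mem_upperUnipotentSL2, uS_val]
  simp

theorem lS_mem_lower (y : k) : lS y ∈ Cfsg.lowerUnipotentSL2 k := by
  rw [mem_lowerUnipotentSL2, lS_val]
  simp

theorem lower_eq_one_of (a : Matrix.SpecialLinearGroup (Fin 2) k)
    (ha : a ∈ Cfsg.lowerUnipotentSL2 k) (h : (a : Matrix (Fin 2) (Fin 2) k) 1 0 = 0) : a = 1 := by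
  rw [mem_lowerUnipotentSL2] at ha
  apply SL2_ext
  · rw [ha.2.1]; simp
  · rw [ha.1]; simp
  · rw [h]; simp
  · rw [ha.2.2]; simp

theorem upper_eq_one_of (a : Matrix.SpecialLinearGroup (Fin 2) k)
    (ha : a ∈ Cfsg.upperUnipotentSL2 k) (h : (a : Matrix (Fin 2) (Fin 2) k) 0 1 = 0) : a = 1 := by
  rw [mem_upperUnipotentSL2] at ha
  apply SL2_ext
  · rw [ha.2.1]; simp
  · rw [h]; simp
  · rw [ha.1]; simp
  · rw [ha.2.2]; simp

theorem conjBy_eq_of_iff {G : Type*} [Group G] (A B : Subgroup G) (x y : G)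
    (h : ∀ g : G, x * g * x⁻¹ ∈ A ↔ y * g * y⁻¹ ∈ B) :
    Cfsg.conjBy A x⁻¹ = Cfsg.conjBy B y⁻¹ := by
  ext g
  rw [mem_conjBy_iff, mem_conjBy_iff, inv_inv, inv_inv]
  exact h g

theorem SL2_rankOnePair :
    Cfsg.IsRankOnePair (Cfsg.lowerUnipotentSL2 k) (Cfsg.upperUnipotentSL2 k) := by
  refine ⟨?_, ?_, ?_, ?_, ?_⟩
  · intro h
    have h1 := lS_mem_lower (1 : k)
    rw [h, mem_upperUnipotentSL2, lS_val] at h1
    simp at h1
  · apply isNilpotent_of_comm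
    rintro ⟨a, ha⟩ ⟨b, hb⟩
    exact Subtype.ext (lowerUnipotent_comm a b ha hb)
  · apply isNilpotent_of_comm
    rintro ⟨a, ha⟩ ⟨b, hb⟩
    exact Subtype.ext (upperUnipotent_comm a b ha hb)
  · intro a ha ha1
    have ht : (a : Matrix (Fin 2) (Fin 2) k) 1 0 ≠ 0 := fun h => ha1 (lower_eq_one_of a ha h)
    refine ⟨uS ((a : Matrix (Fin 2) (Fin 2) k) 1 0)⁻¹, uS_mem_upper _, ?_, ?_⟩
    · intro h
      have h1 := congrArg (fun m : Matrix.SpecialLinearGroup (Fin 2) k =>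
        (m : Matrix (Fin 2) (Fin 2) k) 0 1) h
      simp only [uS_val] at h1
      simp at h1
      exact ht h1
    · apply conjBy_eq_of_iff
      intro g
      apply conj_mem_unipotent_iff _ _ g (uS_mem_upper _) ha
      rw [uS_val]
      simp [inv_mul_cancel₀ ht]
  · intro a ha ha1
    have ht : (a : Matrix (Fin 2) (Fin 2) k) 0 1 ≠ 0 := fun h => ha1 (upper_eq_one_of a ha h)
    refine ⟨lS ((a : Matrix (Fin 2) (Fin 2) k) 0 1)⁻¹, lS_mem_lower _, ?_, ?_⟩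
    · intro h
      have h1 := congrArg (fun m : Matrix.SpecialLinearGroup (Fin 2) k =>
        (m : Matrix (Fin 2) (Fin 2) k) 1 0) h
      simp only [lS_val] at h1
      simp at h1
      exact ht h1
    · apply conjBy_eq_of_iff
      intro g
      apply (conj_mem_unipotent_iff _ _ g ha (lS_mem_lower _) _).symm
      rw [lS_val]
      simp [mul_inv_cancel₀ ht]

theorem SL2_rankOneGroup :
    Cfsg.IsRankOneGroup (Matrix.SpecialLinearGroup (Fin 2) k) (Cfsg.lowerUnipotentSL2 k)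
      (Cfsg.upperUnipotentSL2 k) := by
  refine ⟨?_, SL2_rankOnePair⟩
  apply SL2_eq_top_of_uS_lS
  · intro y
    exact (le_sup_right : Cfsg.upperUnipotentSL2 k ≤ _) (uS_mem_upper y)
  · intro y
    exact (le_sup_left : Cfsg.lowerUnipotentSL2 k ≤ _) (lS_mem_lower y)

theorem SL2_specialRankOnePair :
    Cfsg.IsSpecialRankOnePair (Cfsg.lowerUnipotentSL2 k) (Cfsg.upperUnipotentSL2 k) := by
  refine ⟨SL2_rankOnePair, ?_⟩
  intro a ha ha1 b hb hb1 hconj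
  have hc : (b : Matrix (Fin 2) (Fin 2) k) 0 1 ≠ 0 := fun h => hb1 (upper_eq_one_of b hb h)
  -- derive `c * t = 1`
  have hct : (b : Matrix (Fin 2) (Fin 2) k) 0 1 * (a : Matrix (Fin 2) (Fin 2) k) 1 0 = 1 := by
    set c := (b : Matrix (Fin 2) (Fin 2) k) 0 1 with hcdef
    have hg : b * (mkSL (1 - c) (-c * c) 1 (1 + c) (by ring)) * b⁻¹ ∈ Cfsg.lowerUnipotentSL2 k := by
      rw [mem_lowerUnipotentSL2]
      obtain ⟨a00, a01, a10, a11⟩ := SL2_conj_entries b (mkSL (1 - c) (-c * c) 1 (1 + c) (by ring))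
      rw [mem_upperUnipotentSL2] at hb
      rw [a00, a01, a11, hb.1, hb.2.1, hb.2.2, mkSL_val, ← hcdef]
      simp only [Matrix.of_apply, Matrix.cons_val_zero, Matrix.cons_val_one, Matrix.cons_val',
        Matrix.cons_val_fin_one]
      refine ⟨?_, ?_, ?_⟩ <;> ring
    have hg' : (mkSL (1 - c) (-c * c) 1 (1 + c) (by ring) : Matrix.SpecialLinearGroup (Fin 2) k) ∈
        Cfsg.conjBy (Cfsg.lowerUnipotentSL2 k) b⁻¹ := by
      rw [mem_conjBy_iff, inv_inv]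
      exact hg
    rw [hconj, mem_conjBy_iff, inv_inv, mem_upperUnipotentSL2] at hg'
    obtain ⟨a00, a01, a10, a11⟩ := SL2_conj_entries a (mkSL (1 - c) (-c * c) 1 (1 + c) (by ring))
    rw [mem_lowerUnipotentSL2] at ha
    rw [a00, a10, a11, ha.1, ha.2.1, ha.2.2, mkSL_val] at hg'
    simp only [Matrix.of_apply, Matrix.cons_val_zero, Matrix.cons_val_one, Matrix.cons_val',
      Matrix.cons_val_fin_one] at hg'
    have h1 := hg'.2.1
    have h2 : c * (c * (a : Matrix (Fin 2) (Fin 2) k) 1 0 - 1) = 0 := by linear_combination h1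
    rcases mul_eq_zero.mp h2 with h3 | h3
    · exact absurd h3 hc
    · exact sub_eq_zero.mp h3
  rw [mem_lowerUnipotentSL2] at ha
  rw [mem_upperUnipotentSL2] at hb
  obtain ⟨a00, a01, a10, a11⟩ := SL2_mul_entries (b⁻¹ * a) b
  obtain ⟨b00, b01, b10, b11⟩ := SL2_mul_entries b⁻¹ a
  obtain ⟨c00, c01, c10, c11⟩ := SL2_inv_entries b
  obtain ⟨d00, d01, d10, d11⟩ := SL2_mul_entries (a⁻¹ * b⁻¹) a
  obtain ⟨e00, e01, e10, e11⟩ := SL2_mul_entries a⁻¹ b⁻¹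
  obtain ⟨f00, f01, f10, f11⟩ := SL2_inv_entries a
  apply SL2_ext <;>
    simp only [a00, a01, a10, a11, b00, b01, b10, b11, c00, c01, c10, c11, d00, d01, d10, d11,
      e00, e01, e10, e11, f00, f01, f10, f11, ha.1, ha.2.1, ha.2.2, hb.1, hb.2.1, hb.2.2]
  · ring
  · linear_combination (-(b : Matrix (Fin 2) (Fin 2) k) 0 1) * hct
  · linear_combination (-(a : Matrix (Fin 2) (Fin 2) k) 1 0) * hct
  · ring

theorem SL2_abelianUnipotents :
    Cfsg.HasAbelianUnipotents (Cfsg.lowerUnipotentSL2 k) (Cfsg.upperUnipotentSL2 k) := by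
  constructor
  · exact ⟨⟨fun ⟨a, ha⟩ ⟨b, hb⟩ => Subtype.ext (lowerUnipotent_comm a b ha hb)⟩⟩
  · exact ⟨⟨fun ⟨a, ha⟩ ⟨b, hb⟩ => Subtype.ext (upperUnipotent_comm a b ha hb)⟩⟩

end rk1

end Cfsg.Agent.Lib.helper12
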