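import Mathlib

set_option autoImplicit false

namespace Cfsg.Agent.Lib.helper12

universe u

/-- A field structure from a commutative group `K` and a commutative group `E` of
automorphisms (by conjugation) acting regularly on the non-identity elements of `K`. -/
theorem field_of_regular {Γ : Type u} [Group Γ] (K E : Subgroup Γ) [Finite K]
    (hKc : ∀ u ∈ K, ∀ u' ∈ K, u * u' = u' * u)
    (hEc : ∀ h ∈ E, ∀ h' ∈ E, h * h' = h' * h)
    (hn : ∀ h ∈ E, ∀ u ∈ K, h * u * h⁻¹ ∈ K)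
    (u₁ : Γ) (hu₁ : u₁ ∈ K) (hu₁1 : u₁ ≠ 1)
    (hr : ∀ w ∈ K, w ≠ 1 → ∃ h ∈ E, h * u₁ * h⁻¹ = w)
    (hr' : ∀ h ∈ E, h * u₁ * h⁻¹ = u₁ → h = 1) :
    ∃ (F : Type) (_ : Field F) (_ : Fintype F) (φ : F → Γ),
      (∀ t, φ t ∈ K) ∧ Function.Injective φ ∧ (∀ w ∈ K, ∃ t, φ t = w) ∧
      φ 0 = 1 ∧ φ 1 = u₁ ∧ (∀ s t, φ (s + t) = φ s * φ t) ∧
      (∀ h ∈ E, ∀ s t : F, φ s = h * u₁ * h⁻¹ → φ (s * t) = h * φ t * h⁻¹) := by
  classical
  letI : CommGroup ↥K := { (inferInstance : Group ↥K) with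
    mul_comm := fun x y => Subtype.ext (hKc x x.2 y y.2) }
  -- freeness
  have hfree : ∀ h ∈ E, ∀ h' ∈ E, h * u₁ * h⁻¹ = h' * u₁ * h'⁻¹ → h = h' := by
    intro h hh h' hh' heq
    have h1 : (h'⁻¹ * h) * u₁ * (h'⁻¹ * h)⁻¹ = u₁ := by
      have : (h'⁻¹ * h) * u₁ * (h'⁻¹ * h)⁻¹ = h'⁻¹ * (h * u₁ * h⁻¹) * h' := by group
      rw [this, heq]
      group
    have h2 := hr' _ (E.mul_mem (E.inv_mem hh') hh) h1
    exact (inv_mul_eq_one.mp h2).symm
  have hcjne : ∀ h : Γ, h * u₁ * h⁻¹ ≠ 1 := by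
    intro h heq
    apply hu₁1
    have : u₁ = h⁻¹ * (h * u₁ * h⁻¹) * h := by group
    rw [this, heq]
    group
  -- the conjugation endomorphisms
  obtain ⟨cj, hcj⟩ : ∃ cj : ↥E → AddMonoid.End (Additive ↥K),
      ∀ (h : ↥E) (u : Additive ↥K),
        ((Additive.toMul (cj h u) : ↥K) : Γ) = (h : Γ) * ((Additive.toMul u : ↥K) : Γ) * (h : Γ)⁻¹ := by
    refine ⟨fun h => MonoidHom.toAdditive
      ({ toFun := fun u => ⟨(h : Γ) * (u : Γ) * (h : Γ)⁻¹, hn h h.2 u u.2⟩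
         map_one' := by
           apply Subtype.ext
           show (h : Γ) * ((1 : ↥K) : Γ) * (h : Γ)⁻¹ = ((1 : ↥K) : Γ)
           rw [Subgroup.coe_one]
           group
         map_mul' := by
           intro x y
           apply Subtype.ext
           show (h : Γ) * ((x * y : ↥K) : Γ) * (h : Γ)⁻¹
             = ((h : Γ) * (x : Γ) * (h : Γ)⁻¹) * ((h : Γ) * (y : Γ) * (h : Γ)⁻¹)
           rw [Subgroup.coe_mul]
           group } : ↥K →* ↥K), ?_⟩
    intro h u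
    rfl
  have hext : ∀ x y : AddMonoid.End (Additive ↥K),
      (∀ u : Additive ↥K, ((Additive.toMul (x u) : ↥K) : Γ) = ((Additive.toMul (y u) : ↥K) : Γ))
        → x = y := by
    intro x y h
    apply AddMonoidHom.ext
    intro u
    apply Additive.toMul.injective
    exact Subtype.ext (h u)
  have hadd : ∀ (x y : AddMonoid.End (Additive ↥K)) (u : Additive ↥K),
      ((Additive.toMul ((x + y) u) : ↥K) : Γ)
        = ((Additive.toMul (x u) : ↥K) : Γ) * ((Additive.toMul (y u) : ↥K) : Γ) := by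
    intro x y u
    rfl
  have hmul : ∀ (x y : AddMonoid.End (Additive ↥K)) (u : Additive ↥K),
      (x * y) u = x (y u) := by
    intro x y u
    rfl
  have hzero : ∀ u : Additive ↥K,
      ((Additive.toMul ((0 : AddMonoid.End (Additive ↥K)) u) : ↥K) : Γ) = 1 := by
    intro u
    rfl
  have hone : ∀ u : Additive ↥K, (1 : AddMonoid.End (Additive ↥K)) u = u := by
    intro u
    rfl
  have hcj_one : cj 1 = 1 := by
    apply hext
    intro u
    rw [hcj, hone, Subgroup.coe_one]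
    group
  have hcj_mul : ∀ h h' : ↥E, cj h * cj h' = cj (h * h') := by
    intro h h'
    apply hext
    intro u
    rw [hmul, hcj, hcj, hcj, Subgroup.coe_mul]
    group
  obtain ⟨û, hû⟩ : ∃ û : Additive ↥K, ((Additive.toMul û : ↥K) : Γ) = u₁ :=
    ⟨Additive.ofMul ⟨u₁, hu₁⟩, rfl⟩
  have hcj_ne : ∀ h : ↥E, cj h ≠ 0 := by
    intro h heq
    have h1 := hcj h û
    rw [heq, hzero, hû] at h1
    exact hcjne _ h1.symm
  have hcj_inj : ∀ h h' : ↥E, cj h û = cj h' û → h = h' := by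
    intro h h' heq
    have h1 := hcj h û
    rw [heq, hcj, hû] at h1
    exact Subtype.ext (hfree _ h.2 _ h'.2 h1.symm)
  have hcj_add : ∀ h h' : ↥E,
      (((h : Γ) * u₁ * (h : Γ)⁻¹) * ((h' : Γ) * u₁ * (h' : Γ)⁻¹) = 1 → cj h + cj h' = 0) ∧
      (((h : Γ) * u₁ * (h : Γ)⁻¹) * ((h' : Γ) * u₁ * (h' : Γ)⁻¹) ≠ 1 →
        ∃ h'' : ↥E, cj h + cj h' = cj h'') := by
    intro h h'
    have hw : ((h : Γ) * u₁ * (h : Γ)⁻¹) * ((h' : Γ) * u₁ * (h' : Γ)⁻¹) ∈ K :=
      K.mul_mem (hn h h.2 u₁ hu₁) (hn h' h'.2 u₁ hu₁)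
    have key : ∀ ū ∈ K, ū ≠ 1 → ∃ m ∈ E, (h : Γ) * ū * (h : Γ)⁻¹ * ((h' : Γ) * ū * (h' : Γ)⁻¹)
        = m * (((h : Γ) * u₁ * (h : Γ)⁻¹) * ((h' : Γ) * u₁ * (h' : Γ)⁻¹)) * m⁻¹ ∧ ū = m * u₁ * m⁻¹ := by
      intro ū hūK hū1
      obtain ⟨m, hm, hmu⟩ := hr ū hūK hū1
      refine ⟨m, hm, ?_, hmu.symm⟩
      have c1 : (h : Γ) * m = m * (h : Γ) := hEc _ h.2 _ hm
      have c2 : (h' : Γ) * m = m * (h' : Γ) := hEc _ h'.2 _ hm
      rw [← hmu]
      have e1 : (h : Γ) * (m * u₁ * m⁻¹) * (h : Γ)⁻¹ = ((h : Γ) * m) * u₁ * ((h : Γ) * m)⁻¹ := by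
        group
      have e2 : (h' : Γ) * (m * u₁ * m⁻¹) * (h' : Γ)⁻¹ = ((h' : Γ) * m) * u₁ * ((h' : Γ) * m)⁻¹ := by
        group
      rw [e1, e2, c1, c2]
      group
    constructor
    · intro hw1
      apply hext
      intro u
      rw [hadd, hcj, hcj, hzero]
      obtain ⟨ū, hū⟩ : ∃ ū : Γ, ū = ((Additive.toMul u : ↥K) : Γ) := ⟨_, rfl⟩
      have hūK : ū ∈ K := by rw [hū]; exact (Additive.toMul u).2
      rw [← hū]
      by_cases hū1 : ū = 1
      · rw [hū1]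
        group
      · obtain ⟨m, hm, hmeq, -⟩ := key ū hūK hū1
        rw [hmeq, hw1]
        group
    · intro hw1
      obtain ⟨k, hk, hkw⟩ := hr _ hw hw1
      refine ⟨⟨k, hk⟩, ?_⟩
      apply hext
      intro u
      rw [hadd, hcj, hcj, hcj]
      obtain ⟨ū, hū⟩ : ∃ ū : Γ, ū = ((Additive.toMul u : ↥K) : Γ) := ⟨_, rfl⟩
      have hūK : ū ∈ K := by rw [hū]; exact (Additive.toMul u).2
      rw [← hū]
      show (h : Γ) * ū * (h : Γ)⁻¹ * ((h' : Γ) * ū * (h' : Γ)⁻¹) = k * ū * k⁻¹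
      by_cases hū1 : ū = 1
      · rw [hū1]
        group
      · obtain ⟨m, hm, hmeq, hmu⟩ := key ū hūK hū1
        have c3 : k * m = m * k := hEc _ hk _ hm
        rw [hmeq, ← hkw, hmu]
        have e3 : k * (m * u₁ * m⁻¹) * k⁻¹ = (k * m) * u₁ * (k * m)⁻¹ := by group
        rw [e3, c3]
        group
  -- minus one
  obtain ⟨z, hz⟩ : ∃ z : ↥E, cj z + cj 1 = 0 := by
    have hu1K : u₁⁻¹ ∈ K := K.inv_mem hu₁
    have hu1ne : u₁⁻¹ ≠ 1 := fun h => hu₁1 (inv_eq_one.mp h)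
    obtain ⟨z, hzE, hzu⟩ := hr _ hu1K hu1ne
    refine ⟨⟨z, hzE⟩, ?_⟩
    have h1 := (hcj_add ⟨z, hzE⟩ 1).1 (by
      show z * u₁ * z⁻¹ * (((1 : ↥E) : Γ) * u₁ * ((1 : ↥E) : Γ)⁻¹) = 1
      rw [hzu, Subgroup.coe_one]
      group)
    exact h1
  have hneg : ∀ h : ↥E, -cj h = cj (z * h) := by
    intro h
    have h1 : cj (z * h) + cj h = 0 := by
      have h2 : cj (z * h) + cj h = (cj z + cj 1) * cj h := by
        rw [add_mul, hcj_mul, hcj_mul, one_mul]
      rw [h2, hz, zero_mul]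
    exact neg_eq_of_add_eq_zero_left h1
  -- the subring
  let R : Subring (AddMonoid.End (Additive ↥K)) :=
    { carrier := {x | x = 0 ∨ ∃ h : ↥E, x = cj h}
      zero_mem' := Or.inl rfl
      one_mem' := Or.inr ⟨1, hcj_one.symm⟩
      add_mem' := by
        rintro x y (rfl | ⟨h, rfl⟩) (rfl | ⟨h', rfl⟩)
        · left; rw [add_zero]
        · right; exact ⟨h', zero_add _⟩
        · right; exact ⟨h, add_zero _⟩
        · by_cases hw1 : ((h : Γ) * u₁ * (h : Γ)⁻¹) * ((h' : Γ) * u₁ * (h' : Γ)⁻¹) = 1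
          · left; exact (hcj_add h h').1 hw1
          · right
            exact (hcj_add h h').2 hw1
      neg_mem' := by
        rintro x (rfl | ⟨h, rfl⟩)
        · left; rw [neg_zero]
        · right
          exact ⟨z * h, hneg h⟩
      mul_mem' := by
        rintro x y (rfl | ⟨h, rfl⟩) (rfl | ⟨h', rfl⟩)
        · left; rw [zero_mul]
        · left; rw [zero_mul]
        · left; rw [mul_zero]
        · right; exact ⟨h * h', hcj_mul h h'⟩ }
  have hRmem : ∀ x : ↥R, (x : AddMonoid.End (Additive ↥K)) = 0 ∨ ∃ h : ↥E, (x : AddMonoid.End (Additive ↥K)) = cj h :=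
    fun x => x.2
  have hcomm : ∀ x y : ↥R, x * y = y * x := by
    intro x y
    apply Subtype.ext
    rw [Subring.coe_mul, Subring.coe_mul]
    rcases hRmem x with hx | ⟨h, hx⟩ <;> rcases hRmem y with hy | ⟨h', hy⟩
    · rw [hx, hy]
    · rw [hx, zero_mul, mul_zero]
    · rw [hy, zero_mul, mul_zero]
    · rw [hx, hy, hcj_mul, hcj_mul]
      congr 1
      exact Subtype.ext (hEc _ h.2 _ h'.2)
  letI hCR : CommRing ↥R := { (inferInstance : Ring ↥R) with mul_comm := hcomm }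
  haveI hnt : Nontrivial ↥R := by
    refine ⟨⟨0, 1, ?_⟩⟩
    intro h01
    have h1 : (0 : AddMonoid.End (Additive ↥K)) = 1 := congrArg Subtype.val h01
    have h2 := hzero û
    rw [h1, hone, hû] at h2
    exact hu₁1 h2
  haveI hnzd : NoZeroDivisors ↥R := by
    refine ⟨fun {x y} hxy => ?_⟩
    by_contra hcon
    push Not at hcon
    have hx0 : (x : AddMonoid.End (Additive ↥K)) ≠ 0 := fun h => hcon.1 (Subtype.ext h)
    have hy0 : (y : AddMonoid.End (Additive ↥K)) ≠ 0 := fun h => hcon.2 (Subtype.ext h)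
    rcases hRmem x with hx | ⟨h, hx⟩
    · exact hx0 hx
    rcases hRmem y with hy | ⟨h', hy⟩
    · exact hy0 hy
    have h1 : (x : AddMonoid.End (Additive ↥K)) * (y : AddMonoid.End (Additive ↥K)) = 0 := by
      rw [← Subring.coe_mul, hxy]
      rfl
    rw [hx, hy, hcj_mul] at h1
    exact hcj_ne _ h1
  haveI hdom : IsDomain ↥R := NoZeroDivisors.to_isDomain _
  haveI hfinEnd : Finite (AddMonoid.End (Additive ↥K)) := DFunLike.finite _
  letI hfR : Fintype ↥R := Fintype.ofFinite _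
  letI hfield : Field ↥R := Fintype.fieldOfDomain ↥R
  haveI hsmall : Small.{0} ↥R := Countable.toSmall _
  let e : Shrink.{0} ↥R ≃+* ↥R := Shrink.ringEquiv ↥R
  letI hfS : Fintype (Shrink.{0} ↥R) := Fintype.ofEquiv ↥R (equivShrink ↥R)
  -- evaluation
  obtain ⟨ev, hev⟩ : ∃ ev : ↥R → Γ, ∀ x : ↥R,
      ev x = ((Additive.toMul ((x : AddMonoid.End (Additive ↥K)) û) : ↥K) : Γ) := ⟨_, fun _ => rfl⟩
  have hev_inj : Function.Injective ev := by
    intro x y hxy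
    rw [hev, hev] at hxy
    apply Subtype.ext
    rcases hRmem x with hx | ⟨h, hx⟩ <;> rcases hRmem y with hy | ⟨h', hy⟩
    · rw [hx, hy]
    · rw [hx, hy, hzero, hcj, hû] at hxy
      exact absurd hxy.symm (hcjne _)
    · rw [hx, hy, hzero, hcj, hû] at hxy
      exact absurd hxy (hcjne _)
    · rw [hx, hy, hcj, hcj, hû] at hxy
      rw [hx, hy, Subtype.ext (hfree _ h.2 _ h'.2 hxy)]
  have hev_mem : ∀ x : ↥R, ev x ∈ K := by
    intro x
    rw [hev]
    exact (Additive.toMul ((x : AddMonoid.End (Additive ↥K)) û)).2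
  have hev_zero : ev 0 = 1 := by
    rw [hev]
    exact hzero û
  have hev_one : ev 1 = u₁ := by
    rw [hev]
    show ((Additive.toMul ((1 : AddMonoid.End (Additive ↥K)) û) : ↥K) : Γ) = u₁
    rw [hone, hû]
  have hev_add : ∀ x y : ↥R, ev (x + y) = ev x * ev y := by
    intro x y
    rw [hev, hev, hev]
    exact hadd _ _ û
  have hev_cj : ∀ (h : ↥E) (x : ↥R), (x : AddMonoid.End (Additive ↥K)) = cj h →
      ∀ y : ↥R, ev (x * y) = (h : Γ) * ev y * (h : Γ)⁻¹ := by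
    intro h x hx y
    rw [hev, hev, Subring.coe_mul, hx, hmul, hcj]
  have hev_surj : ∀ w ∈ K, ∃ x : ↥R, ev x = w := by
    intro w hw
    by_cases hw1 : w = 1
    · exact ⟨0, hev_zero.trans hw1.symm⟩
    · obtain ⟨h, hh, hhw⟩ := hr w hw hw1
      refine ⟨⟨cj ⟨h, hh⟩, Or.inr ⟨⟨h, hh⟩, rfl⟩⟩, ?_⟩
      rw [hev, hcj, hû]
      exact hhw
  refine ⟨Shrink.{0} ↥R, inferInstance, hfS, fun t => ev (e t), ?_, ?_, ?_, ?_, ?_, ?_, ?_⟩
  · intro t
    exact hev_mem _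
  · intro s t hst
    exact e.injective (hev_inj hst)
  · intro w hw
    obtain ⟨x, hx⟩ := hev_surj w hw
    refine ⟨e.symm x, ?_⟩
    show ev (e (e.symm x)) = w
    rw [RingEquiv.apply_symm_apply]
    exact hx
  · show ev (e 0) = 1
    rw [map_zero]
    exact hev_zero
  · show ev (e 1) = u₁
    rw [map_one]
    exact hev_one
  · intro s t
    show ev (e (s + t)) = ev (e s) * ev (e t)
    rw [map_add]
    exact hev_add _ _
  · intro h hh s t hs
    show ev (e (s * t)) = h * ev (e t) * h⁻¹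
    rw [map_mul]
    have hs' : ev (e s) = h * u₁ * h⁻¹ := hs
    have hx : ((e s : ↥R) : AddMonoid.End (Additive ↥K)) = cj ⟨h, hh⟩ := by
      have h3 : ev (e s) = ev ⟨cj ⟨h, hh⟩, Or.inr ⟨⟨h, hh⟩, rfl⟩⟩ := by
        rw [hs', hev, hcj, hû]
      exact congrArg Subtype.val (hev_inj h3)
    exact hev_cj ⟨h, hh⟩ (e s) hx (e t)

end Cfsg.Agent.Lib.helper12
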