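import Mathlib

set_option autoImplicit false

namespace Cfsg.Agent.Lib.helper12

/-- A finite group acting freely and linearly on an odd-dimensional space over `ZMod p`
(`p` odd), with an involutive automorphism all of whose fixed points square to one, is
commutative. -/
theorem comm_of_free_odd {p : ℕ} [hp : Fact p.Prime] (hp2 : p ≠ 2) {V : Type*} [AddCommGroup V]
    [Module (ZMod p) V] [Finite V] (hodd : Odd (Module.finrank (ZMod p) V))
    {E : Type*} [Group E] [Finite E] (ρ : E →* (V →ₗ[ZMod p] V))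
    (hfree : ∀ h : E, h ≠ 1 → ∀ v : V, ρ h v = v → v = 0)
    (σ : E ≃* E) (hσ : ∀ h, σ (σ h) = h) (hfix : ∀ h, σ h = h → h * h = 1) :
    ∀ x y : E, x * y = y * x := by
  classical
  have hm1 : (-1 : ZMod p) ≠ 1 := by
    intro h
    have h2 : ((2 : ℕ) : ZMod p) = 0 := by
      have h3 : (1 : ZMod p) + 1 = 0 := by
        nth_rewrite 1 [← h]
        exact neg_add_cancel 1
      push_cast
      rw [← one_add_one_eq_two]
      exact h3
    rw [ZMod.natCast_eq_zero_iff] at h2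
    exact hp2 ((Nat.prime_dvd_prime_iff_eq hp.out Nat.prime_two).mp h2)
  have hρmul : ∀ (a b : E) (v : V), ρ (a * b) v = ρ a (ρ b v) := by
    intro a b v
    rw [map_mul]
    rfl
  have hρone : ∀ v : V, ρ 1 v = v := by
    intro v
    rw [map_one]
    rfl
  have hinv : ∀ t : E, t ≠ 1 → t * t = 1 → ρ t = -1 := by
    intro t ht1 ht2
    apply LinearMap.ext
    intro v
    have h1 : ρ t (v + ρ t v) = v + ρ t v := by
      rw [map_add, ← hρmul, ht2, hρone, add_comm]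
    have h2 := hfree t ht1 _ h1
    have h3 : ρ t v = -v := eq_neg_of_add_eq_zero_right h2
    rw [h3]
    simp
  have hdetneg : LinearMap.det (-1 : V →ₗ[ZMod p] V) = -1 := by
    have h1 : (-1 : V →ₗ[ZMod p] V) = (-1 : ZMod p) • (1 : V →ₗ[ZMod p] V) := by
      rw [neg_one_smul]
    rw [h1, LinearMap.det_smul, map_one, mul_one, hodd.neg_one_pow]
  obtain ⟨δ, hδ⟩ : ∃ δ : E →* ZMod p, ∀ h, δ h = LinearMap.det (ρ h) :=
    ⟨(LinearMap.det : (V →ₗ[ZMod p] V) →* ZMod p).comp ρ, fun _ => rfl⟩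
  obtain ⟨a, m, hmodd, hcard⟩ := Nat.exists_eq_two_pow_mul_odd (Nat.card_pos (α := E)).ne'
  obtain ⟨ψ, hψ⟩ : ∃ ψ : E →* ZMod p, ∀ h, ψ h = δ h ^ m :=
    ⟨(powMonoidHom m).comp δ, fun _ => rfl⟩
  have hψpow : ∀ x : E, ψ (x ^ (2 ^ a)) = 1 := by
    intro x
    rw [hψ, ← map_pow, ← pow_mul, ← hcard, pow_card_eq_one', map_one]
  obtain ⟨K₁, hK₁⟩ : ∃ K₁ : Subgroup E, ∀ h, h ∈ K₁ ↔ ψ h = 1 ∧ ψ (σ h) = 1 := by
    refine ⟨ψ.ker ⊓ (ψ.comp σ.toMonoidHom).ker, fun h => ?_⟩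
    rw [Subgroup.mem_inf, MonoidHom.mem_ker, MonoidHom.mem_ker]
    rfl
  have hσK : ∀ k ∈ K₁, σ k ∈ K₁ := by
    intro k hk
    rw [hK₁] at hk ⊢
    rw [hσ]
    exact ⟨hk.2, hk.1⟩
  have hnoinv : ∀ k ∈ K₁, k * k = 1 → k = 1 := by
    intro k hk hkk
    by_contra hk1
    have h1 := hinv k hk1 hkk
    have h2 : ψ k = -1 := by
      rw [hψ, hδ, h1, hdetneg, hmodd.neg_one_pow]
    rw [hK₁] at hk
    rw [hk.1] at h2
    exact hm1 h2.symm
  have hpowK : ∀ x : E, x ^ (2 ^ a) ∈ K₁ := by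
    intro x
    rw [hK₁]
    refine ⟨hψpow x, ?_⟩
    rw [map_pow]
    exact hψpow _
  have hcommK : ∀ x y : E, x * y * x⁻¹ * y⁻¹ ∈ K₁ := by
    intro x y
    have h1 : ∀ x y : E, ψ (x * y * x⁻¹ * y⁻¹) = 1 := by
      intro x y
      have h2 : ψ (x * y * x⁻¹ * y⁻¹) = ψ (x * x⁻¹) * ψ (y * y⁻¹) := by
        simp only [map_mul]
        ring
      rw [h2, mul_inv_cancel, mul_inv_cancel, map_one, mul_one]
    rw [hK₁]
    refine ⟨h1 x y, ?_⟩
    have e : σ (x * y * x⁻¹ * y⁻¹) = σ x * σ y * (σ x)⁻¹ * (σ y)⁻¹ := by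
      simp only [map_mul, map_inv]
    rw [e]
    exact h1 _ _
  have hnorm : ∀ (x : E) (k : E), k ∈ K₁ → x * k * x⁻¹ ∈ K₁ := by
    intro x k hk
    have h1 : x * k * x⁻¹ = (x * k * x⁻¹ * k⁻¹) * k := by group
    rw [h1]
    exact K₁.mul_mem (hcommK x k) hk
  -- sigma inverts K₁
  have hσinv : ∀ k ∈ K₁, σ k = k⁻¹ := by
    have hinj : Function.Injective (fun k : ↥K₁ =>
        (⟨(k : E)⁻¹ * σ (k : E), K₁.mul_mem (K₁.inv_mem k.2) (hσK _ k.2)⟩ : ↥K₁)) := by
      intro k l hkl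
      have h1 : (k : E)⁻¹ * σ (k : E) = (l : E)⁻¹ * σ (l : E) := congrArg Subtype.val hkl
      have h2 : σ ((l : E) * (k : E)⁻¹) = (l : E) * (k : E)⁻¹ := by
        rw [map_mul, map_inv]
        have h3 : σ (l : E) = (l : E) * ((k : E)⁻¹ * σ (k : E)) := by rw [h1]; group
        rw [h3]
        group
      have h3 := hnoinv _ (K₁.mul_mem l.2 (K₁.inv_mem k.2)) (hfix _ h2)
      apply Subtype.ext
      exact (mul_inv_eq_one.mp h3).symm
    have hsurj := Finite.injective_iff_surjective.mp hinj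
    intro k hk
    obtain ⟨j, hj⟩ := hsurj ⟨k, hk⟩
    have h1 : (j : E)⁻¹ * σ (j : E) = k := congrArg Subtype.val hj
    rw [← h1, map_mul, map_inv, hσ]
    group
  have hKab : ∀ k ∈ K₁, ∀ l ∈ K₁, k * l = l * k := by
    intro k hk l hl
    have h1 : σ (k * l) = (k * l)⁻¹ := hσinv _ (K₁.mul_mem hk hl)
    rw [map_mul, hσinv k hk, hσinv l hl] at h1
    have h2 := congrArg (fun z => z⁻¹) h1
    simp only [mul_inv_rev, inv_inv] at h2
    exact h2.symm
  -- key step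
  have hL2 : ∀ y : E, (∀ k ∈ K₁, y * y * k = k * (y * y)) → ∀ k ∈ K₁, y * k = k * y := by
    intro y hyy k hk
    by_contra hne
    obtain ⟨w, hw⟩ : ∃ w : E, w = y * k * y⁻¹ := ⟨_, rfl⟩
    have hwK : w ∈ K₁ := by rw [hw]; exact hnorm y k hk
    obtain ⟨k', hk'⟩ : ∃ k' : E, k' = k⁻¹ * w := ⟨_, rfl⟩
    have hk'K : k' ∈ K₁ := by rw [hk']; exact K₁.mul_mem (K₁.inv_mem hk) hwK
    have hk'1 : k' ≠ 1 := by
      intro h1
      apply hne
      rw [hk', inv_mul_eq_one] at h1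
      have h2 : k = y * k * y⁻¹ := h1.trans hw
      have h3 : y * k = y * k * y⁻¹ * y := by group
      rw [h3, ← h2]
    have hyk' : y * k' = k'⁻¹ * y := by
      have h1 : y * y * k * (y * y)⁻¹ = k := by
        rw [hyy k hk]; group
      rw [hk', hw]
      have h2 : y * (k⁻¹ * (y * k * y⁻¹)) = (y * k * y⁻¹)⁻¹ * (y * y * k * (y * y)⁻¹) * y := by
        group
      rw [h2, h1]
      group
    have hyk'' : y * k'⁻¹ = k' * y := by
      have h1 : y * k'⁻¹ = (k' * (k'⁻¹ * y)) * k'⁻¹ := by group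
      rw [h1, ← hyk']
      group
    have hkk1 : k' * k' ≠ 1 := fun h => hk'1 (hnoinv k' hk'K h)
    obtain ⟨D, hD⟩ : ∃ D : V →ₗ[ZMod p] V, D = ρ k' - ρ k'⁻¹ := ⟨_, rfl⟩
    have hDinj : LinearMap.ker D = ⊥ := by
      rw [LinearMap.ker_eq_bot']
      intro v hv
      rw [hD, LinearMap.sub_apply, sub_eq_zero] at hv
      apply hfree (k' * k') hkk1
      rw [hρmul, hv, ← hρmul, mul_inv_cancel, hρone]
    have hdetD : LinearMap.det D ≠ 0 := by
      intro h0
      have h1 := LinearMap.bot_lt_ker_of_det_eq_zero h0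
      rw [hDinj] at h1
      exact lt_irrefl _ h1
    have hdety : LinearMap.det (ρ y) ≠ 0 := by
      intro h0
      have h1 : LinearMap.det (ρ y) * LinearMap.det (ρ y⁻¹) = 1 := by
        rw [← map_mul, ← map_mul, mul_inv_cancel, map_one, map_one]
      rw [h0, zero_mul] at h1
      exact zero_ne_one h1
    have e1 : ρ y * ρ k' = ρ k'⁻¹ * ρ y := by rw [← map_mul, ← map_mul, hyk']
    have e2 : ρ y * ρ k'⁻¹ = ρ k' * ρ y := by rw [← map_mul, ← map_mul, hyk'']
    have hanti : ρ y * D = (-1 : ZMod p) • (D * ρ y) := by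
      rw [hD, mul_sub, sub_mul, e1, e2, neg_one_smul, neg_sub]
    have hdet := congrArg LinearMap.det hanti
    rw [LinearMap.det_smul, map_mul, map_mul, hodd.neg_one_pow] at hdet
    have h5 : LinearMap.det (ρ y) * LinearMap.det D * 1
        = LinearMap.det (ρ y) * LinearMap.det D * (-1) := by
      linear_combination hdet
    have h6 := mul_left_cancel₀ (mul_ne_zero hdety hdetD) h5
    exact hm1 h6.symm
  have hcent : ∀ (j : ℕ) (x : E), (∀ k ∈ K₁, x ^ (2 ^ j) * k = k * x ^ (2 ^ j)) →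
      ∀ k ∈ K₁, x * k = k * x := by
    intro j
    induction j with
    | zero =>
      intro x h k hk
      have h1 := h k hk
      rwa [pow_zero, pow_one] at h1
    | succ j ih =>
      intro x h
      apply hL2
      apply ih (x * x)
      intro k hk
      have h1 := h k hk
      rw [pow_succ', pow_mul, pow_two] at h1
      exact h1
  have hZ : ∀ (x : E), ∀ k ∈ K₁, x * k = k * x := by
    intro x
    apply hcent a x
    intro k hk
    exact hKab _ (hpowK x) k hk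
  have hpow1 : ∀ (j : ℕ), ∀ k ∈ K₁, k ^ (2 ^ j) = 1 → k = 1 := by
    intro j
    induction j with
    | zero =>
      intro k hk h
      rwa [pow_zero, pow_one] at h
    | succ j ih =>
      intro k hk h
      rw [pow_succ', pow_mul, pow_two] at h
      exact hnoinv k hk (ih _ (K₁.mul_mem hk hk) h)
  intro x y
  obtain ⟨c, hc⟩ : ∃ c : E, c = x * y * x⁻¹ * y⁻¹ := ⟨_, rfl⟩
  have hcK : c ∈ K₁ := by rw [hc]; exact hcommK x y
  have hcn : ∀ n : ℕ, x ^ n * y * (x ^ n)⁻¹ * y⁻¹ = c ^ n := by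
    intro n
    induction n with
    | zero => simp
    | succ n ih =>
      have h1 : x ^ (n + 1) * y * (x ^ (n + 1))⁻¹ * y⁻¹
          = x * (x ^ n * y * (x ^ n)⁻¹ * y⁻¹) * y * x⁻¹ * y⁻¹ := by
        rw [pow_succ', mul_inv_rev]
        simp only [mul_assoc, inv_mul_cancel_left]
      rw [h1, ih, hZ x (c ^ n) (K₁.pow_mem hcK n), pow_succ]
      have h2 : c ^ n * x * y * x⁻¹ * y⁻¹ = c ^ n * (x * y * x⁻¹ * y⁻¹) := by
        simp only [mul_assoc]
      rw [h2, ← hc]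
  have hc1 : c = 1 := by
    apply hpow1 a c hcK
    rw [← hcn]
    have hz := hZ y _ (hpowK x)
    rw [← hz]
    group
  have h1 : x * y = (x * y * x⁻¹ * y⁻¹) * (y * x) := by group
  rw [h1, ← hc, hc1, one_mul]

end Cfsg.Agent.Lib.helper12
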