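import Mathlib

set_option autoImplicit false

namespace Cfsg.Agent.Lib.helper12

section KT

variable {F : Type*} [Field F]

theorem kt_one (σ : F → F) (hmul : ∀ x y, x ≠ 0 → y ≠ 0 → σ (x * y) = σ x * σ y)
    (hne : ∀ x, x ≠ 0 → σ x ≠ 0) : σ 1 = 1 := by
  have h := hmul 1 1 one_ne_zero one_ne_zero
  rw [mul_one] at h
  have h1 := hne 1 one_ne_zero
  have h3 : σ 1 * (σ 1 - 1) = 0 := by rw [mul_sub, mul_one, ← h, sub_self]
  rcases mul_eq_zero.mp h3 with h2 | h2
  · exact absurd h2 h1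
  · exact sub_eq_zero.mp h2

theorem kt_inv' (σ : F → F) (hmul : ∀ x y, x ≠ 0 → y ≠ 0 → σ (x * y) = σ x * σ y)
    (hne : ∀ x, x ≠ 0 → σ x ≠ 0) : ∀ x, x ≠ 0 → σ x⁻¹ = (σ x)⁻¹ := by
  intro x hx
  have h := hmul x x⁻¹ hx (inv_ne_zero hx)
  rw [mul_inv_cancel₀ hx, kt_one σ hmul hne] at h
  exact eq_inv_of_mul_eq_one_right h.symm

theorem kt_neg_one (h2 : (2 : F) ≠ 0) (σ : F → F)
    (hmul : ∀ x y, x ≠ 0 → y ≠ 0 → σ (x * y) = σ x * σ y)
    (hne : ∀ x, x ≠ 0 → σ x ≠ 0) (hinv : ∀ x, x ≠ 0 → σ (σ x) = x) : σ (-1) = -1 := by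
  have hm1 : (-1 : F) ≠ 0 := neg_ne_zero.mpr one_ne_zero
  have h := hmul (-1) (-1) hm1 hm1
  rw [neg_mul_neg, mul_one, kt_one σ hmul hne] at h
  have h3 : (σ (-1) - 1) * (σ (-1) + 1) = 0 := by linear_combination (-1 : F) * h
  rcases mul_eq_zero.mp h3 with h4 | h4
  · exfalso
    have h5 : σ (-1) = 1 := sub_eq_zero.mp h4
    have h6 := hinv (-1) hm1
    rw [h5, kt_one σ hmul hne] at h6
    apply h2
    linear_combination h6
  · exact eq_neg_of_add_eq_zero_left h4

theorem kt_neg (h2 : (2 : F) ≠ 0) (σ : F → F)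
    (hmul : ∀ x y, x ≠ 0 → y ≠ 0 → σ (x * y) = σ x * σ y)
    (hne : ∀ x, x ≠ 0 → σ x ≠ 0) (hinv : ∀ x, x ≠ 0 → σ (σ x) = x) :
    ∀ x, x ≠ 0 → σ (-x) = -σ x := by
  intro x hx
  have hm1 : (-1 : F) ≠ 0 := neg_ne_zero.mpr one_ne_zero
  have h := hmul (-1) x hm1 hx
  rw [neg_one_mul, kt_neg_one h2 σ hmul hne hinv, neg_one_mul] at h
  exact h

/-- A multiplicative involution of a finite field of odd characteristic with only the fixed
points `±1` and satisfying the Kerby–Tits identity is the inversion. -/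
theorem kt_main [Fintype F] (h2 : (2 : F) ≠ 0) (σ : F → F)
    (hmul : ∀ x y, x ≠ 0 → y ≠ 0 → σ (x * y) = σ x * σ y)
    (hne : ∀ x, x ≠ 0 → σ x ≠ 0)
    (hinv : ∀ x, x ≠ 0 → σ (σ x) = x)
    (hfix : ∀ x, x ≠ 0 → σ x = x → x = 1 ∨ x = -1)
    (hK : ∀ b w, b ≠ 0 → w ≠ 0 → w + σ b ≠ 0 →
      σ (σ w + b) = σ b - (σ b / b) * σ (w + σ b)) :
    ∀ x, x ≠ 0 → σ x = x⁻¹ := by
  classical
  have h1 := kt_one σ hmul hne
  have hi := kt_inv' σ hmul hne
  have hn := kt_neg h2 σ hmul hne hinv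
  have hadd : ∀ a x : F, a ≠ 0 → x ≠ 0 → a + x ≠ 0 → σ a = a⁻¹ → σ x = x⁻¹ →
      σ (a + x) = (a + x)⁻¹ := by
    intro a x ha0 hx0 hs ha hx
    have hw0 : x⁻¹ ≠ 0 := inv_ne_zero hx0
    have hcond : x⁻¹ + σ a ≠ 0 := by
      rw [ha]
      intro h
      apply hs
      have e : (a + x) = (x⁻¹ + a⁻¹) * (a * x) := by field_simp
      rw [e, h, zero_mul]
    have hk := hK a x⁻¹ ha0 hw0 hcond
    rw [hi x hx0, hx, inv_inv, ha] at hk
    have hax : a * x ≠ 0 := mul_ne_zero ha0 hx0
    have e1 : x⁻¹ + a⁻¹ = (a + x) * (a * x)⁻¹ := by field_simp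
    have e2 : σ (x⁻¹ + a⁻¹) = σ (a + x) * (a * x) := by
      rw [e1, hmul _ _ hs (inv_ne_zero hax), hi _ hax, hmul a x ha0 hx0, ha, hx]
      field_simp
    rw [e2, add_comm x a] at hk
    obtain ⟨S, hS⟩ : ∃ S, S = σ (a + x) := ⟨_, rfl⟩
    rw [← hS] at hk ⊢
    have e3 : a⁻¹ / a * (S * (a * x)) = a⁻¹ * (S * x) := by field_simp
    rw [e3] at hk
    have h4 : a * S = 1 - S * x := by
      calc a * S = a * (a⁻¹ - a⁻¹ * (S * x)) := by rw [← hk]
        _ = 1 - S * x := by field_simp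
    have h5 : S * (a + x) = 1 := by linear_combination h4
    exact eq_inv_of_mul_eq_one_left h5
  let L : AddSubgroup F :=
    { carrier := {x | x = 0 ∨ σ x = x⁻¹}
      zero_mem' := Or.inl rfl
      add_mem' := by
        rintro a x (rfl | ha) (rfl | hx)
        · left; rw [add_zero]
        · right; rw [zero_add]; exact hx
        · right; rw [add_zero]; exact ha
        · by_cases ha0 : a = 0
          · right; rw [ha0, zero_add]; exact hx
          by_cases hx0 : x = 0
          · right; rw [hx0, add_zero]; exact ha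
          by_cases hs : a + x = 0
          · left; exact hs
          right
          exact hadd a x ha0 hx0 hs ha hx
      neg_mem' := by
        rintro x (rfl | hx)
        · left; exact neg_zero
        · by_cases hx0 : x = 0
          · left; rw [hx0, neg_zero]
          · right
            show σ (-x) = (-x)⁻¹
            rw [hn x hx0, hx, inv_neg] }
  have hLmem : ∀ x, x ∈ L ↔ (x = 0 ∨ σ x = x⁻¹) := fun x => Iff.rfl
  have hψ : ∀ x, x ≠ 0 → x * (σ x)⁻¹ ∈ L := by
    intro x hx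
    rw [hLmem]
    right
    rw [hmul _ _ hx (inv_ne_zero (hne x hx)), hi _ (hne x hx), hinv x hx, mul_inv, inv_inv,
      mul_comm]
  have hfib : ∀ x y, x ≠ 0 → y ≠ 0 → x * (σ x)⁻¹ = y * (σ y)⁻¹ → y = x ∨ y = -x := by
    intro x y hx hy h
    have hsx := hne x hx
    have hsy := hne y hy
    have h' : x * σ y = y * σ x := by
      calc x * σ y = x * (σ x)⁻¹ * (σ x * σ y) := by field_simp
        _ = y * (σ y)⁻¹ * (σ x * σ y) := by rw [h]
        _ = y * σ x := by field_simp
    have h3 : σ (y * x⁻¹) = y * x⁻¹ := by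
      rw [hmul _ _ hy (inv_ne_zero hx), hi x hx, ← div_eq_mul_inv, ← div_eq_mul_inv,
        div_eq_div_iff hsx hx, mul_comm]
      exact h'
    rcases hfix _ (mul_ne_zero hy (inv_ne_zero hx)) h3 with h4 | h4
    · left
      exact (mul_inv_eq_one₀ hx).mp h4
    · right
      calc y = y * x⁻¹ * x := by field_simp
        _ = -1 * x := by rw [h4]
        _ = -x := neg_one_mul x
  have hL : L = ⊤ := by
    by_contra hne'
    have hdvd : Nat.card L ∣ Nat.card F := AddSubgroup.card_addSubgroup_dvd_card L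
    have hlt : Nat.card L ≠ Nat.card F := by
      intro h
      exact hne' (AddSubgroup.eq_top_of_card_eq L h)
    have hFpos : 0 < Nat.card F := Nat.card_pos
    have hle : 2 * Nat.card L ≤ Nat.card F := by
      obtain ⟨k, hk⟩ := hdvd
      have hk0 : k ≠ 0 := by
        intro h
        rw [h, mul_zero] at hk
        omega
      have hk1 : k ≠ 1 := by
        intro h
        rw [h, mul_one] at hk
        exact hlt hk.symm
      have hk2 : 2 ≤ k := by omega
      calc 2 * Nat.card L = Nat.card L * 2 := by ring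
        _ ≤ Nat.card L * k := Nat.mul_le_mul_left _ hk2
        _ = Nat.card F := hk.symm
    -- lower bound
    obtain ⟨S, hSdef⟩ : ∃ S : Finset F, S = Finset.univ.filter (fun x : F => x ≠ 0) := ⟨_, rfl⟩
    obtain ⟨ψ, hψdef⟩ : ∃ ψ : F → F, ψ = fun x => x * (σ x)⁻¹ := ⟨_, rfl⟩
    obtain ⟨T, hTdef⟩ : ∃ T : Finset F, T = (Finset.univ.filter (fun x : F => x ∈ L)).erase 0 :=
      ⟨_, rfl⟩
    have hScard : S.card = Fintype.card F - 1 := by
      rw [hSdef, Finset.filter_ne' Finset.univ (0 : F), Finset.card_erase_of_mem (Finset.mem_univ _),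
        Finset.card_univ]
    have hTcard : T.card = Nat.card L - 1 := by
      rw [hTdef, Finset.card_erase_of_mem (by simp [L.zero_mem]), Nat.card_eq_fintype_card,
        Fintype.card_subtype]
    have hsub : S.image ψ ⊆ T := by
      intro y hy
      obtain ⟨x, hx, rfl⟩ := Finset.mem_image.mp hy
      rw [hSdef, Finset.mem_filter] at hx
      rw [hTdef, Finset.mem_erase, Finset.mem_filter, hψdef]
      exact ⟨mul_ne_zero hx.2 (inv_ne_zero (hne x hx.2)), Finset.mem_univ _, hψ x hx.2⟩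
    have hcard := Finset.card_le_mul_card_image (f := ψ) S 2 (by
      intro y hy
      obtain ⟨x, hx, rfl⟩ := Finset.mem_image.mp hy
      rw [hSdef, Finset.mem_filter] at hx
      have hss : S.filter (fun z => ψ z = ψ x) ⊆ {x, -x} := by
        intro z hz
        rw [Finset.mem_filter, hSdef, Finset.mem_filter] at hz
        rw [Finset.mem_insert, Finset.mem_singleton]
        have hz2 : ψ z = ψ x := hz.2
        rw [hψdef] at hz2
        exact hfib x z hx.2 hz.1.2 hz2.symm
      exact (Finset.card_le_card hss).trans Finset.card_le_two)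
    have h3 := Finset.card_le_card hsub
    have hLpos : 0 < Nat.card L := Nat.card_pos
    rw [Nat.card_eq_fintype_card (α := F)] at hle
    have hFpos' : 0 < Fintype.card F := Fintype.card_pos
    omega
  intro x hx
  have hxL : x ∈ L := by rw [hL]; exact AddSubgroup.mem_top x
  rcases (hLmem x).mp hxL with h | h
  · exact absurd h hx
  · exact h

end KT

end Cfsg.Agent.Lib.helper12
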