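import Mathlib
import Cfsg.Agent.Lib.helper20.P1

set_option autoImplicit false

namespace Cfsg.Agent.Lib.helper12.ShD

open Matrix
open scoped LinearAlgebra.Projectivization

section coords

variable {F : Type*} [Field F]

theorem vec_ne (k : F) : (![k, 1] : Fin 2 → F) ≠ 0 := by
  intro h
  have := congrFun h 1
  simp at this

theorem vec_ne' : (![1, 0] : Fin 2 → F) ≠ 0 := by
  intro h
  have := congrFun h 0
  simp at this

/-- The affine point with coordinate `k`. -/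
noncomputable def pt (k : F) : ℙ F (Fin 2 → F) := Projectivization.mk F ![k, 1] (vec_ne k)

/-- The point at infinity. -/
noncomputable def inf : ℙ F (Fin 2 → F) := Projectivization.mk F ![1, 0] vec_ne'

theorem pt_inj {k k' : F} (h : pt k = pt k') : k = k' := by
  rw [pt, pt, Projectivization.mk_eq_mk_iff] at h
  obtain ⟨c, hc⟩ := h
  have h1 := congrFun hc 1
  have h0 := congrFun hc 0
  simp only [Pi.smul_apply, Matrix.cons_val_one, Matrix.cons_val_zero, Units.smul_def,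
    smul_eq_mul, mul_one] at h1 h0
  rw [h1, one_mul] at h0
  exact h0.symm

theorem pt_ne_inf (k : F) : pt k ≠ inf := by
  intro h
  rw [pt, inf, Projectivization.mk_eq_mk_iff] at h
  obtain ⟨c, hc⟩ := h
  have h1 := congrFun hc 1
  simp only [Pi.smul_apply, Matrix.cons_val_one, Matrix.cons_val_zero, Units.smul_def,
    smul_eq_mul, mul_zero] at h1
  exact zero_ne_one h1

theorem mk_eq_pt (x y : F) (hy : y ≠ 0) (hv : (![x, y] : Fin 2 → F) ≠ 0) :
    Projectivization.mk F ![x, y] hv = pt (x / y) := by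
  rw [pt, Projectivization.mk_eq_mk_iff]
  refine ⟨Units.mk0 y hy, ?_⟩
  ext i
  fin_cases i
  · simp only [Pi.smul_apply, Units.smul_def, Units.val_mk0, smul_eq_mul]
    show y * (x / y) = x
    field_simp
  · simp only [Pi.smul_apply, Units.smul_def, Units.val_mk0, smul_eq_mul]
    show y * 1 = y
    rw [mul_one]

theorem mk_eq_inf (x : F) (hx : x ≠ 0) (hv : (![x, 0] : Fin 2 → F) ≠ 0) :
    Projectivization.mk F ![x, 0] hv = inf := by
  rw [inf, Projectivization.mk_eq_mk_iff]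
  refine ⟨Units.mk0 x hx, ?_⟩
  ext i
  fin_cases i
  · simp only [Pi.smul_apply, Units.smul_def, Units.val_mk0, smul_eq_mul]
    show x * 1 = x
    rw [mul_one]
  · simp only [Pi.smul_apply, Units.smul_def, Units.val_mk0, smul_eq_mul]
    show x * 0 = 0
    rw [mul_zero]

theorem gl_pt (N : GL (Fin 2) F) (k : F) (x y : F) (hx : N.1 0 0 * k + N.1 0 1 = x)
    (hy : N.1 1 0 * k + N.1 1 1 = y) (hv : (![x, y] : Fin 2 → F) ≠ 0) :
    (Matrix.ProjGenLinGroup.mk N : Matrix.ProjGenLinGroup (Fin 2) F) • pt k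
      = Projectivization.mk F ![x, y] hv := by
  rw [pt, Projectivization.PGL.mk_smul_mk]
  have h := Cfsg.Agent.Lib.helper20.P1.gl_smul N ![k, 1]
  simp only [Matrix.cons_val_zero, Matrix.cons_val_one, mul_one] at h
  rw [hx, hy] at h
  simp only [h]

theorem gl_inf (N : GL (Fin 2) F) (x y : F) (hx : N.1 0 0 = x) (hy : N.1 1 0 = y)
    (hv : (![x, y] : Fin 2 → F) ≠ 0) :
    (Matrix.ProjGenLinGroup.mk N : Matrix.ProjGenLinGroup (Fin 2) F) • inf
      = Projectivization.mk F ![x, y] hv := by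
  rw [inf, Projectivization.PGL.mk_smul_mk]
  have h := Cfsg.Agent.Lib.helper20.P1.gl_smul N ![1, 0]
  simp only [Matrix.cons_val_zero, Matrix.cons_val_one, mul_one, mul_zero, add_zero] at h
  rw [hx, hy] at h
  simp only [h]

/-- The translation matrix. -/
noncomputable def uMat (t : F) : GL (Fin 2) F :=
  Matrix.GeneralLinearGroup.mkOfDetNeZero !![1, t; 0, 1] (by
    rw [Matrix.det_fin_two_of]
    simp)

/-- The dilation matrix. -/
noncomputable def dMat (u : F) (hu : u ≠ 0) : GL (Fin 2) F :=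
  Matrix.GeneralLinearGroup.mkOfDetNeZero !![u, 0; 0, 1] (by
    rw [Matrix.det_fin_two_of]
    simpa using hu)

/-- The swap matrix. -/
noncomputable def wMat : GL (Fin 2) F :=
  Matrix.GeneralLinearGroup.mkOfDetNeZero !![0, 1; 1, 0] (by
    rw [Matrix.det_fin_two_of]
    simp)

theorem u_pt (t k : F) :
    (Matrix.ProjGenLinGroup.mk (uMat t) : Matrix.ProjGenLinGroup (Fin 2) F) • pt k = pt (k + t) := by
  rw [gl_pt (uMat t) k (k + t) 1 (by simp [uMat, Matrix.GeneralLinearGroup.mkOfDetNeZero])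
    (by simp [uMat, Matrix.GeneralLinearGroup.mkOfDetNeZero]) (vec_ne _)]
  rfl

theorem u_inf (t : F) :
    (Matrix.ProjGenLinGroup.mk (uMat t) : Matrix.ProjGenLinGroup (Fin 2) F) •
      (inf : ℙ F (Fin 2 → F)) = inf := by
  rw [gl_inf (uMat t) 1 0 (by simp [uMat, Matrix.GeneralLinearGroup.mkOfDetNeZero])
    (by simp [uMat, Matrix.GeneralLinearGroup.mkOfDetNeZero]) vec_ne']
  rfl

theorem d_pt (u : F) (hu : u ≠ 0) (k : F) :
    (Matrix.ProjGenLinGroup.mk (dMat u hu) : Matrix.ProjGenLinGroup (Fin 2) F) • pt k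
      = pt (u * k) := by
  rw [gl_pt (dMat u hu) k (u * k) 1 (by simp [dMat, Matrix.GeneralLinearGroup.mkOfDetNeZero])
    (by simp [dMat, Matrix.GeneralLinearGroup.mkOfDetNeZero]) (vec_ne _)]
  rfl

theorem d_inf (u : F) (hu : u ≠ 0) :
    (Matrix.ProjGenLinGroup.mk (dMat u hu) : Matrix.ProjGenLinGroup (Fin 2) F) •
      (inf : ℙ F (Fin 2 → F)) = inf := by
  have hv : (![u, 0] : Fin 2 → F) ≠ 0 := by
    intro h
    have := congrFun h 0
    simp at this
    exact hu this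
  rw [gl_inf (dMat u hu) u 0 (by simp [dMat, Matrix.GeneralLinearGroup.mkOfDetNeZero])
    (by simp [dMat, Matrix.GeneralLinearGroup.mkOfDetNeZero]) hv]
  exact mk_eq_inf u hu hv

theorem w_pt (k : F) (hk : k ≠ 0) :
    (Matrix.ProjGenLinGroup.mk wMat : Matrix.ProjGenLinGroup (Fin 2) F) • pt k = pt k⁻¹ := by
  have hv : (![1, k] : Fin 2 → F) ≠ 0 := by
    intro h
    have := congrFun h 0
    simp at this
  rw [gl_pt wMat k 1 k (by simp [wMat, Matrix.GeneralLinearGroup.mkOfDetNeZero])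
    (by simp [wMat, Matrix.GeneralLinearGroup.mkOfDetNeZero]) hv, mk_eq_pt 1 k hk, one_div]

theorem w_zero :
    (Matrix.ProjGenLinGroup.mk wMat : Matrix.ProjGenLinGroup (Fin 2) F) • pt (0 : F) = inf := by
  rw [gl_pt wMat 0 1 0 (by simp [wMat, Matrix.GeneralLinearGroup.mkOfDetNeZero])
    (by simp [wMat, Matrix.GeneralLinearGroup.mkOfDetNeZero]) vec_ne']
  rfl

theorem w_inf :
    (Matrix.ProjGenLinGroup.mk wMat : Matrix.ProjGenLinGroup (Fin 2) F) •
      (inf : ℙ F (Fin 2 → F)) = pt (0 : F) := by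
  rw [gl_inf wMat 0 1 (by simp [wMat, Matrix.GeneralLinearGroup.mkOfDetNeZero])
    (by simp [wMat, Matrix.GeneralLinearGroup.mkOfDetNeZero]) (vec_ne _)]
  rfl

end coords

section main

variable {α : Type*} [Fintype α] [DecidableEq α] {F : Type*} [Field F] [Fintype F]

/-- A sharply triply transitive permutation group containing, in suitable coordinates, all
translations, all dilations and the inversion is isomorphic to `PGL(2, F)`. -/
theorem pgl2_of_coords (G : Subgroup (Equiv.Perm α))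
    (hsh : ∀ g ∈ G, ∀ x y z : α, x ≠ y → x ≠ z → y ≠ z → g x = x → g y = y → g z = z → g = 1)
    (a b : α) (hab : a ≠ b) (κ : α → F)
    (hκinj : ∀ x y, x ≠ a → y ≠ a → κ x = κ y → x = y) (hκb : κ b = 0)
    (hcardα : Fintype.card α = Fintype.card F + 1)
    (P1 : ∀ t : F, ∃ g ∈ G, g a = a ∧ ∀ x, x ≠ a → κ (g x) = κ x + t)
    (P1' : ∀ u : F, u ≠ 0 → ∃ g ∈ G, g a = a ∧ ∀ x, x ≠ a → κ (g x) = u * κ x)
    (P2 : ∃ v ∈ G, v a = b ∧ v b = a ∧ ∀ x, x ≠ a → x ≠ b → κ (v x) = (κ x)⁻¹) :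
    Nonempty (G ≃* Matrix.ProjGenLinGroup (Fin 2) F) := by
  classical
  obtain ⟨γ, hγ⟩ : ∃ γ : α → ℙ F (Fin 2 → F), γ = fun x => if x = a then inf else pt (κ x) :=
    ⟨_, rfl⟩
  have hγa : γ a = inf := by rw [hγ]; simp
  have hγx : ∀ x, x ≠ a → γ x = pt (κ x) := by intro x hx; rw [hγ]; simp [hx]
  have hγinj : Function.Injective γ := by
    intro x y hxy
    by_cases hx : x = a
    · by_cases hy : y = a
      · rw [hx, hy]
      · rw [hx, hγa, hγx y hy] at hxy
        exact absurd hxy.symm (pt_ne_inf _)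
    · by_cases hy : y = a
      · rw [hy, hγa, hγx x hx] at hxy
        exact absurd hxy (pt_ne_inf _)
      · rw [hγx x hx, hγx y hy] at hxy
        exact hκinj x y hx hy (pt_inj hxy)
  have hcardP : Nat.card (ℙ F (Fin 2 → F)) = Fintype.card F + 1 := by
    rw [Projectivization.card_of_finrank_two F (Fin 2 → F) (by simp), Nat.card_eq_fintype_card]
  haveI hfin : Finite (ℙ F (Fin 2 → F)) := Nat.finite_of_card_ne_zero (by omega)
  have hγbij : Function.Bijective γ := by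
    rw [Nat.bijective_iff_injective_and_card]
    exact ⟨hγinj, by rw [Nat.card_eq_fintype_card, hcardα, hcardP]⟩
  obtain ⟨β, hβ⟩ : ∃ β : α ≃ ℙ F (Fin 2 → F), ∀ x, β x = γ x :=
    ⟨Equiv.ofBijective γ hγbij, fun x => rfl⟩
  obtain ⟨ψ, hψdef⟩ : ∃ ψ : Matrix.ProjGenLinGroup (Fin 2) F →* Equiv.Perm α,
      ψ = (Equiv.permCongrHom β.symm).toMonoidHom.comp
        (MulAction.toPermHom (Matrix.ProjGenLinGroup (Fin 2) F) (ℙ F (Fin 2 → F))) := ⟨_, rfl⟩
  have hψ : ∀ (M : Matrix.ProjGenLinGroup (Fin 2) F) (x : α), γ (ψ M x) = M • γ x := by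
    intro M x
    rw [← hβ, ← hβ, hψdef]
    show β (β.symm (M • β x)) = M • β x
    rw [Equiv.apply_symm_apply]
  have hψeq : ∀ (M : Matrix.ProjGenLinGroup (Fin 2) F) (g : Equiv.Perm α),
      (∀ x, M • γ x = γ (g x)) → ψ M = g := by
    intro M g h
    ext x
    apply hγinj
    rw [hψ, h]
  have hba : b ≠ a := fun h => hab h.symm
  have hU : ∀ t : F, ∃ g ∈ G ⊓ ψ.range, g a = a ∧ ∀ x, x ≠ a → κ (g x) = κ x + t := by
    intro t
    obtain ⟨g, hg, hga, hgx⟩ := P1 t
    refine ⟨g, ⟨hg, ⟨Matrix.ProjGenLinGroup.mk (uMat t), ?_⟩⟩, hga, hgx⟩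
    apply hψeq
    intro x
    by_cases hx : x = a
    · rw [hx, hga, hγa, u_inf]
    · have hgx' : g x ≠ a := fun h => hx (g.injective (h.trans hga.symm))
      rw [hγx x hx, hγx _ hgx', u_pt, hgx x hx]
  have hD : ∀ u : F, u ≠ 0 → ∃ g ∈ G ⊓ ψ.range, g a = a ∧ ∀ x, x ≠ a → κ (g x) = u * κ x := by
    intro u hu
    obtain ⟨g, hg, hga, hgx⟩ := P1' u hu
    refine ⟨g, ⟨hg, ⟨Matrix.ProjGenLinGroup.mk (dMat u hu), ?_⟩⟩, hga, hgx⟩
    apply hψeq
    intro x
    by_cases hx : x = a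
    · rw [hx, hga, hγa, d_inf]
    · have hgx' : g x ≠ a := fun h => hx (g.injective (h.trans hga.symm))
      rw [hγx x hx, hγx _ hgx', d_pt, hgx x hx]
  have hW : ∃ v ∈ G ⊓ ψ.range, v a = b ∧ v b = a := by
    obtain ⟨v, hv, hva, hvb, hvx⟩ := P2
    refine ⟨v, ⟨hv, ⟨Matrix.ProjGenLinGroup.mk wMat, ?_⟩⟩, hva, hvb⟩
    apply hψeq
    intro x
    by_cases hx : x = a
    · rw [hx, hva, hγa, hγx b hba, hκb, w_inf]
    · by_cases hxb : x = b
      · rw [hxb, hvb, hγa, hγx b hba, hκb, w_zero]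
      · have hvx' : v x ≠ a := fun h => hxb (v.injective (h.trans hvb.symm))
        have hk : κ x ≠ 0 := fun h => hxb (hκinj x b hx hba (h.trans hκb.symm))
        rw [hγx x hx, hγx _ hvx', w_pt _ hk, hvx x hx hxb]
  -- a third point
  obtain ⟨c₁, hc₁⟩ := hγbij.2 (pt 1)
  have hc₁a : c₁ ≠ a := by
    intro h
    rw [h, hγa] at hc₁
    exact pt_ne_inf _ hc₁.symm
  have hκc : κ c₁ = 1 := by
    rw [hγx c₁ hc₁a] at hc₁
    exact pt_inj hc₁
  have hc₁b : c₁ ≠ b := by
    intro h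
    rw [h, hκb] at hκc
    exact zero_ne_one hκc
  have htrans : ∀ x y z : α, x ≠ y → x ≠ z → y ≠ z →
      ∃ s ∈ G ⊓ ψ.range, s x = a ∧ s y = b ∧ s z = c₁ := by
    intro x y z hxy hxz hyz
    obtain ⟨s₁, hs₁, hs₁x⟩ : ∃ s₁ ∈ G ⊓ ψ.range, s₁ x = a := by
      by_cases hx : x = a
      · exact ⟨1, Subgroup.one_mem _, hx⟩
      · obtain ⟨g, hg, hga, hgx⟩ := hU (-κ x)
        obtain ⟨v, hv, hva, hvb⟩ := hW
        refine ⟨v * g, Subgroup.mul_mem _ hv hg, ?_⟩
        have h1 : g x = b := by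
          apply hκinj _ _ (fun h => hx (g.injective (h.trans hga.symm))) hba
          rw [hgx x hx, hκb, add_neg_cancel]
        rw [Equiv.Perm.mul_apply, h1, hvb]
    have hy1 : s₁ y ≠ a := fun h => hxy (s₁.injective (hs₁x.trans h.symm))
    obtain ⟨g, hg, hga, hgx⟩ := hU (-κ (s₁ y))
    have hgy : g (s₁ y) = b := by
      apply hκinj _ _ (fun h => hy1 (g.injective (h.trans hga.symm))) hba
      rw [hgx _ hy1, hκb, add_neg_cancel]
    have hz0 : s₁ z ≠ a := fun h => hxz (s₁.injective (hs₁x.trans h.symm))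
    have hz1 : g (s₁ z) ≠ a := fun h => hz0 (g.injective (h.trans hga.symm))
    have hz2 : g (s₁ z) ≠ b := fun h => hyz (s₁.injective (g.injective (hgy.trans h.symm)))
    have hκz : κ (g (s₁ z)) ≠ 0 := fun h => hz2 (hκinj _ _ hz1 hba (h.trans hκb.symm))
    obtain ⟨d, hd, hda, hdx⟩ := hD (κ (g (s₁ z)))⁻¹ (inv_ne_zero hκz)
    have hdb : d b = b := by
      apply hκinj _ _ (fun h => hba (d.injective (h.trans hda.symm))) hba
      rw [hdx b hba, hκb, mul_zero]
    have hdz : d (g (s₁ z)) = c₁ := by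
      apply hκinj _ _ (fun h => hz1 (d.injective (h.trans hda.symm))) hc₁a
      rw [hdx _ hz1, hκc, inv_mul_cancel₀ hκz]
    refine ⟨d * (g * s₁), Subgroup.mul_mem _ hd (Subgroup.mul_mem _ hg hs₁), ?_, ?_, ?_⟩
    · rw [Equiv.Perm.mul_apply, Equiv.Perm.mul_apply, hs₁x, hga, hda]
    · rw [Equiv.Perm.mul_apply, Equiv.Perm.mul_apply, hgy, hdb]
    · rw [Equiv.Perm.mul_apply, Equiv.Perm.mul_apply, hdz]
  have hM1 : ∀ M : Matrix.ProjGenLinGroup (Fin 2) F,
      ψ M a = a → ψ M b = b → ψ M c₁ = c₁ → M = 1 := by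
    intro M h1 h2 h3
    apply Cfsg.Agent.Lib.helper20.P1.pgl_sharp M (γ a) (γ b) (γ c₁) (fun h => hab (hγinj h))
      (fun h => hc₁a (hγinj h).symm) (fun h => hc₁b (hγinj h).symm)
    · rw [← hψ, h1]
    · rw [← hψ, h2]
    · rw [← hψ, h3]
  have hGle : ∀ g ∈ G, g ∈ ψ.range := by
    intro g hg
    obtain ⟨s, hs, hsa, hsb, hsc⟩ := htrans (g a) (g b) (g c₁) (fun h => hab (g.injective h))
      (fun h => hc₁a (g.injective h).symm) (fun h => hc₁b (g.injective h).symm)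
    have h1 : s * g = 1 := by
      apply hsh (s * g) (G.mul_mem hs.1 hg) a b c₁ hab (Ne.symm hc₁a) (Ne.symm hc₁b)
      · rw [Equiv.Perm.mul_apply, hsa]
      · rw [Equiv.Perm.mul_apply, hsb]
      · rw [Equiv.Perm.mul_apply, hsc]
    have h2 : g = s⁻¹ := eq_inv_of_mul_eq_one_right h1
    rw [h2]
    exact Subgroup.inv_mem _ hs.2
  have hHle : ∀ h ∈ ψ.range, h ∈ G := by
    intro h hh
    obtain ⟨s, hs, hsa, hsb, hsc⟩ := htrans (h a) (h b) (h c₁) (fun e => hab (h.injective e))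
      (fun e => hc₁a (h.injective e).symm) (fun e => hc₁b (h.injective e).symm)
    have h1 : s * h = 1 := by
      obtain ⟨M, hM⟩ := Subgroup.mul_mem _ hs.2 hh
      have hM' : M = 1 := by
        apply hM1 M
        · rw [hM, Equiv.Perm.mul_apply, hsa]
        · rw [hM, Equiv.Perm.mul_apply, hsb]
        · rw [hM, Equiv.Perm.mul_apply, hsc]
      rw [← hM, hM', map_one]
    have h2 : h = s⁻¹ := eq_inv_of_mul_eq_one_right h1
    rw [h2]
    exact G.inv_mem hs.1
  have hrange : ψ.range = G := le_antisymm (fun h hh => hHle h hh) (fun g hg => hGle g hg)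
  have hψinj : Function.Injective ψ := by
    rw [injective_iff_map_eq_one]
    intro M hM
    apply hM1 M
    · rw [hM]; rfl
    · rw [hM]; rfl
    · rw [hM]; rfl
  exact ⟨((MonoidHom.ofInjective hψinj).trans (MulEquiv.subgroupCongr hrange)).symm⟩

end main

end Cfsg.Agent.Lib.helper12.ShD
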