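import Mathlib
import Cfsg.Agent.Lib.helper1.FrobChar

set_option autoImplicit false

namespace Cfsg.Agent.Lib.helper12.ShE

open Cfsg
open scoped Pointwise

universe u v

/-- The Frobenius kernel of a point stabiliser of a sharply triply transitive group. -/
theorem sharp3_kernel {Γ : Type u} {α : Type v} [Group Γ] [Finite Γ] [MulAction Γ α]
    (h3t : ∀ a b c a' b' c' : α, a ≠ b → a ≠ c → b ≠ c → a' ≠ b' → a' ≠ c' → b' ≠ c' →
      ∃ g : Γ, g • a = a' ∧ g • b = b' ∧ g • c = c')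
    (hsh : ∀ g : Γ, ∀ a b c : α, a ≠ b → a ≠ c → b ≠ c → g • a = a → g • b = b → g • c = c →
      g = 1)
    (a b c d : α) (hab : a ≠ b) (hac : a ≠ c) (hbc : b ≠ c) (had : a ≠ d) (hbd : b ≠ d)
    (hcd : c ≠ d) :
    ∃ K : Subgroup Γ, (∀ u ∈ K, u • a = a) ∧ (∀ u ∈ K, u ≠ 1 → ∀ x : α, u • x = x → x = a) ∧
      (∀ g : Γ, g • a = a → ∀ u ∈ K, g * u * g⁻¹ ∈ K) ∧
      (∀ x : α, x ≠ a → ∃ u ∈ K, u • b = x) := by
  classical
  have h2t : ∀ x y : α, x ≠ a → y ≠ a → ∃ g : Γ, g • a = a ∧ g • x = y := by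
    intro x y hx hy
    obtain ⟨x', hx'a, hx'x⟩ : ∃ x' : α, x' ≠ a ∧ x' ≠ x := by
      by_cases h : x = b
      · exact ⟨c, Ne.symm hac, by rw [h]; exact Ne.symm hbc⟩
      · exact ⟨b, Ne.symm hab, Ne.symm h⟩
    obtain ⟨y', hy'a, hy'y⟩ : ∃ y' : α, y' ≠ a ∧ y' ≠ y := by
      by_cases h : y = b
      · exact ⟨c, Ne.symm hac, by rw [h]; exact Ne.symm hbc⟩
      · exact ⟨b, Ne.symm hab, Ne.symm h⟩
    obtain ⟨g, h1, h2, -⟩ := h3t a x x' a y y' (Ne.symm hx) (Ne.symm hx'a) (Ne.symm hx'x)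
      (Ne.symm hy) (Ne.symm hy'a) (Ne.symm hy'y)
    exact ⟨g, h1, h2⟩
  set M := MulAction.stabilizer Γ a with hM
  set E := (MulAction.stabilizer Γ a ⊓ MulAction.stabilizer Γ b : Subgroup Γ) with hE
  have hEM : E ≤ M := inf_le_left
  set EM : Subgroup M := E.subgroupOf M with hEMdef
  have hfrob : IsFrobeniusComplement EM := by
    refine ⟨?_, ?_, ?_⟩
    · intro h
      obtain ⟨g, hga, hgb, hgc⟩ := h3t a b c a b d hab hac hbc hab had hbd
      have hgE : g ∈ E := ⟨hga, hgb⟩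
      have hmem : (⟨g, hEM hgE⟩ : M) ∈ EM := by
        rw [hEMdef, Subgroup.mem_subgroupOf]
        exact hgE
      rw [h, Subgroup.mem_bot] at hmem
      have hg1 : g = 1 := congrArg Subtype.val hmem
      rw [hg1, one_smul] at hgc
      exact hcd hgc
    · intro h
      obtain ⟨x, hxa, hxb⟩ := h2t b c (Ne.symm hab) (Ne.symm hac)
      have hmem : (⟨x, hxa⟩ : M) ∈ EM := by
        rw [h]
        exact Subgroup.mem_top _
      rw [hEMdef, Subgroup.mem_subgroupOf] at hmem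
      have h1 : x • b = b := hmem.2
      exact hbc (h1.symm.trans hxb)
    · intro g hg
      rw [eq_bot_iff]
      intro k hk
      rw [Subgroup.mem_bot]
      obtain ⟨hk1, hk2⟩ := Subgroup.mem_inf.mp hk
      have hk1' : (k : Γ) ∈ E := by
        have := hk1
        rw [hEMdef, Subgroup.mem_subgroupOf] at this
        exact this
      have hk3 : g⁻¹ * k * g ∈ EM := by
        rw [Subgroup.mem_pointwise_smul_iff_inv_smul_mem] at hk2
        simpa [MulAut.smul_def, mul_assoc] using hk2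
      rw [hEMdef, Subgroup.mem_subgroupOf] at hk3
      have hgb : (g : Γ) • b ≠ b := by
        intro h
        apply hg
        rw [hEMdef, Subgroup.mem_subgroupOf]
        exact ⟨g.2, h⟩
      have hgba : (g : Γ) • b ≠ a := by
        intro h
        apply hab
        have : (g : Γ) • b = (g : Γ) • a := by rw [h]; exact g.2.symm
        exact (smul_left_cancel _ this).symm
      have hkgb : (k : Γ) • ((g : Γ) • b) = (g : Γ) • b := by
        have h1 : ((g : Γ)⁻¹ * (k : Γ) * (g : Γ)) • b = b := hk3.2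
        rw [mul_smul, mul_smul, inv_smul_eq_iff] at h1
        exact h1
      exact Subtype.ext
        (hsh (k : Γ) a b ((g : Γ) • b) hab (Ne.symm hgba) (Ne.symm hgb) hk1'.1 hk1'.2 hkgb)
  obtain ⟨Nk, hNset, hNn, hNc⟩ := Cfsg.Agent.Lib.helper1.frobenius_theorem EM hfrob
  refine ⟨Nk.map M.subtype, ?_, ?_, ?_, ?_⟩
  · intro x hx
    obtain ⟨y, _, rfl⟩ := Subgroup.mem_map.mp hx
    exact y.2
  · intro u hu hu1 x hx
    obtain ⟨u', hu', rfl⟩ := Subgroup.mem_map.mp hu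
    by_contra hxa
    have hu'1 : u' ≠ 1 := by
      intro h
      apply hu1
      rw [h]
      rfl
    have hK : u' ∈ Cfsg.frobeniusKernel EM := by
      rw [← hNset]
      exact hu'
    rcases hK with h1 | h1
    · exact hu'1 h1
    · obtain ⟨m, hma, hmb⟩ := h2t b x (Ne.symm hab) hxa
      apply h1 ⟨m, hma⟩
      rw [Subgroup.mem_pointwise_smul_iff_inv_smul_mem]
      have e1 : (MulAut.conj (⟨m, hma⟩ : M))⁻¹ • u' = (⟨m, hma⟩ : M)⁻¹ * u' * ⟨m, hma⟩ := by
        simp [MulAut.smul_def, mul_assoc]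
      rw [e1, hEMdef, Subgroup.mem_subgroupOf]
      refine ⟨?_, ?_⟩
      · exact ((⟨m, hma⟩ : M)⁻¹ * u' * ⟨m, hma⟩).2
      · show (m⁻¹ * (u' : Γ) * m) • b = b
        have hd' : (u' : Γ) • x = x := hx
        rw [mul_smul, mul_smul, hmb, hd', ← hmb, inv_smul_smul]
  · intro g hga u hu
    obtain ⟨u', hu', rfl⟩ := Subgroup.mem_map.mp hu
    exact Subgroup.mem_map.mpr
      ⟨(⟨g, hga⟩ : M) * u' * (⟨g, hga⟩ : M)⁻¹, hNn.conj_mem u' hu' _, rfl⟩
  · intro x hx
    obtain ⟨m, hma, hmb⟩ := h2t b x (Ne.symm hab) hx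
    obtain ⟨⟨n, e⟩, hne⟩ := hNc.2 (⟨m, hma⟩ : M)
    refine ⟨((n : M) : Γ), Subgroup.mem_map.mpr ⟨n, n.2, rfl⟩, ?_⟩
    have he : (((e : M) : Γ)) • b = b := by
      have h0 : (e : M) ∈ E.subgroupOf M := e.2
      exact (Subgroup.mem_subgroupOf.mp h0).2
    have h1 : ((n : M) : Γ) * ((e : M) : Γ) = m := congrArg Subtype.val hne
    rw [← hmb, ← h1, mul_smul, he]

end Cfsg.Agent.Lib.helper12.ShE
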