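import Mathlib
import Cfsg.Agent.Lib.helper12.ShA
import Cfsg.Agent.Lib.helper12.ShB

set_option autoImplicit false

namespace Cfsg.Agent.Lib.helper12.ShF

open Cfsg.Agent.Lib.helper12

universe u v

/-- A finite group normalised by a fixed-point-free involution is commutative. -/
theorem comm_of_invol_free {Γ : Type*} [Group Γ] (K : Subgroup Γ) [Finite K] (z : Γ)
    (hz2 : z * z = 1) (hzK : ∀ u ∈ K, z * u * z⁻¹ ∈ K)
    (hfree : ∀ u ∈ K, z * u * z⁻¹ = u → u = 1) :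
    ∀ u ∈ K, ∀ u' ∈ K, u * u' = u' * u := by
  have hinj : Function.Injective (fun k : ↥K =>
      (⟨(k : Γ)⁻¹ * (z * (k : Γ) * z⁻¹), K.mul_mem (K.inv_mem k.2) (hzK _ k.2)⟩ : ↥K)) := by
    intro k l hkl
    have h1 : (k : Γ)⁻¹ * (z * (k : Γ) * z⁻¹) = (l : Γ)⁻¹ * (z * (l : Γ) * z⁻¹) :=
      congrArg Subtype.val hkl
    have h2 : z * ((l : Γ) * (k : Γ)⁻¹) * z⁻¹ = (l : Γ) * (k : Γ)⁻¹ := by
      have h3 : z * (l : Γ) * z⁻¹ = (l : Γ) * ((k : Γ)⁻¹ * (z * (k : Γ) * z⁻¹)) := by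
        rw [h1]; group
      have h4 : z * ((l : Γ) * (k : Γ)⁻¹) * z⁻¹
          = (z * (l : Γ) * z⁻¹) * (z * (k : Γ) * z⁻¹)⁻¹ := by group
      rw [h4, h3]; group
    have h5 := hfree _ (K.mul_mem l.2 (K.inv_mem k.2)) h2
    apply Subtype.ext
    exact (mul_inv_eq_one.mp h5).symm
  have hsurj := Finite.injective_iff_surjective.mp hinj
  have hinvert : ∀ k ∈ K, z * k * z⁻¹ = k⁻¹ := by
    intro k hk
    obtain ⟨j, hj⟩ := hsurj ⟨k, hk⟩
    have h1 : (j : Γ)⁻¹ * (z * (j : Γ) * z⁻¹) = k := congrArg Subtype.val hj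
    rw [← h1]
    have h2 : z * ((j : Γ)⁻¹ * (z * (j : Γ) * z⁻¹)) * z⁻¹
        = (z * (j : Γ) * z⁻¹)⁻¹ * ((z * z) * (j : Γ) * (z * z)⁻¹) := by group
    rw [h2, hz2]; group
  intro k hk l hl
  have h1 : z * (k * l) * z⁻¹ = (k * l)⁻¹ := hinvert _ (K.mul_mem hk hl)
  have h2 : z * (k * l) * z⁻¹ = (z * k * z⁻¹) * (z * l * z⁻¹) := by group
  rw [h2, hinvert k hk, hinvert l hl] at h1
  have h3 := congrArg (fun x => x⁻¹) h1
  simp only [mul_inv_rev, inv_inv] at h3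
  exact h3.symm

/-- The field attached to a sharply triply transitive group of degree `p ^ f + 1`, `p` and `f`
odd. -/
theorem sharp3_struct {Γ : Type u} {α : Type v} [Group Γ] [Finite Γ] [MulAction Γ α] [Fintype α]
    [DecidableEq α] {p f : ℕ} (hp : p.Prime) (hp2 : p ≠ 2) (hfo : Odd f)
    (hα : Fintype.card α = p ^ f + 1)
    (h3t : ∀ a b c a' b' c' : α, a ≠ b → a ≠ c → b ≠ c → a' ≠ b' → a' ≠ c' → b' ≠ c' →
      ∃ g : Γ, g • a = a' ∧ g • b = b' ∧ g • c = c')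
    (hsh : ∀ g : Γ, ∀ a b c : α, a ≠ b → a ≠ c → b ≠ c → g • a = a → g • b = b → g • c = c →
      g = 1)
    (a b c : α) (hab : a ≠ b) (hac : a ≠ c) (hbc : b ≠ c)
    (K : Subgroup Γ) (hKa : ∀ u ∈ K, u • a = a)
    (hKfix : ∀ u ∈ K, u ≠ 1 → ∀ x : α, u • x = x → x = a)
    (hKn : ∀ g : Γ, g • a = a → ∀ u ∈ K, g * u * g⁻¹ ∈ K)
    (hKtr : ∀ x : α, x ≠ a → ∃ u ∈ K, u • b = x)
    (v : Γ) (hva : v • a = b) (hvb : v • b = a) (hvc : v • c = c) :
    ∃ (F : Type) (_ : Field F) (_ : Fintype F) (φ : F → Γ), Fintype.card F = p ^ f ∧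
      (∀ t, φ t ∈ K) ∧ Function.Injective φ ∧ (∀ w ∈ K, ∃ t, φ t = w) ∧ φ 0 = 1 ∧
      φ 1 • b = c ∧ (∀ s t, φ (s + t) = φ s * φ t) ∧
      (∀ u : F, u ≠ 0 → ∃ h : Γ, h • a = a ∧ h • b = b ∧ ∀ t, φ (u * t) = h * φ t * h⁻¹) := by
  classical
  haveI : Fact p.Prime := ⟨hp⟩
  have hf0 : f ≠ 0 := by
    obtain ⟨k, hk⟩ := hfo
    omega
  have hqodd : Odd (p ^ f) := (hp.odd_of_ne_two hp2).pow
  have hKb : ∀ w ∈ K, w • b = b → w = 1 := by
    intro w hw hwb
    by_contra h1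
    exact hab (hKfix w hw h1 b hwb).symm
  have hKba : ∀ u ∈ K, u • b ≠ a := by
    intro u hu h
    apply hab
    have h1 : u • b = u • a := by rw [h, hKa u hu]
    exact (smul_left_cancel _ h1).symm
  have hwb : ∀ w ∈ K, w ≠ 1 → w • b ≠ a ∧ w • b ≠ b :=
    fun w hw hw1 => ⟨hKba w hw, fun h => hw1 (hKb w hw h)⟩
  have hcardK : Nat.card K = p ^ f := by
    have hbij : Function.Bijective
        (fun u : ↥K => (⟨(u : Γ) • b, hKba u u.2⟩ : {x : α // x ≠ a})) := by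
      constructor
      · intro u u' huu
        have h1 : (u : Γ) • b = (u' : Γ) • b := congrArg Subtype.val huu
        have h2 : ((u' : Γ)⁻¹ * (u : Γ)) • b = b := by rw [mul_smul, h1, inv_smul_smul]
        have h3 := hKb _ (K.mul_mem (K.inv_mem u'.2) u.2) h2
        exact Subtype.ext (inv_mul_eq_one.mp h3).symm
      · rintro ⟨x, hx⟩
        obtain ⟨u, hu, hux⟩ := hKtr x hx
        exact ⟨⟨u, hu⟩, Subtype.ext hux⟩
    rw [Nat.card_congr (Equiv.ofBijective _ hbij), Nat.card_eq_fintype_card,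
      Fintype.card_subtype_compl, Fintype.card_subtype_eq, hα]
    rfl
  obtain ⟨E, hEmem⟩ : ∃ E : Subgroup Γ, ∀ h, h ∈ E ↔ h • a = a ∧ h • b = b :=
    ⟨MulAction.stabilizer Γ a ⊓ MulAction.stabilizer Γ b, fun h => by
      rw [Subgroup.mem_inf]; rfl⟩
  have hn : ∀ h ∈ E, ∀ u ∈ K, h * u * h⁻¹ ∈ K :=
    fun h hh u hu => hKn h ((hEmem h).mp hh).1 u hu
  have hEinv : ∀ h ∈ E, h⁻¹ • b = b := by
    intro h hh
    rw [inv_smul_eq_iff, ((hEmem h).mp hh).2]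
  obtain ⟨u₁, hu₁, hu₁b⟩ := hKtr c (Ne.symm hac)
  have hu₁1 : u₁ ≠ 1 := by
    rintro rfl
    rw [one_smul] at hu₁b
    exact hbc hu₁b
  have hEfree : ∀ h ∈ E, ∀ x : α, x ≠ a → x ≠ b → h • x = x → h = 1 := by
    intro h hh x hxa hxb hx
    obtain ⟨h1, h2⟩ := (hEmem h).mp hh
    exact hsh h a b x hab (Ne.symm hxa) (Ne.symm hxb) h1 h2 hx
  have hr : ∀ w ∈ K, w ≠ 1 → ∃ h ∈ E, h * u₁ * h⁻¹ = w := by
    intro w hw hw1
    obtain ⟨hwa, hwb'⟩ := hwb w hw hw1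
    obtain ⟨h, h1, h2, h3⟩ := h3t a b c a b (w • b) hab hac hbc hab (Ne.symm hwa) (Ne.symm hwb')
    have hh : h ∈ E := (hEmem h).mpr ⟨h1, h2⟩
    refine ⟨h, hh, ?_⟩
    have h4 : (w⁻¹ * (h * u₁ * h⁻¹)) • b = b := by
      rw [mul_smul, mul_smul, mul_smul, hEinv h hh, hu₁b, h3, inv_smul_smul]
    have h5 := hKb _ (K.mul_mem (K.inv_mem hw) (hn h hh u₁ hu₁)) h4
    exact (inv_mul_eq_one.mp h5).symm
  have hfreeK : ∀ h ∈ E, ∀ u ∈ K, u ≠ 1 → h * u * h⁻¹ = u → h = 1 := by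
    intro h hh u hu hu1 heq
    obtain ⟨hua, hub⟩ := hwb u hu hu1
    apply hEfree h hh (u • b) hua hub
    have e : h • u • b = (h * u * h⁻¹) • h • b := by rw [mul_smul, mul_smul, inv_smul_smul]
    rw [e, heq, ((hEmem h).mp hh).2]
  have hr' : ∀ h ∈ E, h * u₁ * h⁻¹ = u₁ → h = 1 :=
    fun h hh heq => hfreeK h hh u₁ hu₁ hu₁1 heq
  obtain ⟨z, hzE, hzu⟩ := hr u₁⁻¹ (K.inv_mem hu₁) (fun h => hu₁1 (inv_eq_one.mp h))
  have hzz : z * z = 1 := by
    apply hfreeK (z * z) (E.mul_mem hzE hzE) u₁ hu₁ hu₁1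
    have e : z * z * u₁ * (z * z)⁻¹ = z * (z * u₁ * z⁻¹) * z⁻¹ := by group
    rw [e, hzu]
    have e2 : z * u₁⁻¹ * z⁻¹ = (z * u₁ * z⁻¹)⁻¹ := by group
    rw [e2, hzu, inv_inv]
  have hpowK : ∀ u ∈ K, u ^ (p ^ f) = 1 := by
    intro u hu
    have h1 : (⟨u, hu⟩ : ↥K) ^ Nat.card K = 1 := pow_card_eq_one'
    rw [hcardK] at h1
    have h2 := congrArg Subtype.val h1
    simpa using h2
  have hz1 : z ≠ 1 := by
    intro hz
    rw [hz, one_mul, inv_one, mul_one] at hzu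
    have huu : u₁ * u₁ = 1 := by
      nth_rewrite 2 [hzu]
      exact mul_inv_cancel u₁
    obtain ⟨k, hk⟩ := hqodd
    have h1 := hpowK u₁ hu₁
    rw [hk, pow_succ, pow_mul, pow_two, huu, one_pow, one_mul] at h1
    exact hu₁1 h1
  have hzfree : ∀ u ∈ K, z * u * z⁻¹ = u → u = 1 := by
    intro u hu heq
    by_contra hu1
    exact hz1 (hfreeK z hzE u hu hu1 heq)
  have hKc := comm_of_invol_free K z hzz (hn z hzE) hzfree
  have hKp : ∀ u ∈ K, u ^ p = 1 := by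
    have hdvd : p ∣ Nat.card K := by
      rw [hcardK]
      exact dvd_pow_self p hf0
    obtain ⟨u₀, ho⟩ := exists_prime_orderOf_dvd_card' p hdvd
    have hu₀1 : (u₀ : Γ) ≠ 1 := by
      intro h
      have h1 : u₀ = 1 := Subtype.ext h
      rw [h1, orderOf_one] at ho
      exact hp.one_lt.ne ho
    have hu₀p : (u₀ : Γ) ^ p = 1 := by
      have h1 : u₀ ^ p = 1 := by
        rw [← ho]
        exact pow_orderOf_eq_one u₀
      have h2 := congrArg Subtype.val h1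
      simpa using h2
    obtain ⟨h₀, hh₀, hh₀u⟩ := hr (u₀ : Γ) u₀.2 hu₀1
    have hu₁p : u₁ ^ p = 1 := by
      have e : u₁ = h₀⁻¹ * (u₀ : Γ) * h₀⁻¹⁻¹ := by rw [← hh₀u]; group
      rw [e, conj_pow, hu₀p]
      group
    intro w hw
    by_cases hw1 : w = 1
    · rw [hw1, one_pow]
    · obtain ⟨h, hh, hhw⟩ := hr w hw hw1
      rw [← hhw, conj_pow, hu₁p]
      group
  letI hCG : CommGroup ↥K := { (inferInstance : Group ↥K) with
    mul_comm := fun x y => Subtype.ext (hKc x x.2 y y.2) }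
  have hVp : ∀ x : Additive ↥K, p • x = 0 := by
    intro x
    apply Additive.toMul.injective
    apply Subtype.ext
    show ((Additive.toMul x : ↥K) : Γ) ^ p = 1
    exact hKp _ (Additive.toMul x).2
  haveI hMod : Module (ZMod p) (Additive ↥K) := AddCommGroup.zmodModule hVp
  haveI hfinV : Finite (Additive ↥K) := inferInstanceAs (Finite ↥K)
  have hrank : Module.finrank (ZMod p) (Additive ↥K) = f := by
    have h1 := Module.natCard_eq_pow_finrank (K := ZMod p) (V := Additive ↥K)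
    have h2 : Nat.card (Additive ↥K) = p ^ f := hcardK
    rw [h2, Nat.card_zmod] at h1
    exact (Nat.pow_right_injective hp.two_le h1).symm
  obtain ⟨ρ, hρ⟩ : ∃ ρ : ↥E →* (Additive ↥K →ₗ[ZMod p] Additive ↥K),
      ∀ (h : ↥E) (x : Additive ↥K), ((Additive.toMul (ρ h x) : ↥K) : Γ)
        = (h : Γ) * ((Additive.toMul x : ↥K) : Γ) * (h : Γ)⁻¹ := by
    let cj : ↥E → (↥K →* ↥K) := fun h =>
      { toFun := fun u => ⟨(h : Γ) * (u : Γ) * (h : Γ)⁻¹, hn h h.2 u u.2⟩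
        map_one' := by
          apply Subtype.ext
          show (h : Γ) * ((1 : ↥K) : Γ) * (h : Γ)⁻¹ = ((1 : ↥K) : Γ)
          rw [Subgroup.coe_one]
          group
        map_mul' := by
          intro x y
          apply Subtype.ext
          show (h : Γ) * ((x * y : ↥K) : Γ) * (h : Γ)⁻¹
            = ((h : Γ) * (x : Γ) * (h : Γ)⁻¹) * ((h : Γ) * (y : Γ) * (h : Γ)⁻¹)
          rw [Subgroup.coe_mul]
          group }
    refine ⟨{ toFun := fun h => AddMonoidHom.toZModLinearMap p (MonoidHom.toAdditive (cj h))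
              map_one' := ?_
              map_mul' := ?_ }, fun h x => rfl⟩
    · apply LinearMap.ext
      intro x
      apply Additive.toMul.injective
      apply Subtype.ext
      show ((1 : ↥E) : Γ) * ((Additive.toMul x : ↥K) : Γ) * ((1 : ↥E) : Γ)⁻¹
        = ((Additive.toMul x : ↥K) : Γ)
      rw [Subgroup.coe_one]
      group
    · intro h h'
      apply LinearMap.ext
      intro x
      apply Additive.toMul.injective
      apply Subtype.ext
      show ((h * h' : ↥E) : Γ) * ((Additive.toMul x : ↥K) : Γ) * ((h * h' : ↥E) : Γ)⁻¹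
        = (h : Γ) * ((h' : Γ) * ((Additive.toMul x : ↥K) : Γ) * (h' : Γ)⁻¹) * (h : Γ)⁻¹
      rw [Subgroup.coe_mul]
      group
  have hρfree : ∀ h : ↥E, h ≠ 1 → ∀ x : Additive ↥K, ρ h x = x → x = 0 := by
    intro h hh1 x hx
    by_contra hx0
    have hu1 : ((Additive.toMul x : ↥K) : Γ) ≠ 1 := by
      intro h1
      apply hx0
      apply Additive.toMul.injective
      exact Subtype.ext h1
    have h2 : (h : Γ) * ((Additive.toMul x : ↥K) : Γ) * (h : Γ)⁻¹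
        = ((Additive.toMul x : ↥K) : Γ) := by
      rw [← hρ, hx]
    exact hh1 (Subtype.ext (hfreeK h h.2 _ (Additive.toMul x).2 hu1 h2))
  have hvv : v * v = 1 := by
    apply hsh (v * v) a b c hab hac hbc
    · rw [mul_smul, hva, hvb]
    · rw [mul_smul, hvb, hva]
    · rw [mul_smul, hvc, hvc]
  have hvinv : v⁻¹ = v := inv_eq_of_mul_eq_one_left hvv
  have hv1 : v ≠ 1 := by
    rintro rfl
    rw [one_smul] at hva
    exact hab hva
  have hσmem : ∀ h ∈ E, v * h * v⁻¹ ∈ E := by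
    intro h hh
    obtain ⟨h1, h2⟩ := (hEmem h).mp hh
    rw [hEmem, hvinv]
    constructor
    · rw [mul_smul, mul_smul, hva, h2, hvb]
    · rw [mul_smul, mul_smul, hvb, h1, hva]
  have hvconj : ∀ g : Γ, v * (v * g * v⁻¹) * v⁻¹ = g := by
    intro g
    have e : v * (v * g * v⁻¹) * v⁻¹ = (v * v) * g * (v * v)⁻¹ := by group
    rw [e, hvv]
    group
  obtain ⟨σ, hσdef⟩ : ∃ σ : ↥E ≃* ↥E, ∀ h : ↥E, ((σ h : ↥E) : Γ) = v * (h : Γ) * v⁻¹ := by
    refine ⟨{ toFun := fun h => ⟨v * (h : Γ) * v⁻¹, hσmem h h.2⟩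
              invFun := fun h => ⟨v * (h : Γ) * v⁻¹, hσmem h h.2⟩
              left_inv := ?_
              right_inv := ?_
              map_mul' := ?_ }, fun h => rfl⟩
    · intro h
      apply Subtype.ext
      exact hvconj _
    · intro h
      apply Subtype.ext
      exact hvconj _
    · intro h h'
      apply Subtype.ext
      show v * ((h * h' : ↥E) : Γ) * v⁻¹ = (v * (h : Γ) * v⁻¹) * (v * (h' : Γ) * v⁻¹)
      rw [Subgroup.coe_mul]
      group
  have hσσ : ∀ h : ↥E, σ (σ h) = h := by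
    intro h
    apply Subtype.ext
    rw [hσdef, hσdef]
    exact hvconj _
  have hσfix : ∀ h : ↥E, σ h = h → h * h = 1 := by
    intro h hh
    have hcomm : v * (h : Γ) = (h : Γ) * v := by
      have h1 : v * (h : Γ) * v⁻¹ = (h : Γ) := by rw [← hσdef, hh]
      calc v * (h : Γ) = (v * (h : Γ) * v⁻¹) * v := by group
        _ = (h : Γ) * v := by rw [h1]
    have hf1 : v • ((h : Γ) • c) = (h : Γ) • c := by rw [← mul_smul, hcomm, mul_smul, hvc]
    have hf2 : v • ((h : Γ) • (h : Γ) • c) = (h : Γ) • (h : Γ) • c := by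
      rw [← mul_smul, hcomm, mul_smul, hf1]
    have hca : c ≠ a := Ne.symm hac
    have hcb : c ≠ b := Ne.symm hbc
    by_cases e1 : (h : Γ) • c = c
    · have h1 : (h : Γ) = 1 := hEfree _ h.2 c hca hcb e1
      have h2 : h = 1 := Subtype.ext h1
      rw [h2, mul_one]
    · by_cases e2 : (h : Γ) • (h : Γ) • c = c
      · have h3 : (h : Γ) * (h : Γ) = 1 :=
          hEfree _ (E.mul_mem h.2 h.2) c hca hcb (by rw [mul_smul]; exact e2)
        exact Subtype.ext h3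
      · exfalso
        by_cases e3 : (h : Γ) • (h : Γ) • c = (h : Γ) • c
        · exact e1 (smul_left_cancel _ e3)
        · exact hv1 (hsh v c ((h : Γ) • c) ((h : Γ) • (h : Γ) • c) (Ne.symm e1) (Ne.symm e2)
            (Ne.symm e3) hvc hf1 hf2)
  have hEcomm := comm_of_free_odd hp2 (by rw [hrank]; exact hfo) ρ hρfree σ hσσ hσfix
  have hEc : ∀ h ∈ E, ∀ h' ∈ E, h * h' = h' * h :=
    fun h hh h' hh' => congrArg Subtype.val (hEcomm ⟨h, hh⟩ ⟨h', hh'⟩)
  obtain ⟨F, hF, hFt, φ, hφK, hφinj, hφsurj, hφ0, hφ1, hφadd, hφmul⟩ :=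
    field_of_regular K E hKc hEc hn u₁ hu₁ hu₁1 hr hr'
  refine ⟨F, hF, hFt, φ, ?_, hφK, hφinj, hφsurj, hφ0, ?_, hφadd, ?_⟩
  · have hbij : Function.Bijective (fun t : F => (⟨φ t, hφK t⟩ : ↥K)) :=
      ⟨fun s t h => hφinj (congrArg Subtype.val h), fun w => by
        obtain ⟨t, ht⟩ := hφsurj w w.2
        exact ⟨t, Subtype.ext ht⟩⟩
    rw [← Nat.card_eq_fintype_card, Nat.card_congr (Equiv.ofBijective _ hbij), hcardK]
  · rw [hφ1, hu₁b]
  · intro u hu
    have h1 : φ u ≠ 1 := by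
      intro h
      rw [← hφ0] at h
      exact hu (hφinj h)
    obtain ⟨h, hh, hhu⟩ := hr (φ u) (hφK u) h1
    obtain ⟨ha, hb⟩ := (hEmem h).mp hh
    exact ⟨h, ha, hb, fun t => hφmul h hh u t hhu.symm⟩

end Cfsg.Agent.Lib.helper12.ShF
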