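import Mathlib
import Cfsg.Agent.Lib.helper12.ShC
import Cfsg.Agent.Lib.helper12.ShD
import Cfsg.Agent.Lib.helper12.ShE
import Cfsg.Agent.Lib.helper12.ShF

set_option autoImplicit false

namespace Cfsg.Agent.Lib.helper12.ShG

open Cfsg.Agent.Lib.helper12

universe u

/-- In coordinates, the element swapping the two base points acts as the inversion. -/
theorem sharp3_inversion {Γ : Type*} {α : Type*} [Group Γ] [MulAction Γ α] {F : Type*} [Field F]
    [Fintype F] (h2 : (2 : F) ≠ 0)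
    (hsh : ∀ g : Γ, ∀ a b c : α, a ≠ b → a ≠ c → b ≠ c → g • a = a → g • b = b → g • c = c →
      g = 1)
    (a b : α) (hab : a ≠ b) (φ : F → Γ)
    (hφa : ∀ t, φ t • a = a)
    (hφfix : ∀ t, t ≠ 0 → ∀ x : α, φ t • x = x → x = a)
    (hφ0 : φ 0 = 1) (hφadd : ∀ s t, φ (s + t) = φ s * φ t)
    (hφtr : ∀ x : α, x ≠ a → ∃ t, φ t • b = x)
    (hmulE : ∀ u : F, u ≠ 0 → ∃ h : Γ, h • a = a ∧ h • b = b ∧ ∀ t, φ (u * t) = h * φ t * h⁻¹)
    (v : Γ) (hva : v • a = b) (hvb : v • b = a) (hvc : v • (φ 1 • b) = φ 1 • b) :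
    ∀ t : F, t ≠ 0 → v • (φ t • b) = φ t⁻¹ • b := by
  classical
  obtain ⟨pt, hpt⟩ : ∃ pt : F → α, ∀ t, pt t = φ t • b := ⟨fun t => φ t • b, fun _ => rfl⟩
  have hpt0 : pt 0 = b := by rw [hpt, hφ0, one_smul]
  have hT : ∀ s t, φ s • pt t = pt (s + t) := by
    intro s t
    rw [hpt, hpt, hφadd, mul_smul]
  have hpta : ∀ t, pt t ≠ a := by
    intro t h
    apply hab
    have h1 : φ t • b = φ t • a := by rw [← hpt, h, hφa]
    exact (smul_left_cancel _ h1).symm
  have hptinj : ∀ s t, pt s = pt t → s = t := by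
    intro s t h
    by_contra hne
    have h1 : φ (s - t) • pt t = pt t := by rw [hT, sub_add_cancel, h]
    exact hpta t (hφfix (s - t) (sub_ne_zero.mpr hne) _ h1)
  have hptb : ∀ t, t ≠ 0 → pt t ≠ b := by
    intro t ht h
    rw [← hpt0] at h
    exact ht (hptinj _ _ h)
  have heq : ∀ g g' : Γ, ∀ x y z : α, x ≠ y → x ≠ z → y ≠ z → g • x = g' • x →
      g • y = g' • y → g • z = g' • z → g = g' := by
    intro g g' x y z hxy hxz hyz h1 h2 h3
    have h4 : g'⁻¹ * g = 1 := by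
      apply hsh _ x y z hxy hxz hyz
      · rw [mul_smul, h1, inv_smul_smul]
      · rw [mul_smul, h2, inv_smul_smul]
      · rw [mul_smul, h3, inv_smul_smul]
    exact (inv_mul_eq_one.mp h4).symm
  have hvv : v * v = 1 := by
    apply hsh (v * v) a b (pt 1) hab (Ne.symm (hpta 1)) (Ne.symm (hptb 1 one_ne_zero))
    · rw [mul_smul, hva, hvb]
    · rw [mul_smul, hvb, hva]
    · rw [mul_smul, hpt, hvc, hvc]
  have hvvx : ∀ x : α, v • v • x = x := by
    intro x
    rw [← mul_smul, hvv, one_smul]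
  have hv1 : v ≠ 1 := by
    rintro rfl
    rw [one_smul] at hva
    exact hab hva
  have hErule : ∀ (u : F) (h : Γ), h • b = b → (∀ t, φ (u * t) = h * φ t * h⁻¹) →
      ∀ t, h • pt t = pt (u * t) := by
    intro u h hb hh t
    have hib : h⁻¹ • b = b := by rw [inv_smul_eq_iff, hb]
    rw [hpt, hpt, hh, mul_smul, mul_smul, hib]
  have hvpt : ∀ t : F, t ≠ 0 → v • pt t ≠ a := by
    intro t ht h
    apply hptb t ht
    have h1 : v • pt t = v • b := by rw [h, hvb]
    exact smul_left_cancel _ h1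
  have hex : ∀ t : F, ∃ s : F, t ≠ 0 → pt s = v • pt t := by
    intro t
    by_cases ht : t = 0
    · exact ⟨0, fun h => absurd ht h⟩
    · obtain ⟨s, hs⟩ := hφtr _ (hvpt t ht)
      exact ⟨s, fun _ => by rw [hpt]; exact hs⟩
  choose σ hσ using hex
  have hσne : ∀ x, x ≠ 0 → σ x ≠ 0 := by
    intro x hx h0
    have h1 := hσ x hx
    rw [h0, hpt0] at h1
    have h2 : v • pt x = v • a := by rw [← h1, hva]
    exact hpta x (smul_left_cancel _ h2)
  have hσinv : ∀ x, x ≠ 0 → σ (σ x) = x := by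
    intro x hx
    apply hptinj
    rw [hσ _ (hσne x hx), hσ x hx, hvvx]
  have hσ1 : σ 1 = 1 := by
    apply hptinj
    rw [hσ 1 one_ne_zero, hpt, hvc]
  have hσmul : ∀ x y, x ≠ 0 → y ≠ 0 → σ (x * y) = σ x * σ y := by
    intro x y hx hy
    obtain ⟨h, hha, hhb, hh⟩ := hmulE x hx
    obtain ⟨h₂, h₂a, h₂b, hh₂⟩ := hmulE (σ x) (hσne x hx)
    have hr1 := hErule x h hhb hh
    have hr2 := hErule (σ x) h₂ h₂b hh₂
    have hg : ∀ t : F, t ≠ 0 → (v * h * v) • pt (σ t) = pt (σ (x * t)) := by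
      intro t ht
      rw [mul_smul, mul_smul, hσ t ht, hvvx, hr1, hσ _ (mul_ne_zero hx ht)]
    have hgeq : v * h * v = h₂ := by
      apply heq _ _ a b (pt 1) hab (Ne.symm (hpta 1)) (Ne.symm (hptb 1 one_ne_zero))
      · rw [mul_smul, mul_smul, hva, hhb, hvb, h₂a]
      · rw [mul_smul, mul_smul, hvb, hha, hva, h₂b]
      · have h1 := hg 1 one_ne_zero
        rw [hσ1, mul_one] at h1
        rw [h1, hr2, mul_one]
    have h3 := hg y hy
    rw [hgeq, hr2] at h3
    exact (hptinj _ _ h3).symm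
  have hσm1 := kt_neg_one h2 σ hσmul hσne hσinv
  have hσneg := kt_neg h2 σ hσmul hσne hσinv
  have hσi := kt_inv' σ hσmul hσne
  have hm1 : (-1 : F) ≠ 0 := neg_ne_zero.mpr one_ne_zero
  have h1m1 : (1 : F) ≠ -1 := by
    intro h
    apply h2
    have h3 : (1 : F) + 1 = 0 := by
      nth_rewrite 2 [h]
      exact add_neg_cancel 1
    rw [← one_add_one_eq_two]
    exact h3
  have hσfix : ∀ x, x ≠ 0 → σ x = x → x = 1 ∨ x = -1 := by
    intro x hx hfx
    by_contra hcon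
    push Not at hcon
    have f1 : v • pt x = pt x := by rw [← hσ x hx, hfx]
    have f2 : v • pt 1 = pt 1 := by rw [← hσ 1 one_ne_zero, hσ1]
    have f3 : v • pt (-1) = pt (-1) := by rw [← hσ (-1) hm1, hσm1]
    exact hv1 (hsh v (pt x) (pt 1) (pt (-1)) (fun h => hcon.1 (hptinj _ _ h))
      (fun h => hcon.2 (hptinj _ _ h)) (fun h => h1m1 (hptinj _ _ h)) f1 f2 f3)
  have hK : ∀ b' w, b' ≠ 0 → w ≠ 0 → w + σ b' ≠ 0 →
      σ (σ w + b') = σ b' - (σ b' / b') * σ (w + σ b') := by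
    intro b' w hb' hw hwd
    obtain ⟨d, hd⟩ : ∃ d : F, d = σ b' := ⟨_, rfl⟩
    rw [← hd] at hwd ⊢
    have hd0 : d ≠ 0 := by rw [hd]; exact hσne b' hb'
    have hσd : σ d = b' := by rw [hd]; exact hσinv b' hb'
    obtain ⟨cc, hcc⟩ : ∃ cc : F, cc = -b' / d := ⟨_, rfl⟩
    have hcc0 : cc ≠ 0 := by rw [hcc]; exact div_ne_zero (neg_ne_zero.mpr hb') hd0
    have hccd : cc * d = -b' := by rw [hcc]; field_simp
    obtain ⟨h, hha, hhb, hh⟩ := hmulE cc hcc0
    have hr := hErule cc h hhb hh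
    have hva' : v • a = pt 0 := by rw [hpt0]; exact hva
    have hv0 : v • pt 0 = a := by rw [hpt0]; exact hvb
    have hh0 : h • pt 0 = pt 0 := by rw [hpt0]; exact hhb
    have hgeq : v * φ b' * v = φ d * v * h * φ d := by
      apply heq _ _ a (pt 0) (pt (-d)) (Ne.symm (hpta 0)) (Ne.symm (hpta _))
        (fun e => neg_ne_zero.mpr hd0 (hptinj _ _ e).symm)
      · rw [mul_smul, mul_smul, mul_smul, mul_smul, mul_smul, hva', hφa, hha, hva', hT, hT,
          add_zero, add_zero, ← hσ b' hb', ← hd]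
      · rw [mul_smul, mul_smul, mul_smul, mul_smul, mul_smul, hv0, hφa, hva', hT, add_zero, hr,
          hccd, ← hσ (-b') (neg_ne_zero.mpr hb'), hσneg b' hb', ← hd, hT, add_neg_cancel]
      · rw [mul_smul, mul_smul, mul_smul, mul_smul, mul_smul, ← hσ (-d) (neg_ne_zero.mpr hd0),
          hσneg d hd0, hσd, hT, hT, add_neg_cancel, add_neg_cancel, hh0, hv0, hφa]
    have hdw : d + w ≠ 0 := by rw [add_comm]; exact hwd
    have e2 : (φ d * v * h * φ d) • pt w = pt (d + σ (cc * (d + w))) := by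
      rw [mul_smul, mul_smul, mul_smul, hT, hr, ← hσ _ (mul_ne_zero hcc0 hdw), hT]
    have e1 : (v * φ b' * v) • pt w = v • pt (b' + σ w) := by
      rw [mul_smul, mul_smul, ← hσ w hw, hT]
    have hne : b' + σ w ≠ 0 := by
      intro h0
      rw [h0, hv0, hgeq, e2] at e1
      exact hpta _ e1
    rw [← hσ _ hne, hgeq, e2] at e1
    have e3 := hptinj _ _ e1
    have hσcc : σ cc = -d / b' := by
      rw [hcc]
      simp only [div_eq_mul_inv]
      rw [hσmul _ _ (neg_ne_zero.mpr hb') (inv_ne_zero hd0), hσneg b' hb', hσi d hd0, hσd, ← hd]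
    rw [hσmul _ _ hcc0 hdw, hσcc] at e3
    rw [add_comm (σ w) b', ← e3, add_comm w d]
    ring
  have hmain := kt_main h2 σ hσmul hσne hσinv hσfix hK
  intro t ht
  rw [← hpt, ← hpt, ← hσ t ht, hmain t ht]

theorem exists_fourth' {α : Type*} [Fintype α] [DecidableEq α] (h : 4 ≤ Fintype.card α)
    (a b c : α) : ∃ d, d ≠ a ∧ d ≠ b ∧ d ≠ c := by
  by_contra hcon
  push Not at hcon
  have h1 : (Finset.univ : Finset α) ⊆ {a, b, c} := by
    intro x _
    simp only [Finset.mem_insert, Finset.mem_singleton]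
    by_cases hxa : x = a
    · exact Or.inl hxa
    · by_cases hxb : x = b
      · exact Or.inr (Or.inl hxb)
      · exact Or.inr (Or.inr (hcon x hxa hxb))
  have h2 := Finset.card_le_card h1
  rw [Finset.card_univ] at h2
  have h3 : ({a, b, c} : Finset α).card ≤ 3 := Finset.card_le_three
  omega

/-- A sharply triply transitive group of degree `p ^ f + 1` with `p` and `f` odd is
`PGL(2, p ^ f)`. -/
theorem sharp3_odd {α : Type u} [Fintype α] [DecidableEq α] (G : Subgroup (Equiv.Perm α))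
    {p f : ℕ} (hp : p.Prime) (hp2 : p ≠ 2) (hfo : Odd f) (hα : Fintype.card α = p ^ f + 1)
    (h3t0 : ∀ a b c a' b' c' : α, a ≠ b → a ≠ c → b ≠ c → a' ≠ b' → a' ≠ c' → b' ≠ c' →
      ∃ g ∈ G, g a = a' ∧ g b = b' ∧ g c = c')
    (hsh0 : ∀ g ∈ G, ∀ a b c : α, a ≠ b → a ≠ c → b ≠ c → g a = a → g b = b → g c = c →
      g = 1) :
    ∃ (F : Type) (_ : Field F) (_ : Fintype F), Fintype.card F = p ^ f ∧
      Nonempty (G ≃* Matrix.ProjGenLinGroup (Fin 2) F) := by
  classical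
  have h3t : ∀ a b c a' b' c' : α, a ≠ b → a ≠ c → b ≠ c → a' ≠ b' → a' ≠ c' → b' ≠ c' →
      ∃ g : G, g • a = a' ∧ g • b = b' ∧ g • c = c' := by
    intro a b c a' b' c' h1 h2 h3' h4 h5 h6
    obtain ⟨g, hg, e1, e2, e3⟩ := h3t0 a b c a' b' c' h1 h2 h3' h4 h5 h6
    exact ⟨⟨g, hg⟩, e1, e2, e3⟩
  have hsh : ∀ g : G, ∀ a b c : α, a ≠ b → a ≠ c → b ≠ c → g • a = a → g • b = b →
      g • c = c → g = 1 := by
    intro g a b c hab hac hbc ha hb hc
    exact Subtype.ext (hsh0 g g.2 a b c hab hac hbc ha hb hc)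
  have hf0 : f ≠ 0 := by
    obtain ⟨k, hk⟩ := hfo
    omega
  have hq3 : 3 ≤ p ^ f := by
    have hp3 : 3 ≤ p := by
      have := hp.two_le
      omega
    calc 3 ≤ p := hp3
      _ = p ^ 1 := (pow_one p).symm
      _ ≤ p ^ f := Nat.pow_le_pow_right hp.pos (by omega)
  have hcard4 : 4 ≤ Fintype.card α := by omega
  obtain ⟨a⟩ : Nonempty α := Fintype.card_pos_iff.mp (by omega)
  obtain ⟨b, hba, -, -⟩ := exists_fourth' hcard4 a a a
  obtain ⟨c, hca, hcb, -⟩ := exists_fourth' hcard4 a b b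
  obtain ⟨d, hda, hdb, hdc⟩ := exists_fourth' hcard4 a b c
  have hab : a ≠ b := Ne.symm hba
  have hac : a ≠ c := Ne.symm hca
  have hbc : b ≠ c := Ne.symm hcb
  obtain ⟨K, hKa, hKfix, hKn, hKtr⟩ := ShE.sharp3_kernel h3t hsh a b c d hab hac hbc
    (Ne.symm hda) (Ne.symm hdb) (Ne.symm hdc)
  obtain ⟨v, hva, hvb, hvc⟩ := h3t a b c b a c hab hac hbc hba hbc hac
  obtain ⟨F, hF, hFt, φ, hFcard, hφK, hφinj, hφsurj, hφ0, hφ1, hφadd, hφmul⟩ :=
    ShF.sharp3_struct hp hp2 hfo hα h3t hsh a b c hab hac hbc K hKa hKfix hKn hKtr v hva hvb hvc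
  refine ⟨F, hF, hFt, hFcard, ?_⟩
  have h2F : (2 : F) ≠ 0 := by
    intro h20
    haveI : CharP F 2 := CharTwo.of_one_ne_zero_of_two_eq_zero one_ne_zero h20
    obtain ⟨n, -, hn⟩ := FiniteField.card F 2
    rw [hFcard] at hn
    have h1 : p ∣ 2 ^ (n : ℕ) := by
      rw [← hn]
      exact dvd_pow_self p hf0
    have h3 := (Nat.prime_dvd_prime_iff_eq hp Nat.prime_two).mp (hp.dvd_of_dvd_pow h1)
    exact hp2 h3
  have hφa : ∀ t, φ t • a = a := fun t => hKa _ (hφK t)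
  have hφfix : ∀ t, t ≠ 0 → ∀ x : α, φ t • x = x → x = a := by
    intro t ht x hx
    apply hKfix (φ t) (hφK t) _ x hx
    intro h
    rw [← hφ0] at h
    exact ht (hφinj h)
  have hφtr : ∀ x : α, x ≠ a → ∃ t, φ t • b = x := by
    intro x hx
    obtain ⟨u, hu, hux⟩ := hKtr x hx
    obtain ⟨t, ht⟩ := hφsurj u hu
    exact ⟨t, by rw [ht]; exact hux⟩
  have hvc' : v • (φ 1 • b) = φ 1 • b := by rw [hφ1]; exact hvc
  have hinvn := sharp3_inversion h2F hsh a b hab φ hφa hφfix hφ0 hφadd hφtr hφmul v hva hvb hvc'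
  have hex : ∀ x : α, ∃ t : F, x ≠ a → φ t • b = x := by
    intro x
    by_cases hx : x = a
    · exact ⟨0, fun h => absurd hx h⟩
    · obtain ⟨t, ht⟩ := hφtr x hx
      exact ⟨t, fun _ => ht⟩
  choose κ hκ using hex
  have hpta : ∀ t : F, φ t • b ≠ a := by
    intro t h
    have h3 : φ t • b = φ t • a := by rw [h, hφa]
    exact hab (smul_left_cancel _ h3).symm
  have hptinj : ∀ s t : F, φ s • b = φ t • b → s = t := by
    intro s t h
    by_contra hne
    have h1 : φ (s - t) • (φ t • b) = φ t • b := by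
      rw [← mul_smul, ← hφadd, sub_add_cancel, h]
    exact hpta t (hφfix (s - t) (sub_ne_zero.mpr hne) _ h1)
  have hκpt : ∀ t : F, κ (φ t • b) = t := fun t => hptinj _ _ (hκ _ (hpta t))
  have hκb : κ b = 0 := by
    have h1 := hκpt 0
    rw [hφ0, one_smul] at h1
    exact h1
  have hκinj : ∀ x y, x ≠ a → y ≠ a → κ x = κ y → x = y := by
    intro x y hx hy h
    rw [← hκ x hx, ← hκ y hy, h]
  refine ShD.pgl2_of_coords G hsh0 a b hab κ hκinj hκb (by rw [hα, hFcard]) ?_ ?_ ?_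
  · intro t
    refine ⟨(φ t : Equiv.Perm α), (φ t).2, hφa t, ?_⟩
    intro x hx
    have h1 : (φ t : Equiv.Perm α) x = φ (t + κ x) • b := by
      show φ t • x = φ (t + κ x) • b
      rw [hφadd, mul_smul, hκ x hx]
    rw [h1, hκpt, add_comm]
  · intro u hu
    obtain ⟨h, hha, hhb, hh⟩ := hφmul u hu
    refine ⟨(h : Equiv.Perm α), h.2, hha, ?_⟩
    intro x hx
    have h1 : (h : Equiv.Perm α) x = φ (u * κ x) • b := by
      show h • x = φ (u * κ x) • b
      have hib : h⁻¹ • b = b := by rw [inv_smul_eq_iff, hhb]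
      rw [hh, mul_smul, mul_smul, hib, hκ x hx]
    rw [h1, hκpt]
  · refine ⟨(v : Equiv.Perm α), v.2, hva, hvb, ?_⟩
    intro x hxa hxb
    have hk0 : κ x ≠ 0 := by
      intro h0
      apply hxb
      rw [← hκ x hxa, h0, hφ0, one_smul]
    have h1 : (v : Equiv.Perm α) x = φ (κ x)⁻¹ • b := by
      show v • x = φ (κ x)⁻¹ • b
      rw [← hinvn (κ x) hk0, hκ x hxa]
    rw [h1, hκpt]

/-- The embedding of three distinct points. -/
def emb3 {α : Type*} (a b c : α) (hab : a ≠ b) (hac : a ≠ c) (hbc : b ≠ c) : Fin 3 ↪ α :=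
  ⟨![a, b, c], by
    intro i j h
    fin_cases i <;> fin_cases j <;> simp_all⟩

theorem three_trans_elem {α : Type*} (G : Subgroup (Equiv.Perm α))
    (h3 : MulAction.IsMultiplyPretransitive G α 3) :
    ∀ a b c a' b' c' : α, a ≠ b → a ≠ c → b ≠ c → a' ≠ b' → a' ≠ c' → b' ≠ c' →
      ∃ g ∈ G, g a = a' ∧ g b = b' ∧ g c = c' := by
  intro a b c a' b' c' hab hac hbc hab' hac' hbc'
  obtain ⟨g, hg⟩ := (MulAction.isMultiplyPretransitive_iff.mp h3)
    (emb3 a b c hab hac hbc) (emb3 a' b' c' hab' hac' hbc')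
  refine ⟨g, g.2, ?_, ?_, ?_⟩
  · exact congrArg (fun e : Fin 3 ↪ α => e 0) hg
  · exact congrArg (fun e : Fin 3 ↪ α => e 1) hg
  · exact congrArg (fun e : Fin 3 ↪ α => e 2) hg

/-- The statement in its original form. -/
theorem sharp3_odd_main {α : Type u} [Fintype α] [DecidableEq α] {p f : ℕ} (hp : p.Prime)
    (hp2 : p ≠ 2) (hfo : Odd f) (hα : Fintype.card α = p ^ f + 1)
    (G : Subgroup (Equiv.Perm α)) (h3 : MulAction.IsMultiplyPretransitive G α 3)
    (hsharp : ∀ x : Fin 3 ↪ α, MulAction.stabilizer G x = ⊥) :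
    ∃ (F : Type) (_ : Field F) (_ : Fintype F), Fintype.card F = p ^ f ∧
      Nonempty (G ≃* Matrix.ProjGenLinGroup (Fin 2) F) := by
  classical
  have h3t0 := three_trans_elem G h3
  have hsh0 : ∀ g ∈ G, ∀ a b c : α, a ≠ b → a ≠ c → b ≠ c → g a = a → g b = b → g c = c →
      g = 1 := by
    intro g hg a b c hab hac hbc ha hb hc
    have hmem : (⟨g, hg⟩ : G) ∈ MulAction.stabilizer G (emb3 a b c hab hac hbc) := by
      rw [MulAction.mem_stabilizer_iff]
      apply Function.Embedding.ext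
      intro i
      fin_cases i
      · exact ha
      · exact hb
      · exact hc
    rw [hsharp, Subgroup.mem_bot] at hmem
    exact congrArg Subtype.val hmem
  exact sharp3_odd G hp hp2 hfo hα h3t0 hsh0

end Cfsg.Agent.Lib.helper12.ShG
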