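import Mathlib

/-!
# Rank one Steinberg relations: consequences

A group `G` with two families `x, y : K → G` satisfying additivity and the relations
`w(t) x(u) w(t)⁻¹ = y(-t⁻²u)`, `w'(t) y(u) w'(t)⁻¹ = x(-t⁻²u)`.
-/

namespace Cfsg.Agent.Lib.helper12

/-- Rank one Steinberg data. -/
structure St2 (K : Type*) [Field K] (G : Type*) [Group G] where
  x : K → G
  y : K → G
  x_add : ∀ t u, x t * x u = x (t + u)
  y_add : ∀ t u, y t * y u = y (t + u)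
  rel1 : ∀ t u, t ≠ 0 →
    (x t * y (-t⁻¹) * x t) * x u * (x t * y (-t⁻¹) * x t)⁻¹ = y (-(t⁻¹ ^ 2 * u))
  rel2 : ∀ t u, t ≠ 0 →
    (y t * x (-t⁻¹) * y t) * y u * (y t * x (-t⁻¹) * y t)⁻¹ = x (-(t⁻¹ ^ 2 * u))

namespace St2

variable {K : Type*} [Field K] {G : Type*} [Group G] (D : St2 K G)

/-- Swap the two root subgroups. -/
def swap : St2 K G := ⟨D.y, D.x, D.y_add, D.x_add, D.rel2, D.rel1⟩

/-- The Weyl element `w(t) = x(t) y(-t⁻¹) x(t)`. -/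
def w (t : K) : G := D.x t * D.y (-t⁻¹) * D.x t

theorem x_zero : D.x 0 = 1 := by
  have h := D.x_add 0 0
  rw [add_zero] at h
  exact mul_eq_left.mp h

theorem x_neg (t : K) : D.x (-t) = (D.x t)⁻¹ :=
  eq_inv_of_mul_eq_one_left (by rw [D.x_add, neg_add_cancel, D.x_zero])

theorem y_zero : D.y 0 = 1 := D.swap.x_zero

theorem y_neg (t : K) : D.y (-t) = (D.y t)⁻¹ := D.swap.x_neg t

theorem w_neg (t : K) : D.w (-t) = (D.w t)⁻¹ := by
  unfold w
  rw [mul_inv_rev, mul_inv_rev, ← D.x_neg, ← D.y_neg, mul_assoc, inv_neg, neg_neg]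

theorem mv_x (t u : K) (ht : t ≠ 0) : D.w t * D.x u = D.y (-(t⁻¹ ^ 2 * u)) * D.w t :=
  mul_inv_eq_iff_eq_mul.mp (D.rel1 t u ht)

theorem w_eq_swap (t : K) (ht : t ≠ 0) : D.w t = D.swap.w (-t⁻¹) := by
  have h2 := D.mv_x t t ht
  have e : -(t⁻¹ ^ 2 * t) = -t⁻¹ := by field_simp
  rw [e] at h2
  have e2 : -(-t⁻¹)⁻¹ = t := by field_simp
  show D.x t * D.y (-t⁻¹) * D.x t = D.y (-t⁻¹) * D.x (-(-t⁻¹)⁻¹) * D.y (-t⁻¹)
  rw [e2]
  apply mul_right_cancel (b := D.x t)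
  calc D.x t * D.y (-t⁻¹) * D.x t * D.x t = D.y (-t⁻¹) * (D.x t * D.y (-t⁻¹) * D.x t) := h2
    _ = D.y (-t⁻¹) * D.x t * D.y (-t⁻¹) * D.x t := by group

theorem mv_y (t u : K) (ht : t ≠ 0) : D.w t * D.y u = D.x (-(t ^ 2 * u)) * D.w t := by
  have hr : -t⁻¹ ≠ 0 := neg_ne_zero.mpr (inv_ne_zero ht)
  have h := D.swap.mv_x (-t⁻¹) u hr
  rw [← D.w_eq_swap t ht] at h
  have e : -((-t⁻¹)⁻¹ ^ 2 * u) = -(t ^ 2 * u) := by field_simp
  rw [e] at h
  exact h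

theorem conj_w_x (t u : K) (ht : t ≠ 0) :
    MulAut.conj (D.w t) (D.x u) = D.y (-(t⁻¹ ^ 2 * u)) := by
  rw [MulAut.conj_apply, D.mv_x t u ht, mul_inv_cancel_right]

theorem conj_w_y (t u : K) (ht : t ≠ 0) :
    MulAut.conj (D.w t) (D.y u) = D.x (-(t ^ 2 * u)) := by
  rw [MulAut.conj_apply, D.mv_y t u ht, mul_inv_cancel_right]

theorem conj_w_w (t s : K) (ht : t ≠ 0) (hs : s ≠ 0) :
    MulAut.conj (D.w t) (D.w s) = D.w (t ^ 2 * s⁻¹) := by
  have e1 : MulAut.conj (D.w t) (D.w s) =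
      D.y (-(t⁻¹ ^ 2 * s)) * D.x (-(t ^ 2 * (-s⁻¹))) * D.y (-(t⁻¹ ^ 2 * s)) := by
    show MulAut.conj (D.w t) (D.x s * D.y (-s⁻¹) * D.x s) = _
    rw [map_mul, map_mul, D.conj_w_x t s ht, D.conj_w_y t _ ht]
  rw [e1, D.w_eq_swap (t ^ 2 * s⁻¹) (mul_ne_zero (pow_ne_zero 2 ht) (inv_ne_zero hs))]
  show _ = D.y (-(t ^ 2 * s⁻¹)⁻¹) * D.x (-(-(t ^ 2 * s⁻¹)⁻¹)⁻¹) * D.y (-(t ^ 2 * s⁻¹)⁻¹)
  have a1 : -(t⁻¹ ^ 2 * s) = -(t ^ 2 * s⁻¹)⁻¹ := by field_simp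
  have a2 : -(t ^ 2 * (-s⁻¹)) = -(-(t ^ 2 * s⁻¹)⁻¹)⁻¹ := by field_simp
  rw [a1, a2]

/-- `n = w(1)`. -/
def n : G := D.w 1

/-- The torus element `h(t) = w(t) w(1)⁻¹`. -/
def h (t : K) : G := D.w t * D.n⁻¹

theorem n_inv : D.n⁻¹ = D.w (-1) := (D.w_neg 1).symm

theorem h_one : D.h 1 = 1 := mul_inv_cancel _

theorem w_eq (t : K) : D.w t = D.h t * D.n := by
  unfold h
  rw [inv_mul_cancel_right]

theorem conj_h_x (t u : K) (ht : t ≠ 0) : MulAut.conj (D.h t) (D.x u) = D.x (t ^ 2 * u) := by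
  unfold h
  rw [map_mul, MulAut.mul_apply, D.n_inv, D.conj_w_x (-1) u (by norm_num),
    D.conj_w_y t _ ht]
  congr 1
  field_simp

theorem conj_h_y (t u : K) (ht : t ≠ 0) : MulAut.conj (D.h t) (D.y u) = D.y (t⁻¹ ^ 2 * u) := by
  unfold h
  rw [map_mul, MulAut.mul_apply, D.n_inv, D.conj_w_y (-1) u (by norm_num),
    D.conj_w_x t _ ht]
  congr 1
  field_simp

theorem conj_h_w (t s : K) (ht : t ≠ 0) : MulAut.conj (D.h t) (D.w s) = D.w (t ^ 2 * s) := by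
  show MulAut.conj (D.h t) (D.x s * D.y (-s⁻¹) * D.x s) =
    D.x (t ^ 2 * s) * D.y (-(t ^ 2 * s)⁻¹) * D.x (t ^ 2 * s)
  rw [map_mul, map_mul, D.conj_h_x t s ht, D.conj_h_y t _ ht]
  congr 2
  field_simp

theorem conj_n_h (s : K) (hs : s ≠ 0) : MulAut.conj D.n (D.h s) = D.h s⁻¹ := by
  unfold h
  rw [map_mul, map_inv]
  have e1 : MulAut.conj D.n (D.w s) = D.w s⁻¹ := by
    have := D.conj_w_w 1 s one_ne_zero hs
    rw [one_pow, one_mul] at this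
    exact this
  have e2 : MulAut.conj D.n D.n = D.n := by
    rw [MulAut.conj_apply, mul_inv_cancel_right]
  rw [e1, e2]

theorem n_h (s : K) (hs : s ≠ 0) : D.n * D.h s = D.h s⁻¹ * D.n := by
  have := D.conj_n_h s hs
  rw [MulAut.conj_apply] at this
  exact mul_inv_eq_iff_eq_mul.mp this

theorem h_n (s : K) (hs : s ≠ 0) : D.h s * D.n = D.n * D.h s⁻¹ := by
  have := D.n_h s⁻¹ (inv_ne_zero hs)
  rw [inv_inv] at this
  exact this.symm

theorem conj_h_h (t s : K) (ht : t ≠ 0) :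
    MulAut.conj (D.h t) (D.h s) = D.h (t ^ 2 * s) * (D.h (t ^ 2))⁻¹ := by
  have e1 : MulAut.conj (D.h t) (D.h s) = D.w (t ^ 2 * s) * (D.w (t ^ 2))⁻¹ := by
    show MulAut.conj (D.h t) (D.w s * (D.w 1)⁻¹) = _
    rw [map_mul, map_inv, D.conj_h_w t s ht, D.conj_h_w t 1 ht, mul_one]
  rw [e1, D.w_eq, D.w_eq (t ^ 2)]
  group

theorem h_x (t u : K) (ht : t ≠ 0) : D.h t * D.x u = D.x (t ^ 2 * u) * D.h t := by
  have := D.conj_h_x t u ht
  rw [MulAut.conj_apply] at this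
  exact mul_inv_eq_iff_eq_mul.mp this

theorem h_y (t u : K) (ht : t ≠ 0) : D.h t * D.y u = D.y (t⁻¹ ^ 2 * u) * D.h t := by
  have := D.conj_h_y t u ht
  rw [MulAut.conj_apply] at this
  exact mul_inv_eq_iff_eq_mul.mp this

theorem n_n : D.n * D.n = (D.h (-1))⁻¹ := by
  unfold h
  rw [← D.n_inv, mul_inv_rev, inv_inv]

/-- The symbol `f(t,u) = h(t) h(u) h(tu)⁻¹`. -/
def f (t u : K) : G := D.h t * D.h u * (D.h (t * u))⁻¹

theorem h_mul_eq (t u : K) : D.h t * D.h u = D.f t u * D.h (t * u) := by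
  unfold f
  rw [inv_mul_cancel_right]

theorem conj_h_inv_x (s v : K) (hs : s ≠ 0) :
    MulAut.conj (D.h s)⁻¹ (D.x v) = D.x (s⁻¹ ^ 2 * v) := by
  have h1 := D.conj_h_x s (s⁻¹ ^ 2 * v) hs
  have e : s ^ 2 * (s⁻¹ ^ 2 * v) = v := by field_simp
  rw [e] at h1
  rw [← h1, map_inv, MulAut.inv_apply_self]

theorem conj_h_inv_y (s v : K) (hs : s ≠ 0) :
    MulAut.conj (D.h s)⁻¹ (D.y v) = D.y (s ^ 2 * v) := by
  have h1 := D.conj_h_y s (s ^ 2 * v) hs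
  have e : s⁻¹ ^ 2 * (s ^ 2 * v) = v := by field_simp
  rw [e] at h1
  rw [← h1, map_inv, MulAut.inv_apply_self]

theorem f_comm_x (t u v : K) (ht : t ≠ 0) (hu : u ≠ 0) : Commute (D.f t u) (D.x v) := by
  have h1 : MulAut.conj (D.f t u) (D.x v) = D.x v := by
    unfold f
    rw [map_mul, map_mul, MulAut.mul_apply, MulAut.mul_apply,
      D.conj_h_inv_x (t * u) v (mul_ne_zero ht hu), D.conj_h_x u _ hu, D.conj_h_x t _ ht]
    congr 1
    field_simp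
  rw [MulAut.conj_apply] at h1
  exact mul_inv_eq_iff_eq_mul.mp h1

theorem f_comm_y (t u v : K) (ht : t ≠ 0) (hu : u ≠ 0) : Commute (D.f t u) (D.y v) := by
  have h1 : MulAut.conj (D.f t u) (D.y v) = D.y v := by
    unfold f
    rw [map_mul, map_mul, MulAut.mul_apply, MulAut.mul_apply,
      D.conj_h_inv_y (t * u) v (mul_ne_zero ht hu), D.conj_h_y u _ hu, D.conj_h_y t _ ht]
    congr 1
    field_simp
  rw [MulAut.conj_apply] at h1
  exact mul_inv_eq_iff_eq_mul.mp h1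

theorem f_comm_w (t u s : K) (ht : t ≠ 0) (hu : u ≠ 0) : Commute (D.f t u) (D.w s) :=
  ((D.f_comm_x t u s ht hu).mul_right (D.f_comm_y t u _ ht hu)).mul_right (D.f_comm_x t u s ht hu)

theorem f_comm_h (t u s : K) (ht : t ≠ 0) (hu : u ≠ 0) : Commute (D.f t u) (D.h s) :=
  (D.f_comm_w t u s ht hu).mul_right (D.f_comm_w t u 1 ht hu).inv_right

theorem comm_pow_aux (g : G) (ζ : K) (hζ : ζ ≠ 0) (h1 : Commute g (D.h ζ))
    (h2 : ∀ a b : K, a ≠ 0 → b ≠ 0 → Commute g (D.f a b)) (j : ℕ) :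
    Commute g (D.h (ζ ^ j)) := by
  induction j with
  | zero =>
    rw [pow_zero, D.h_one]
    exact Commute.one_right g
  | succ j ih =>
    have e := D.h_mul_eq (ζ ^ j) ζ
    have e2 : D.h (ζ ^ (j + 1)) = (D.f (ζ ^ j) ζ)⁻¹ * (D.h (ζ ^ j) * D.h ζ) := by
      rw [e, pow_succ, inv_mul_cancel_left]
    rw [e2]
    exact (h2 _ _ (pow_ne_zero j hζ) hζ).inv_right.mul_right (ih.mul_right h1)

theorem h_comm [Finite K] (t u : K) (ht : t ≠ 0) (hu : u ≠ 0) : Commute (D.h t) (D.h u) := by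
  obtain ⟨ζ, hζ⟩ := IsCyclic.exists_generator (α := Kˣ)
  have hζ0 : (ζ : K) ≠ 0 := ζ.ne_zero
  have hpow : ∀ v : K, v ≠ 0 → ∃ j : ℕ, (ζ : K) ^ j = v := by
    intro v hv
    obtain ⟨j, hj⟩ := mem_powers_iff_mem_zpowers.mpr (hζ (Units.mk0 v hv))
    refine ⟨j, ?_⟩
    have := congrArg (fun z : Kˣ => (z : K)) hj
    simpa using this
  have s1 : ∀ j : ℕ, Commute (D.h ζ) (D.h ((ζ : K) ^ j)) := fun j =>
    D.comm_pow_aux (D.h ζ) ζ hζ0 (Commute.refl _)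
      (fun a b ha hb => (D.f_comm_h a b ζ ha hb).symm) j
  have s2 : ∀ i j : ℕ, Commute (D.h ((ζ : K) ^ i)) (D.h ((ζ : K) ^ j)) := fun i j =>
    D.comm_pow_aux (D.h ((ζ : K) ^ i)) ζ hζ0 (s1 i).symm
      (fun a b ha hb => (D.f_comm_h a b _ ha hb).symm) j
  obtain ⟨i, rfl⟩ := hpow t ht
  obtain ⟨j, rfl⟩ := hpow u hu
  exact s2 i j

theorem h_mul_sq [Finite K] (s t : K) (hs : s ≠ 0) (ht : t ≠ 0) :
    D.h (s * t ^ 2) = D.h s * D.h (t ^ 2) := by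
  have h1 := D.conj_h_h t s ht
  have h2 : MulAut.conj (D.h t) (D.h s) = D.h s := by
    rw [MulAut.conj_apply, (D.h_comm t s ht hs).eq, mul_inv_cancel_right]
  rw [h2] at h1
  have h3 := eq_mul_inv_iff_mul_eq.mp h1
  rw [mul_comm s]
  exact h3.symm

theorem w_rel (s r : K) (hs : s ≠ 0) (hr : r ≠ 0) (hsr : s + r = 1) :
    D.w (-(s ^ 2)) * D.w s * D.w r = D.w (r * s) := by
  have B : ∀ a : K, D.y (-a⁻¹) = D.x (-a) * D.w a * D.x (-a) := by
    intro a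
    unfold w
    rw [D.x_neg]
    group
  have hA : D.y (-s⁻¹) * D.y (-r⁻¹) = D.y (-(r * s)⁻¹) := by
    rw [D.y_add]
    congr 1
    have e : (r * s)⁻¹ = (r * s)⁻¹ * (s + r) := by rw [hsr, mul_one]
    rw [e]
    field_simp
    ring
  have e0 : D.x (-s) * D.x (-r) = D.x (-1) := by
    rw [D.x_add]
    congr 1
    linear_combination -hsr
  have e1 : D.w s * D.x (-1) = D.y (s⁻¹ ^ 2) * D.w s := by
    have h1 := D.mv_x s (-1) hs
    rw [show -(s⁻¹ ^ 2 * -1) = s⁻¹ ^ 2 by ring] at h1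
    exact h1
  have e4 : D.y (s⁻¹ ^ 2) = D.x (s ^ 2) * D.w (-(s ^ 2)) * D.x (s ^ 2) := by
    have h1 := B (-(s ^ 2))
    rw [neg_neg, show -(-(s ^ 2))⁻¹ = s⁻¹ ^ 2 by field_simp] at h1
    exact h1
  have e2 : D.x (s ^ 2) * D.w s = D.w s * D.y (-1) := by
    have h1 := D.mv_x (-s) (s ^ 2) (neg_ne_zero.mpr hs)
    rw [D.w_neg, show -((-s)⁻¹ ^ 2 * s ^ 2) = -1 by field_simp] at h1
    have h3 : D.x (s ^ 2) = D.w s * D.y (-1) * (D.w s)⁻¹ := by
      rw [mul_assoc, ← h1]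
      group
    rw [h3]
    group
  have e3 : D.y (-1) * D.w r = D.w r * D.x (r ^ 2) := by
    have h1 := D.mv_y (-r) (-1) (neg_ne_zero.mpr hr)
    rw [D.w_neg, show -((-r) ^ 2 * -1) = r ^ 2 by ring] at h1
    have h3 : D.y (-1) = D.w r * D.x (r ^ 2) * (D.w r)⁻¹ := by
      rw [mul_assoc, ← h1]
      group
    rw [h3]
    group
  have key : D.x (-s) * D.w s * D.x (-s) * (D.x (-r) * D.w r * D.x (-r)) =
      D.x (-(r * s)) * D.w (r * s) * D.x (-(r * s)) := by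
    rw [← B, ← B, ← B, hA]
  have lhs : D.x (-s) * D.w s * D.x (-s) * (D.x (-r) * D.w r * D.x (-r)) =
      D.x (-(r * s)) * (D.w (-(s ^ 2)) * D.w s * D.w r) * D.x (-(r * s)) := by
    calc D.x (-s) * D.w s * D.x (-s) * (D.x (-r) * D.w r * D.x (-r))
        = D.x (-s) * D.w s * (D.x (-s) * D.x (-r)) * D.w r * D.x (-r) := by group
      _ = D.x (-s) * (D.w s * D.x (-1)) * D.w r * D.x (-r) := by rw [e0]; group
      _ = D.x (-s) * (D.x (s ^ 2) * D.w (-(s ^ 2)) * D.x (s ^ 2) * D.w s) * D.w r * D.x (-r) := by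
        rw [e1, e4]
      _ = D.x (-s) * D.x (s ^ 2) * D.w (-(s ^ 2)) * (D.x (s ^ 2) * D.w s) * D.w r * D.x (-r) := by
        group
      _ = D.x (-s) * D.x (s ^ 2) * D.w (-(s ^ 2)) * D.w s * (D.y (-1) * D.w r) * D.x (-r) := by
        rw [e2]; group
      _ = D.x (-s) * D.x (s ^ 2) * D.w (-(s ^ 2)) * D.w s * D.w r * (D.x (r ^ 2) * D.x (-r)) := by
        rw [e3]; group
      _ = D.x (-(r * s)) * (D.w (-(s ^ 2)) * D.w s * D.w r) * D.x (-(r * s)) := by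
        rw [D.x_add, D.x_add, show -s + s ^ 2 = -(r * s) by linear_combination s * hsr,
          show r ^ 2 + -r = -(r * s) by linear_combination r * hsr]
        group
  rw [lhs] at key
  exact mul_left_cancel (mul_right_cancel key)

theorem h_rel (s r : K) (hs : s ≠ 0) (hr : r ≠ 0) (hsr : s + r = 1) :
    D.h (-(s ^ 2)) * D.h s⁻¹ * D.h r * (D.h (-1))⁻¹ = D.h (r * s) := by
  have hw := D.w_rel s r hs hr hsr
  rw [D.w_eq, D.w_eq s, D.w_eq r, D.w_eq (r * s)] at hw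
  have e1 := D.n_h s hs
  have e2 := D.n_h r hr
  have e4 := D.n_n
  apply mul_right_cancel (b := D.n)
  rw [← hw]
  calc D.h (-(s ^ 2)) * D.h s⁻¹ * D.h r * (D.h (-1))⁻¹ * D.n
      = D.h (-(s ^ 2)) * D.h s⁻¹ * D.h r * (D.n * D.n) * D.n := by rw [e4]
    _ = D.h (-(s ^ 2)) * D.h s⁻¹ * (D.h r * D.n) * D.n * D.n := by group
    _ = D.h (-(s ^ 2)) * D.h s⁻¹ * (D.n * D.h r⁻¹) * D.n * D.n := by rw [D.h_n r hr]
    _ = D.h (-(s ^ 2)) * (D.h s⁻¹ * D.n) * (D.h r⁻¹ * D.n) * D.n := by group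
    _ = D.h (-(s ^ 2)) * (D.n * D.h s) * (D.n * D.h r) * D.n := by rw [← e1, ← e2]
    _ = D.h (-(s ^ 2)) * D.n * (D.h s * D.n) * (D.h r * D.n) := by group

theorem h_mul_of_add [Finite K] (s r : K) (hs : s ≠ 0) (hr : r ≠ 0) (hsr : s + r = 1) :
    D.h (s * r) = D.h s * D.h r := by
  have h1 := D.h_rel s r hs hr hsr
  have hm1 : (-1 : K) ≠ 0 := by norm_num
  have e1 : D.h (-(s ^ 2)) = D.h (-1) * D.h (s ^ 2) := by
    have h2 := D.h_mul_sq (-1) s hm1 hs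
    rw [neg_one_mul] at h2
    exact h2
  have e2 : D.h (s ^ 2) * D.h s⁻¹ = D.h s := by
    have h2 := D.h_mul_sq s⁻¹ s (inv_ne_zero hs) hs
    rw [show s⁻¹ * s ^ 2 = s by field_simp] at h2
    rw [h2]
    exact (D.h_comm _ _ (pow_ne_zero 2 hs) (inv_ne_zero hs)).eq
  rw [e1, mul_assoc (D.h (-1)), e2] at h1
  rw [mul_comm s r, ← h1]
  have c1 := D.h_comm (-1) s hm1 hs
  have c2 := D.h_comm (-1) r hm1 hr
  rw [c1.eq, mul_assoc (D.h s), c2.eq]
  group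

end St2

section fld

variable {K : Type*} [Field K] [Finite K]

theorem exists_nonsquare_pair (ν : K) (hν : ¬ IsSquare ν) :
    ∃ s r : K, ¬ IsSquare s ∧ ¬ IsSquare r ∧ s + r = 1 := by
  classical
  haveI := Fintype.ofFinite K
  have hν0 : ν ≠ 0 := by
    rintro rfl
    exact hν ⟨0, by simp⟩
  have hchar : ringChar K ≠ 2 := fun h => hν (FiniteField.isSquare_of_char_two h ν)
  have hodd := FiniteField.odd_card_of_char_ne_two hchar
  have hf : (Polynomial.C ν * Polynomial.X ^ 2 : Polynomial K).degree = 2 := by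
    rw [Polynomial.degree_C_mul_X_pow 2 hν0]
    rfl
  have hg : (Polynomial.C ν * Polynomial.X ^ 2 - 1 : Polynomial K).degree = 2 := by
    rw [Polynomial.degree_sub_eq_left_of_degree_lt, hf]
    rw [hf, Polynomial.degree_one]
    norm_num
  obtain ⟨a, b, hab⟩ := FiniteField.exists_root_sum_quadratic hf hg hodd
  simp only [Polynomial.eval_mul, Polynomial.eval_C, Polynomial.eval_pow, Polynomial.eval_X,
    Polynomial.eval_sub, Polynomial.eval_one] at hab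
  have key : ∀ c d : K, ν * c ^ 2 + ν * d ^ 2 = 1 → ¬ IsSquare (ν * c ^ 2) := by
    intro c d hcd hsq
    by_cases hc : c = 0
    · subst hc
      have hd : ν * d ^ 2 = 1 := by simpa using hcd
      have hd0 : d ≠ 0 := by
        rintro rfl
        simp at hd
      exact hν ⟨d⁻¹, by field_simp; linear_combination hd⟩
    · obtain ⟨e, he⟩ := hsq
      exact hν ⟨e / c, by field_simp; linear_combination he⟩
  have h1 : ν * a ^ 2 + ν * b ^ 2 = 1 := by linear_combination hab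
  exact ⟨ν * a ^ 2, ν * b ^ 2, key a b h1, key b a (by rw [add_comm]; exact h1), h1⟩

theorem nonsquare_quot (t s : K) (ht : ¬ IsSquare t) (hs : ¬ IsSquare s) :
    ∃ a : K, a ≠ 0 ∧ t = s * a ^ 2 := by
  classical
  haveI := Fintype.ofFinite K
  have ht0 : t ≠ 0 := by
    rintro rfl
    exact ht ⟨0, by simp⟩
  have hs0 : s ≠ 0 := by
    rintro rfl
    exact hs ⟨0, by simp⟩
  have h1 : quadraticChar K (t * s) = 1 := by
    rw [map_mul, quadraticChar_neg_one_iff_not_isSquare.mpr ht,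
      quadraticChar_neg_one_iff_not_isSquare.mpr hs]
    norm_num
  obtain ⟨c, hc⟩ := (quadraticChar_one_iff_isSquare (mul_ne_zero ht0 hs0)).mp h1
  have hc0 : c ≠ 0 := by
    rintro rfl
    rw [mul_zero] at hc
    exact mul_ne_zero ht0 hs0 hc
  refine ⟨c / s, div_ne_zero hc0 hs0, ?_⟩
  field_simp
  linear_combination hc

end fld

namespace St2

variable {K : Type*} [Field K] {G : Type*} [Group G] (D : St2 K G)

/-- The torus elements are multiplicative (finite fields). -/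
theorem h_mul [Finite K] (t u : K) (ht : t ≠ 0) (hu : u ≠ 0) :
    D.h (t * u) = D.h t * D.h u := by
  by_cases hsu : IsSquare u
  · obtain ⟨b, rfl⟩ := hsu
    have hb : b ≠ 0 := by
      rintro rfl
      simp at hu
    have h1 := D.h_mul_sq t b ht hb
    rw [pow_two] at h1
    exact h1
  by_cases hst : IsSquare t
  · obtain ⟨a, rfl⟩ := hst
    have ha : a ≠ 0 := by
      rintro rfl
      simp at ht
    have h1 := D.h_mul_sq u a hu ha
    rw [pow_two] at h1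
    rw [mul_comm, h1]
    exact (D.h_comm _ _ hu (mul_ne_zero ha ha)).eq
  obtain ⟨s, r, hs, hr, hsr⟩ := exists_nonsquare_pair t hst
  obtain ⟨a, ha0, hta⟩ := nonsquare_quot t s hst hs
  obtain ⟨b, hb0, hub⟩ := nonsquare_quot u r hsu hr
  have hs0 : s ≠ 0 := by
    rintro rfl
    exact hs ⟨0, by simp⟩
  have hr0 : r ≠ 0 := by
    rintro rfl
    exact hr ⟨0, by simp⟩
  rw [hta, hub]
  have e1 : s * a ^ 2 * (r * b ^ 2) = (s * r) * (a * b) ^ 2 := by ring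
  have e2 : D.h ((a * b) ^ 2) = D.h (a ^ 2) * D.h (b ^ 2) := by
    rw [mul_pow]
    exact D.h_mul_sq (a ^ 2) b (pow_ne_zero 2 ha0) hb0
  rw [e1, D.h_mul_sq (s * r) (a * b) (mul_ne_zero hs0 hr0) (mul_ne_zero ha0 hb0),
    D.h_mul_of_add s r hs0 hr0 hsr, D.h_mul_sq s a hs0 ha0, D.h_mul_sq r b hr0 hb0, e2]
  have c := D.h_comm r (a ^ 2) hr0 (pow_ne_zero 2 ha0)
  calc D.h s * D.h r * (D.h (a ^ 2) * D.h (b ^ 2))
      = D.h s * (D.h r * D.h (a ^ 2)) * D.h (b ^ 2) := by group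
    _ = D.h s * (D.h (a ^ 2) * D.h r) * D.h (b ^ 2) := by rw [c.eq]
    _ = D.h s * D.h (a ^ 2) * (D.h r * D.h (b ^ 2)) := by group

/-- The Borel set `U H`. -/
def Bset : Set G := {g | ∃ a t : K, t ≠ 0 ∧ g = D.x a * D.h t}

/-- The Bruhat normal form set `B ∪ U n B`. -/
def Sset : Set G := D.Bset ∪ {g | ∃ c : K, ∃ b ∈ D.Bset, g = D.x c * D.n * b}

theorem B_x (c : K) {g : G} (hg : g ∈ D.Bset) : D.x c * g ∈ D.Bset := by
  obtain ⟨a, t, ht, rfl⟩ := hg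
  exact ⟨c + a, t, ht, by rw [← mul_assoc, D.x_add]⟩

theorem B_h [Finite K] (c : K) (hc : c ≠ 0) {g : G} (hg : g ∈ D.Bset) : D.h c * g ∈ D.Bset := by
  obtain ⟨a, t, ht, rfl⟩ := hg
  refine ⟨c ^ 2 * a, c * t, mul_ne_zero hc ht, ?_⟩
  rw [← mul_assoc, D.h_x c a hc, mul_assoc, ← D.h_mul c t hc ht]

theorem S_x (c : K) {g : G} (hg : g ∈ D.Sset) : D.x c * g ∈ D.Sset := by
  rcases hg with hg | ⟨c', b, hb, rfl⟩
  · exact Or.inl (D.B_x c hg)
  · exact Or.inr ⟨c + c', b, hb, by rw [← D.x_add]; group⟩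

theorem S_h [Finite K] (c : K) (hc : c ≠ 0) {g : G} (hg : g ∈ D.Sset) : D.h c * g ∈ D.Sset := by
  rcases hg with hg | ⟨c', b, hb, rfl⟩
  · exact Or.inl (D.B_h c hc hg)
  · refine Or.inr ⟨c ^ 2 * c', D.h c⁻¹ * b, D.B_h c⁻¹ (inv_ne_zero hc) hb, ?_⟩
    calc D.h c * (D.x c' * D.n * b) = (D.h c * D.x c') * D.n * b := by group
      _ = D.x (c ^ 2 * c') * (D.h c * D.n) * b := by rw [D.h_x c c' hc]; group
      _ = D.x (c ^ 2 * c') * D.n * (D.h c⁻¹ * b) := by rw [D.h_n c hc]; group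

theorem n_n' [Finite K] : D.n * D.n = D.h (-1) := by
  rw [D.n_n]
  have h1 := D.h_mul (-1) (-1) (by norm_num) (by norm_num)
  rw [show (-1 : K) * -1 = 1 by ring, D.h_one] at h1
  exact inv_eq_of_mul_eq_one_left h1.symm

theorem n_x_n [Finite K] (v : K) (hv : v ≠ 0) :
    D.n * D.x v * D.n = D.x (-v⁻¹) * D.h (-v⁻¹) * D.n * D.x (-v⁻¹) := by
  have e1 : D.n * D.x v = D.y (-v) * D.n := by
    have h1 := D.mv_x 1 v one_ne_zero
    rw [inv_one, one_pow, one_mul] at h1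
    exact h1
  have e2 : D.y (-v) = D.x (-v⁻¹) * D.w v⁻¹ * D.x (-v⁻¹) := by
    unfold w
    rw [inv_inv, D.x_neg]
    group
  have hm1 : (-1 : K) ≠ 0 := by norm_num
  have hvi : v⁻¹ ≠ 0 := inv_ne_zero hv
  have e3 : D.x (-v⁻¹) * D.h (-1) = D.h (-1) * D.x (-v⁻¹) := by
    have h1 := D.h_x (-1) (-v⁻¹) hm1
    rw [show (-1 : K) ^ 2 * -v⁻¹ = -v⁻¹ by ring] at h1
    exact h1.symm
  have e4 : D.n * D.h (-1) = D.h (-1) * D.n := by
    have h1 := D.n_h (-1) hm1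
    rw [show (-1 : K)⁻¹ = -1 by norm_num] at h1
    exact h1
  have e5 : D.h v⁻¹ * D.h (-1) = D.h (-v⁻¹) := by
    rw [← D.h_mul v⁻¹ (-1) hvi hm1]
    congr 1
    ring
  calc D.n * D.x v * D.n = D.y (-v) * D.n * D.n := by rw [e1]
    _ = D.x (-v⁻¹) * D.w v⁻¹ * D.x (-v⁻¹) * (D.n * D.n) := by rw [e2]; group
    _ = D.x (-v⁻¹) * (D.h v⁻¹ * D.n) * (D.x (-v⁻¹) * D.h (-1)) := by
      rw [D.n_n', D.w_eq]
      group
    _ = D.x (-v⁻¹) * D.h v⁻¹ * (D.n * D.h (-1)) * D.x (-v⁻¹) := by rw [e3]; group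
    _ = D.x (-v⁻¹) * (D.h v⁻¹ * D.h (-1)) * D.n * D.x (-v⁻¹) := by rw [e4]; group
    _ = D.x (-v⁻¹) * D.h (-v⁻¹) * D.n * D.x (-v⁻¹) := by rw [e5]

theorem S_n [Finite K] {g : G} (hg : g ∈ D.Sset) : D.n * g ∈ D.Sset := by
  rcases hg with hg | ⟨c, b, hb, rfl⟩
  · exact Or.inr ⟨0, g, hg, by rw [D.x_zero, one_mul]⟩
  · by_cases hc : c = 0
    · subst hc
      left
      have e : D.n * (D.x 0 * D.n * b) = D.h (-1) * b := by
        rw [D.x_zero, one_mul, ← mul_assoc, D.n_n']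
      rw [e]
      exact D.B_h (-1) (by norm_num) hb
    · right
      refine ⟨-c⁻¹, D.h (-c) * (D.x (-c⁻¹) * b),
        D.B_h (-c) (neg_ne_zero.mpr hc) (D.B_x _ hb), ?_⟩
      have hci : -c⁻¹ ≠ 0 := neg_ne_zero.mpr (inv_ne_zero hc)
      have e := D.h_n (-c⁻¹) hci
      rw [show (-c⁻¹)⁻¹ = -c by field_simp] at e
      calc D.n * (D.x c * D.n * b) = D.n * D.x c * D.n * b := by group
        _ = D.x (-c⁻¹) * (D.h (-c⁻¹) * D.n) * D.x (-c⁻¹) * b := by rw [D.n_x_n c hc]; group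
        _ = D.x (-c⁻¹) * D.n * (D.h (-c) * (D.x (-c⁻¹) * b)) := by rw [e]; group

theorem S_y [Finite K] (c : K) {g : G} (hg : g ∈ D.Sset) : D.y c * g ∈ D.Sset := by
  have e1 : D.y c = D.n * D.x (-c) * D.n⁻¹ := by
    have h1 := D.conj_w_x 1 (-c) one_ne_zero
    rw [MulAut.conj_apply, show -((1 : K)⁻¹ ^ 2 * -c) = c by simp] at h1
    exact h1.symm
  have e2 : D.n⁻¹ = D.n * D.h (-1) := by
    have h3 : D.h (-1) = (D.n * D.n)⁻¹ := by rw [D.n_n, inv_inv]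
    rw [h3]
    group
  have e3 : D.y c * g = D.n * (D.x (-c) * (D.n * (D.h (-1) * g))) := by
    rw [e1, e2]
    group
  rw [e3]
  exact D.S_n (D.S_x _ (D.S_n (D.S_h (-1) (by norm_num) hg)))

theorem mem_S [Finite K] (hgen : Subgroup.closure (Set.range D.x ∪ Set.range D.y) = ⊤) (g : G) :
    g ∈ D.Sset := by
  have h1 : (1 : G) ∈ D.Sset :=
    Or.inl ⟨0, 1, one_ne_zero, by rw [D.x_zero, D.h_one, one_mul]⟩
  have hg : g ∈ Subgroup.closure (Set.range D.x ∪ Set.range D.y) := by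
    rw [hgen]
    trivial
  refine Subgroup.closure_induction_left (p := fun g _ => g ∈ D.Sset) h1 ?_ ?_ hg
  · intro z hz w _ ih
    rcases hz with ⟨c, rfl⟩ | ⟨c, rfl⟩
    · exact D.S_x c ih
    · exact D.S_y c ih
  · intro z hz w _ ih
    rcases hz with ⟨c, rfl⟩ | ⟨c, rfl⟩
    · rw [← D.x_neg]
      exact D.S_x _ ih
    · rw [← D.y_neg]
      exact D.S_y _ ih

/-- The order bound from the Bruhat normal form. -/
theorem card_le [Fintype K] (hgen : Subgroup.closure (Set.range D.x ∪ Set.range D.y) = ⊤) :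
    Finite G ∧ Nat.card G ≤ Fintype.card K * (Fintype.card K ^ 2 - 1) := by
  classical
  obtain ⟨φ, hφ⟩ : ∃ φ : (K × Kˣ) ⊕ (K × (K × Kˣ)) → G, φ = fun z =>
      Sum.elim (fun p => D.x p.1 * D.h (p.2 : K))
        (fun p => D.x p.1 * D.n * (D.x p.2.1 * D.h (p.2.2 : K))) z := ⟨_, rfl⟩
  have hsurj : Function.Surjective φ := by
    intro g
    rcases D.mem_S hgen g with ⟨a, t, ht, rfl⟩ | ⟨c, b, ⟨a, t, ht, rfl⟩, rfl⟩
    · exact ⟨Sum.inl (a, Units.mk0 t ht), by rw [hφ]; rfl⟩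
    · exact ⟨Sum.inr (c, (a, Units.mk0 t ht)), by rw [hφ]; rfl⟩
  haveI : Finite G := Finite.of_surjective φ hsurj
  refine ⟨inferInstance, ?_⟩
  have h1 := Nat.card_le_card_of_surjective φ hsurj
  rw [Nat.card_eq_fintype_card (α := (K × Kˣ) ⊕ (K × (K × Kˣ))), Fintype.card_sum,
    Fintype.card_prod, Fintype.card_prod, Fintype.card_prod, Fintype.card_units] at h1
  have hq : 1 ≤ Fintype.card K := Fintype.card_pos
  obtain ⟨m, hm⟩ : ∃ m, Fintype.card K = m + 1 := ⟨Fintype.card K - 1, by omega⟩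
  rw [hm] at h1 ⊢
  have e1 : (m + 1) ^ 2 - 1 = m ^ 2 + 2 * m := by
    have : (m + 1) ^ 2 = m ^ 2 + 2 * m + 1 := by ring
    omega
  rw [e1]
  have e2 : (m + 1) * (m + 1 - 1) + (m + 1) * ((m + 1) * (m + 1 - 1)) =
      (m + 1) * (m ^ 2 + 2 * m) := by
    rw [Nat.add_sub_cancel]
    ring
  rw [e2] at h1
  exact h1

end St2

end Cfsg.Agent.Lib.helper12
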