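import Mathlib
import Cfsg.Agent.Lib.helper12.Stb2a
import Cfsg.Agent.Lib.helper12.SL2Cent
import Cfsg.Agent.Lib.helper12.SL2SylP

/-!
# The rank one Steinberg presentation of `SL₂` over a finite field
-/

namespace Cfsg.Agent.Lib.helper12

open scoped MatrixGroups

section sl2

variable {K : Type*} [Field K]

theorem mkSL_mul' (a b c d a' b' c' d' : K) (h : a * d - b * c = 1)
    (h' : a' * d' - b' * c' = 1) :
    mkSL a b c d h * mkSL a' b' c' d' h' =
      mkSL (a * a' + b * c') (a * b' + b * d') (c * a' + d * c') (c * b' + d * d')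
        (by linear_combination (a' * d' - b' * c') * h + h') := by
  apply Subtype.ext
  rw [Matrix.SpecialLinearGroup.coe_mul, mkSL_val, mkSL_val, mkSL_val, Matrix.mul_fin_two]

theorem mkSL_congr {a b c d a' b' c' d' : K} (h : a * d - b * c = 1)
    (h' : a' * d' - b' * c' = 1) (e1 : a = a') (e2 : b = b') (e3 : c = c') (e4 : d = d') :
    mkSL a b c d h = mkSL a' b' c' d' h' := by
  subst e1 e2 e3 e4
  rfl

theorem SL2_eq_mkSL (g : SL(2, K)) :
    g = mkSL ((g : Matrix (Fin 2) (Fin 2) K) 0 0) ((g : Matrix (Fin 2) (Fin 2) K) 0 1)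
      ((g : Matrix (Fin 2) (Fin 2) K) 1 0) ((g : Matrix (Fin 2) (Fin 2) K) 1 1) (SL2_det_eq g) := by
  apply SL2_ext <;> rfl

/-- The Steinberg data of `SL₂`. -/
def sl2St (K : Type*) [Field K] : St2 K SL(2, K) where
  x := uS
  y := lS
  x_add t u := by
    unfold uS
    rw [mkSL_mul']
    apply mkSL_congr <;> ring
  y_add t u := by
    unfold lS
    rw [mkSL_mul']
    apply mkSL_congr <;> ring
  rel1 t u ht := by
    rw [mul_inv_eq_iff_eq_mul]
    unfold uS lS
    simp only [mkSL_mul']
    apply mkSL_congr <;> first | ring1 | (field_simp; ring1) | field_simp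
  rel2 t u ht := by
    rw [mul_inv_eq_iff_eq_mul]
    unfold uS lS
    simp only [mkSL_mul']
    apply mkSL_congr <;> first | ring1 | (field_simp; ring1) | field_simp

theorem SL2_mem_closure_uS_lS (g : SL(2, K)) :
    g ∈ Subgroup.closure (Set.range (uS : K → SL(2, K)) ∪ Set.range (lS : K → SL(2, K))) := by
  have hu : ∀ t : K, uS t ∈ Subgroup.closure
      (Set.range (uS : K → SL(2, K)) ∪ Set.range (lS : K → SL(2, K))) :=
    fun t => Subgroup.subset_closure (Or.inl ⟨t, rfl⟩)
  have hl : ∀ t : K, lS t ∈ Subgroup.closure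
      (Set.range (uS : K → SL(2, K)) ∪ Set.range (lS : K → SL(2, K))) :=
    fun t => Subgroup.subset_closure (Or.inr ⟨t, rfl⟩)
  have key : ∀ a b c d : K, ∀ h : a * d - b * c = 1, c ≠ 0 →
      mkSL a b c d h ∈ Subgroup.closure
        (Set.range (uS : K → SL(2, K)) ∪ Set.range (lS : K → SL(2, K))) := by
    intro a b c d h hc
    have e : mkSL a b c d h = uS ((a - 1) / c) * lS c * uS ((d - 1) / c) := by
      unfold uS lS
      simp only [mkSL_mul']
      apply mkSL_congr
      · field_simp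
        ring
      · field_simp
        linear_combination -h
      · ring
      · field_simp
        ring
    rw [e]
    exact mul_mem (mul_mem (hu _) (hl _)) (hu _)
  rw [SL2_eq_mkSL g]
  by_cases hc : (g : Matrix (Fin 2) (Fin 2) K) 1 0 = 0
  · have hdet := SL2_det_eq g
    rw [hc, mul_zero, sub_zero] at hdet
    have ha : (g : Matrix (Fin 2) (Fin 2) K) 0 0 ≠ 0 := by
      intro h0
      rw [h0, zero_mul] at hdet
      exact zero_ne_one hdet
    have e : mkSL ((g : Matrix (Fin 2) (Fin 2) K) 0 0) ((g : Matrix (Fin 2) (Fin 2) K) 0 1)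
        ((g : Matrix (Fin 2) (Fin 2) K) 1 0) ((g : Matrix (Fin 2) (Fin 2) K) 1 1) (SL2_det_eq g) =
        lS (-1) * mkSL ((g : Matrix (Fin 2) (Fin 2) K) 0 0) ((g : Matrix (Fin 2) (Fin 2) K) 0 1)
          ((g : Matrix (Fin 2) (Fin 2) K) 0 0)
          ((g : Matrix (Fin 2) (Fin 2) K) 0 1 + (g : Matrix (Fin 2) (Fin 2) K) 1 1)
          (by linear_combination hdet) := by
      unfold lS
      rw [mkSL_mul']
      apply mkSL_congr
      · ring
      · ring
      · rw [hc]
        ring
      · ring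
    rw [e]
    exact mul_mem (hl _) (key _ _ _ _ _ ha)
  · exact key _ _ _ _ _ hc

end sl2

section pres

/-- The Steinberg relations of rank one. -/
def stRels (K : Type*) [Field K] : Set (FreeGroup (Bool × K)) :=
  {g : FreeGroup (Bool × K) | ∃ (b : Bool) (t u : K), g = FreeGroup.of (b, t) * FreeGroup.of (b, u) * (FreeGroup.of (b, t + u))⁻¹} ∪
          {g | ∃ (b : Bool) (t u : K), t ≠ 0 ∧
            g = (FreeGroup.of (b, t) * FreeGroup.of (!b, -t⁻¹) * FreeGroup.of (b, t)) * FreeGroup.of (b, u) *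
                  (FreeGroup.of (b, t) * FreeGroup.of (!b, -t⁻¹) * FreeGroup.of (b, t))⁻¹ * (FreeGroup.of (!b, -(t⁻¹ ^ 2 * u)))⁻¹}

variable {K : Type*} [Field K]

/-- The Steinberg data of the presented group. -/
def presSt (K : Type*) [Field K] : St2 K (PresentedGroup (stRels K)) where
  x t := PresentedGroup.of (true, t)
  y t := PresentedGroup.of (false, t)
  x_add t u := by
    have hm : FreeGroup.of (true, t) * FreeGroup.of (true, u) * (FreeGroup.of (true, t + u))⁻¹ ∈
        stRels K := Or.inl ⟨true, t, u, rfl⟩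
    have h1 := PresentedGroup.one_of_mem hm
    rw [map_mul, map_mul, map_inv] at h1
    exact mul_inv_eq_one.mp h1
  y_add t u := by
    have hm : FreeGroup.of (false, t) * FreeGroup.of (false, u) *
        (FreeGroup.of (false, t + u))⁻¹ ∈ stRels K := Or.inl ⟨false, t, u, rfl⟩
    have h1 := PresentedGroup.one_of_mem hm
    rw [map_mul, map_mul, map_inv] at h1
    exact mul_inv_eq_one.mp h1
  rel1 t u ht := by
    have hm : (FreeGroup.of (true, t) * FreeGroup.of (false, -t⁻¹) * FreeGroup.of (true, t)) *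
        FreeGroup.of (true, u) *
        (FreeGroup.of (true, t) * FreeGroup.of (false, -t⁻¹) * FreeGroup.of (true, t))⁻¹ *
        (FreeGroup.of (false, -(t⁻¹ ^ 2 * u)))⁻¹ ∈ stRels K := Or.inr ⟨true, t, u, ht, rfl⟩
    have h1 := PresentedGroup.one_of_mem hm
    simp only [map_mul, map_inv] at h1
    exact mul_inv_eq_one.mp h1
  rel2 t u ht := by
    have hm : (FreeGroup.of (false, t) * FreeGroup.of (true, -t⁻¹) * FreeGroup.of (false, t)) *
        FreeGroup.of (false, u) *
        (FreeGroup.of (false, t) * FreeGroup.of (true, -t⁻¹) * FreeGroup.of (false, t))⁻¹ *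
        (FreeGroup.of (true, -(t⁻¹ ^ 2 * u)))⁻¹ ∈ stRels K := Or.inr ⟨false, t, u, ht, rfl⟩
    have h1 := PresentedGroup.one_of_mem hm
    simp only [map_mul, map_inv] at h1
    exact mul_inv_eq_one.mp h1

/-- The generator map of Steinberg data. -/
def St2.gen {H : Type*} [Group H] (E : St2 K H) : Bool × K → H
  | (true, t) => E.x t
  | (false, t) => E.y t

theorem St2.gen_rels {H : Type*} [Group H] (E : St2 K H) :
    ∀ r ∈ stRels K, FreeGroup.lift E.gen r = 1 := by
  rintro r (⟨b, t, u, rfl⟩ | ⟨b, t, u, ht, rfl⟩)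
  · cases b
    · simp only [map_mul, map_inv, FreeGroup.lift_apply_of]
      show E.y t * E.y u * (E.y (t + u))⁻¹ = 1
      rw [E.y_add, mul_inv_cancel]
    · simp only [map_mul, map_inv, FreeGroup.lift_apply_of]
      show E.x t * E.x u * (E.x (t + u))⁻¹ = 1
      rw [E.x_add, mul_inv_cancel]
  · cases b
    · simp only [map_mul, map_inv, FreeGroup.lift_apply_of]
      show (E.y t * E.x (-t⁻¹) * E.y t) * E.y u * (E.y t * E.x (-t⁻¹) * E.y t)⁻¹ *
        (E.x (-(t⁻¹ ^ 2 * u)))⁻¹ = 1
      rw [E.rel2 t u ht, mul_inv_cancel]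
    · simp only [map_mul, map_inv, FreeGroup.lift_apply_of]
      show (E.x t * E.y (-t⁻¹) * E.x t) * E.x u * (E.x t * E.y (-t⁻¹) * E.x t)⁻¹ *
        (E.y (-(t⁻¹ ^ 2 * u)))⁻¹ = 1
      rw [E.rel1 t u ht, mul_inv_cancel]

/-- Steinberg: `SL₂` of a finite field is presented by the rank one Steinberg relations. -/
theorem steinberg_SL2 [Finite K] :
    ∃ e : PresentedGroup (stRels K) ≃* SL(2, K),
      (∀ t : K, ((e (PresentedGroup.of (true, t)) : Matrix (Fin 2) (Fin 2) K)) = !![1, t; 0, 1]) ∧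
      (∀ t : K, ((e (PresentedGroup.of (false, t)) : Matrix (Fin 2) (Fin 2) K)) = !![1, 0; t, 1]) := by
  classical
  haveI := Fintype.ofFinite K
  obtain ⟨π, hπ⟩ : ∃ π : PresentedGroup (stRels K) →* SL(2, K),
      π = PresentedGroup.toGroup (sl2St K).gen_rels := ⟨_, rfl⟩
  have hπx : ∀ t : K, π (PresentedGroup.of (true, t)) = uS t := fun t => by
    rw [hπ, PresentedGroup.toGroup.of]
    rfl
  have hπy : ∀ t : K, π (PresentedGroup.of (false, t)) = lS t := fun t => by
    rw [hπ, PresentedGroup.toGroup.of]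
    rfl
  have hsurj : Function.Surjective π := by
    rw [← MonoidHom.range_eq_top, eq_top_iff]
    intro g _
    have hg := SL2_mem_closure_uS_lS g
    have hle : Subgroup.closure (Set.range (uS : K → SL(2, K)) ∪ Set.range (lS : K → SL(2, K))) ≤
        π.range := by
      rw [Subgroup.closure_le]
      rintro _ (⟨t, rfl⟩ | ⟨t, rfl⟩)
      · exact ⟨_, hπx t⟩
      · exact ⟨_, hπy t⟩
    exact hle hg
  have hgen : Subgroup.closure (Set.range (presSt K).x ∪ Set.range (presSt K).y) = ⊤ := by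
    rw [eq_top_iff, ← PresentedGroup.closure_range_of]
    apply Subgroup.closure_mono
    rintro _ ⟨⟨b, t⟩, rfl⟩
    cases b
    · exact Or.inr ⟨t, rfl⟩
    · exact Or.inl ⟨t, rfl⟩
  obtain ⟨hfin, hcard⟩ := (presSt K).card_le hgen
  have hbij : Function.Bijective π :=
    hsurj.bijective_of_nat_card_le (by rw [card_SL2]; exact hcard)
  refine ⟨MulEquiv.ofBijective π hbij, fun t => ?_, fun t => ?_⟩
  · rw [MulEquiv.ofBijective_apply, hπx, uS_val]
  · rw [MulEquiv.ofBijective_apply, hπy, lS_val]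

end pres

end Cfsg.Agent.Lib.helper12
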