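import Mathlib
import Cfsg.Agent.Lib.helper12.DkLem

set_option autoImplicit false

namespace Cfsg.Agent.Lib.helper12

open scoped MatrixGroups

section twotrans

variable {G : Type*} [Group G]

/-- The number of cosets of `H` fixed by `t`, bounded through the conjugates of `t` in `H`. -/
theorem fix_bound [Finite G] (H : Subgroup G) (t : G) (P : G → Prop)
    (hP : ∀ g : G, g⁻¹ * t * g ∈ H → P (g⁻¹ * t * g)) :
    Nat.card {x : G ⧸ H // t • x = x} * Nat.card H ≤
      Nat.card (Subgroup.centralizer ({t} : Set G)) * Nat.card {h : H // P (h : G)} := by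
  classical
  have h1 : Nat.card {g : G // g⁻¹ * t * g ∈ H} = Nat.card {x : G ⧸ H // t • x = x} * Nat.card H := by
    have e := QuotientGroup.preimageMkEquivSubgroupProdSet H {x : G ⧸ H | t • x = x}
    have e2 : {g : G // g⁻¹ * t * g ∈ H} ≃
        (QuotientGroup.mk ⁻¹' {x : G ⧸ H | t • x = x} : Set G) := by
      refine Equiv.subtypeEquivRight (fun g => ?_)
      rw [Set.mem_preimage, Set.mem_ofPred_eq]
      have : t • (QuotientGroup.mk g : G ⧸ H) = QuotientGroup.mk (t * g) := rfl
      rw [this, QuotientGroup.eq]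
      have e3 : (t * g)⁻¹ * g = (g⁻¹ * t * g)⁻¹ := by group
      rw [e3, inv_mem_iff]
    rw [Nat.card_congr (e2.trans e), Nat.card_prod, mul_comm]
    rfl
  rw [← h1]
  let r : G → G := fun t' => if h : ∃ g₀ : G, g₀⁻¹ * t * g₀ = t' then Classical.choose h else 1
  have hr : ∀ g : G, (r (g⁻¹ * t * g))⁻¹ * t * r (g⁻¹ * t * g) = g⁻¹ * t * g := by
    intro g
    have h : ∃ g₀ : G, g₀⁻¹ * t * g₀ = g⁻¹ * t * g := ⟨g, rfl⟩
    show (dite _ _ _)⁻¹ * t * dite _ _ _ = _
    rw [dif_pos h]
    exact Classical.choose_spec h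
  let φ : {g : G // g⁻¹ * t * g ∈ H} → Subgroup.centralizer ({t} : Set G) × {h : H // P (h : G)} :=
    fun g => (⟨(g : G) * (r ((g : G)⁻¹ * t * g))⁻¹, by
      rw [Subgroup.mem_centralizer_singleton_iff]
      have := hr (g : G)
      have e : (g : G) * (r ((g : G)⁻¹ * t * g))⁻¹ * t =
          (g : G) * ((r ((g : G)⁻¹ * t * g))⁻¹ * t * r ((g : G)⁻¹ * t * g)) *
            (r ((g : G)⁻¹ * t * g))⁻¹ := by group
      rw [e, this]
      group⟩, ⟨⟨(g : G)⁻¹ * t * g, g.2⟩, hP g g.2⟩)
  have hφ : Function.Injective φ := by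
    intro g g' hgg
    have e1 : (g : G) * (r ((g : G)⁻¹ * t * g))⁻¹ = (g' : G) * (r ((g' : G)⁻¹ * t * g'))⁻¹ :=
      congrArg (fun p => ((p.1 : Subgroup.centralizer ({t} : Set G)) : G)) hgg
    have e2 : (g : G)⁻¹ * t * g = (g' : G)⁻¹ * t * g' :=
      congrArg (fun p => (((p.2 : {h : H // P (h : G)}) : H) : G)) hgg
    rw [e2] at e1
    exact Subtype.ext (mul_right_cancel e1)
  have := Nat.card_le_card_of_injective φ hφ
  rwa [Nat.card_prod] at this

/-- The base coset is fixed by `H`. -/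
theorem base_fixed (H : Subgroup G) (h : H) :
    (h : G) • (QuotientGroup.mk (1 : G) : G ⧸ H) = QuotientGroup.mk (1 : G) := by
  have : (h : G) • (QuotientGroup.mk (1 : G) : G ⧸ H) = QuotientGroup.mk ((h : G) * 1) := rfl
  rw [this, QuotientGroup.eq]
  simp

/-- An `H`-orbit of a non-base coset does not contain the base coset. -/
theorem orbit_ne_base (H : Subgroup G) (x : G ⧸ H) (hx : x ≠ QuotientGroup.mk (1 : G))
    (o : G ⧸ H) (ho : o ∈ MulAction.orbit H x) : o ≠ QuotientGroup.mk (1 : G) := by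
  rintro rfl
  obtain ⟨h, hh⟩ := ho
  apply hx
  have h2 : (h⁻¹ : H) • (h • x) = x := inv_smul_smul h x
  have hh' : h • x = QuotientGroup.mk (1 : G) := hh
  rw [hh'] at h2
  rw [← h2]
  exact base_fixed H h⁻¹

/-- Orbit sizes of `H` on the non-base cosets, modulo `p`, via a `p`-subgroup with few fixed
cosets. -/
theorem orbit_modEq [Finite G] (H : Subgroup G) (x : G ⧸ H) (hx : x ≠ QuotientGroup.mk (1 : G))
    (p : ℕ) [Fact p.Prime] (P : Subgroup H) (hP : IsPGroup p P) (f : ℕ)
    (hf : Nat.card (MulAction.fixedPoints P (G ⧸ H)) ≤ f + 1) :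
    ∃ c, c ≤ f ∧ Nat.card (MulAction.orbit H x) ≡ c [MOD p] := by
  classical
  refine ⟨Nat.card (MulAction.fixedPoints P (MulAction.orbit H x)), ?_,
    hP.card_modEq_card_fixedPoints _⟩
  have hbase : (QuotientGroup.mk (1 : G) : G ⧸ H) ∈ MulAction.fixedPoints P (G ⧸ H) := by
    intro m
    exact base_fixed H (m : H)
  let ι : Option (MulAction.fixedPoints P (MulAction.orbit H x)) →
      MulAction.fixedPoints P (G ⧸ H) := fun o =>
    match o with
    | none => ⟨QuotientGroup.mk (1 : G), hbase⟩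
    | some w => ⟨((w : MulAction.orbit H x) : G ⧸ H), by
        intro m
        have := w.2 m
        exact congrArg Subtype.val this⟩
  have hι : Function.Injective ι := by
    intro a b hab
    match a, b with
    | none, none => rfl
    | none, some w =>
      exfalso
      have h1 : (QuotientGroup.mk (1 : G) : G ⧸ H) = ((w : MulAction.orbit H x) : G ⧸ H) :=
        congrArg (fun q : MulAction.fixedPoints P (G ⧸ H) => (q : G ⧸ H)) hab
      exact orbit_ne_base H x hx _ (w : MulAction.orbit H x).2 h1.symm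
    | some w, none =>
      exfalso
      have h1 : ((w : MulAction.orbit H x) : G ⧸ H) = (QuotientGroup.mk (1 : G) : G ⧸ H) :=
        congrArg (fun q : MulAction.fixedPoints P (G ⧸ H) => (q : G ⧸ H)) hab
      exact orbit_ne_base H x hx _ (w : MulAction.orbit H x).2 h1
    | some w, some w' =>
      have h1 : ((w : MulAction.orbit H x) : G ⧸ H) = ((w' : MulAction.orbit H x) : G ⧸ H) :=
        congrArg (fun q : MulAction.fixedPoints P (G ⧸ H) => (q : G ⧸ H)) hab
      exact congrArg some (Subtype.ext (Subtype.ext h1))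
  have h3 := Nat.card_le_card_of_injective ι hι
  rw [Finite.card_option] at h3
  omega

/-- If `H` has index `n` and every `H`-orbit on the non-base cosets has `n - 1` elements, then
the action of `G` on the cosets of `H` is 2-transitive. -/
theorem two_trans_of_orbits [Finite G] (H : Subgroup G)
    (horb : ∀ x : G ⧸ H, x ≠ QuotientGroup.mk (1 : G) →
      H.index ≤ Nat.card (MulAction.orbit H x) + 1) :
    MulAction.IsMultiplyPretransitive G (G ⧸ H) 2 := by
  classical
  rw [MulAction.is_two_pretransitive_iff]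
  have key : ∀ x y : G ⧸ H, x ≠ QuotientGroup.mk (1 : G) → y ≠ QuotientGroup.mk (1 : G) →
      ∃ h : H, (h : G) • x = y := by
    intro x y hx hy
    have hsub : MulAction.orbit H x ⊆ {w : G ⧸ H | w ≠ QuotientGroup.mk (1 : G)} :=
      fun o ho => orbit_ne_base H x hx o ho
    have hc : ({w : G ⧸ H | w ≠ QuotientGroup.mk (1 : G)}).ncard + 1 = H.index := by
      have h1 : ({w : G ⧸ H | w ≠ QuotientGroup.mk (1 : G)}) =
          ({QuotientGroup.mk (1 : G)} : Set (G ⧸ H))ᶜ := by
        ext w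
        simp
      rw [h1, Set.ncard_compl, Set.ncard_singleton, Subgroup.index]
      have : 0 < Nat.card (G ⧸ H) := Nat.card_pos
      omega
    have heq : MulAction.orbit H x = {w : G ⧸ H | w ≠ QuotientGroup.mk (1 : G)} := by
      apply Set.eq_of_subset_of_ncard_le hsub
      have := horb x hx
      rw [Nat.card_coe_set_eq] at this
      omega
    have hy' : y ∈ MulAction.orbit H x := by rw [heq]; exact hy
    obtain ⟨h, hh⟩ := hy'
    exact ⟨h, hh⟩
  intro a b c d hab hcd
  obtain ⟨g₁, rfl⟩ := QuotientGroup.mk_surjective a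
  obtain ⟨g₂, rfl⟩ := QuotientGroup.mk_surjective c
  have ha : g₁⁻¹ • (QuotientGroup.mk g₁ : G ⧸ H) = QuotientGroup.mk (1 : G) := by
    have : g₁⁻¹ • (QuotientGroup.mk g₁ : G ⧸ H) = QuotientGroup.mk (g₁⁻¹ * g₁) := rfl
    rw [this, inv_mul_cancel]
  have hc : g₂⁻¹ • (QuotientGroup.mk g₂ : G ⧸ H) = QuotientGroup.mk (1 : G) := by
    have : g₂⁻¹ • (QuotientGroup.mk g₂ : G ⧸ H) = QuotientGroup.mk (g₂⁻¹ * g₂) := rfl
    rw [this, inv_mul_cancel]
  have hb : g₁⁻¹ • b ≠ QuotientGroup.mk (1 : G) := by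
    rw [← ha]
    intro h
    exact hab (smul_left_cancel _ h).symm
  have hd : g₂⁻¹ • d ≠ QuotientGroup.mk (1 : G) := by
    rw [← hc]
    intro h
    exact hcd (smul_left_cancel _ h).symm
  obtain ⟨h, hh⟩ := key _ _ hb hd
  refine ⟨g₂ * (h : G) * g₁⁻¹, ?_, ?_⟩
  · rw [mul_smul, ha, mul_smul, base_fixed H h]
    have : g₂ • (QuotientGroup.mk (1 : G) : G ⧸ H) = QuotientGroup.mk (g₂ * 1) := rfl
    rw [this, mul_one]
  · rw [mul_smul, mul_smul, hh, smul_inv_smul]

end twotrans

set_option maxRecDepth 100000 in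
theorem alt5_count3 :
    Fintype.card {σ : alternatingGroup (Fin 5) // σ ≠ 1 ∧ σ ^ 3 = 1} = 20 := by decide

set_option maxRecDepth 100000 in
theorem alt5_count5 :
    Fintype.card {σ : alternatingGroup (Fin 5) // σ ≠ 1 ∧ σ ^ 5 = 1} = 24 := by decide

section eleven

variable {F : Type*} [Field F] [Fintype F]

theorem psl11_fix (hF : Fintype.card F = 11) (H : Subgroup PSL(2, F))
    (f : H ≃* alternatingGroup (Fin 5)) (p : ℕ) (hp : p = 3 ∨ p = 5) (t : H)
    (ht : orderOf t = p) :
    Nat.card (MulAction.fixedPoints (Subgroup.zpowers t) (PSL(2, F) ⧸ H)) ≤ 2 := by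
  classical
  haveI : Fact (Nat.Prime 11) := ⟨by norm_num⟩
  haveI : CharP F 11 := by
    obtain ⟨ℓ, hℓ⟩ := CharP.exists F
    haveI := hℓ
    obtain ⟨n, hprime, hcard⟩ := FiniteField.card F ℓ
    rw [hF] at hcard
    have h1 : ℓ ∣ 11 := by
      rw [hcard]
      exact dvd_pow_self _ n.ne_zero
    have h2 : ℓ = 11 := (Nat.prime_dvd_prime_iff_eq hprime (by norm_num)).1 h1
    rw [← h2]
    exact hℓ
  have hH : Nat.card H = 60 := by rw [Nat.card_congr f.toEquiv, card_alt5]
  have hpp : p.Prime := by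
    rcases hp with rfl | rfl <;> norm_num
  have hp11 : Nat.Coprime p 11 := by
    rcases hp with rfl | rfl <;> norm_num
  have ht1' : t ≠ 1 := by
    rintro rfl
    rw [orderOf_one] at ht
    rcases hp with rfl | rfl <;> omega
  have ht1 : (t : PSL(2, F)) ≠ 1 := fun h => ht1' (Subtype.ext h)
  have htp' : t ^ p = 1 := by
    rw [← ht]
    exact pow_orderOf_eq_one t
  have htp : (t : PSL(2, F)) ^ p = 1 := by
    have := congrArg Subtype.val htp'
    simpa using this
  have hord : orderOf (t : PSL(2, F)) = p := by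
    rw [Subgroup.orderOf_coe, ht]
  have hs : trSq (t : PSL(2, F)) ≠ 4 := trSq_ne_four_of_coprime 11 _ ht1 p htp hp11
  have hsq : (t : PSL(2, F)) * (t : PSL(2, F)) ≠ 1 := by
    intro h
    have h3 : orderOf (t : PSL(2, F)) ∣ 2 := orderOf_dvd_of_pow_eq_one (by rw [pow_two]; exact h)
    rw [hord] at h3
    have := Nat.le_of_dvd (by norm_num) h3
    rcases hp with rfl | rfl <;> omega
  have hcent : Subgroup.centralizer ({(t : PSL(2, F))} : Set PSL(2, F)) ≤ Mq (t : PSL(2, F)) := by
    intro c hc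
    rw [Subgroup.mem_centralizer_singleton_iff] at hc
    exact mem_Mq_of_comm_semi _ c ht1 hs hsq hc
  have hMq := Mq_semi_card (t : PSL(2, F)) hs
  rw [hF] at hMq
  have hg : Nat.gcd 2 (11 - 1) = 2 := by norm_num
  rw [hg] at hMq
  have hdvd : p ∣ Nat.card (Mq (t : PSL(2, F))) := by
    have := orderOf_dvd_natCard (⟨(t : PSL(2, F)), tiPart_Mq.mem _ ht1⟩ : Mq (t : PSL(2, F)))
    rwa [Subgroup.orderOf_mk, hord] at this
  have hcc : Nat.card (Subgroup.centralizer ({(t : PSL(2, F))} : Set PSL(2, F))) ≤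
      Nat.card (Mq (t : PSL(2, F))) := Subgroup.card_le_of_le hcent
  have hb := fix_bound H (t : PSL(2, F)) (fun g => g ≠ 1 ∧ g ^ p = 1) (by
    intro g _
    refine ⟨conj_ne_one'' ht1, ?_⟩
    have : (g⁻¹ * (t : PSL(2, F)) * g) ^ p = g⁻¹ * (t : PSL(2, F)) ^ p * g := by
      have := conj_pow (a := g⁻¹) (b := (t : PSL(2, F))) (i := p)
      rw [inv_inv] at this
      exact this
    rw [this, htp]
    group)
  have hcount : Nat.card {h : H // (h : PSL(2, F)) ≠ 1 ∧ (h : PSL(2, F)) ^ p = 1} =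
      Nat.card {σ : alternatingGroup (Fin 5) // σ ≠ 1 ∧ σ ^ p = 1} := by
    apply Nat.card_congr
    refine Equiv.subtypeEquiv f.toEquiv (fun h => ?_)
    have e1 : (h : PSL(2, F)) ≠ 1 ↔ f h ≠ 1 := by
      rw [Ne, Ne, map_eq_one_iff f f.injective]
      exact not_congr (by
        constructor
        · intro h'
          exact Subtype.ext h'
        · intro h'
          rw [h']
          rfl)
    have e2 : (h : PSL(2, F)) ^ p = 1 ↔ f h ^ p = 1 := by
      rw [← map_pow, map_eq_one_iff f f.injective]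
      constructor
      · intro h'
        apply Subtype.ext
        simpa using h'
      · intro h'
        have := congrArg Subtype.val h'
        simpa using this
    exact and_congr e1 e2
  rw [hcount, hH] at hb
  have hfix : Nat.card {x : PSL(2, F) ⧸ H // (t : PSL(2, F)) • x = x} ≤ 2 := by
    rcases hp with rfl | rfl
    · rw [Nat.card_eq_fintype_card (α := {σ : alternatingGroup (Fin 5) // σ ≠ 1 ∧ σ ^ 3 = 1}),
        alt5_count3] at hb
      have h6 : Nat.card (Subgroup.centralizer ({(t : PSL(2, F))} : Set PSL(2, F))) ≤ 6 := by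
        rcases hMq with h | h <;> omega
      have := Nat.mul_le_mul_right 20 h6
      omega
    · rw [Nat.card_eq_fintype_card (α := {σ : alternatingGroup (Fin 5) // σ ≠ 1 ∧ σ ^ 5 = 1}),
        alt5_count5] at hb
      have h5 : Nat.card (Subgroup.centralizer ({(t : PSL(2, F))} : Set PSL(2, F))) ≤ 5 := by
        rcases hMq with h | h
        · omega
        · exfalso
          have h6 : Nat.card (Mq (t : PSL(2, F))) = 6 := by omega
          rw [h6] at hdvd
          omega
      have := Nat.mul_le_mul_right 24 h5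
      omega
  refine le_trans (Nat.card_le_card_of_injective
    (fun x : MulAction.fixedPoints (Subgroup.zpowers t) (PSL(2, F) ⧸ H) =>
      (⟨(x : PSL(2, F) ⧸ H), x.2 ⟨t, Subgroup.mem_zpowers t⟩⟩ :
        {x : PSL(2, F) ⧸ H // (t : PSL(2, F)) • x = x})) ?_) hfix
  intro a b hab
  exact Subtype.ext (congrArg (fun q : {x : PSL(2, F) ⧸ H // (t : PSL(2, F)) • x = x} =>
    (q : PSL(2, F) ⧸ H)) hab)

theorem psl11_two_trans (hF : Fintype.card F = 11) (H : Subgroup PSL(2, F))
    (f : H ≃* alternatingGroup (Fin 5)) :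
    H.index = 11 ∧ MulAction.IsMultiplyPretransitive PSL(2, F) (PSL(2, F) ⧸ H) 2 := by
  classical
  have hG : Nat.card PSL(2, F) = 660 := by
    have := card_PSL2_gen (F := F)
    rw [hF] at this
    have h2 : Nat.gcd 2 (11 - 1) = 2 := by norm_num
    have h3 : 11 * (11 ^ 2 - 1) = 1320 := by norm_num
    rw [h2, h3] at this
    omega
  have hH : Nat.card H = 60 := by rw [Nat.card_congr f.toEquiv, card_alt5]
  have hidx : H.index = 11 := by
    have := Subgroup.card_mul_index H
    rw [hG, hH] at this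
    omega
  refine ⟨hidx, ?_⟩
  haveI : Fact (Nat.Prime 3) := ⟨Nat.prime_three⟩
  haveI : Fact (Nat.Prime 5) := ⟨Nat.prime_five⟩
  obtain ⟨z, hz⟩ := exists_prime_orderOf_dvd_card' (G := H) 3 (by rw [hH]; norm_num)
  obtain ⟨y, hy⟩ := exists_prime_orderOf_dvd_card' (G := H) 5 (by rw [hH]; norm_num)
  have hPz : IsPGroup 3 (Subgroup.zpowers z) :=
    IsPGroup.of_card (n := 1) (by rw [Nat.card_zpowers, hz, pow_one])
  have hPy : IsPGroup 5 (Subgroup.zpowers y) :=
    IsPGroup.of_card (n := 1) (by rw [Nat.card_zpowers, hy, pow_one])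
  have hfz := psl11_fix hF H f 3 (Or.inl rfl) z hz
  have hfy := psl11_fix hF H f 5 (Or.inr rfl) y hy
  have hfy1 : Nat.card (MulAction.fixedPoints (Subgroup.zpowers y) (PSL(2, F) ⧸ H)) ≤ 0 + 1 := by
    have hmod := hPy.card_modEq_card_fixedPoints (PSL(2, F) ⧸ H)
    have hX : Nat.card (PSL(2, F) ⧸ H) = 11 := hidx
    rw [hX] at hmod
    unfold Nat.ModEq at hmod
    omega
  apply two_trans_of_orbits
  intro x hx
  rw [hidx]
  obtain ⟨c5, hc5, hm5⟩ := orbit_modEq H x hx 5 (Subgroup.zpowers y) hPy 0 hfy1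
  obtain ⟨c3, hc3, hm3⟩ := orbit_modEq H x hx 3 (Subgroup.zpowers z) hPz 1 hfz
  have hle : Nat.card (MulAction.orbit H x) ≤ 10 := by
    have hsub : MulAction.orbit H x ⊆ {w : PSL(2, F) ⧸ H | w ≠ QuotientGroup.mk (1 : PSL(2, F))} :=
      fun o ho => orbit_ne_base H x hx o ho
    have hc : ({w : PSL(2, F) ⧸ H | w ≠ QuotientGroup.mk (1 : PSL(2, F))}).ncard + 1 = 11 := by
      have h1 : ({w : PSL(2, F) ⧸ H | w ≠ QuotientGroup.mk (1 : PSL(2, F))}) =
          ({QuotientGroup.mk (1 : PSL(2, F))} : Set (PSL(2, F) ⧸ H))ᶜ := by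
        ext w
        simp
      have hX : Nat.card (PSL(2, F) ⧸ H) = 11 := hidx
      rw [h1, Set.ncard_compl, Set.ncard_singleton, hX]
    have := Set.ncard_le_ncard hsub
    rw [Nat.card_coe_set_eq]
    omega
  have hpos : 0 < Nat.card (MulAction.orbit H x) := by
    haveI : Nonempty (MulAction.orbit H x) := ⟨⟨x, MulAction.mem_orbit_self x⟩⟩
    exact Nat.card_pos
  unfold Nat.ModEq at hm5 hm3
  omega

end eleven

end Cfsg.Agent.Lib.helper12
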